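import Mathlib
import Cfsg.Agent.Lib.GS1.SolvPrimeGraph
import Cfsg.Agent.Lib.Core.MinNormal

/-!
# Groups all of whose elements have prime power order
-/

set_option autoImplicit false

namespace Cfsg.Agent.Lib.GS1

open Cfsg Subgroup Cfsg.Agent.Lib.Hall Cfsg.Agent.Lib.Core
open scoped Pointwise commutatorElement

/-- All nonidentity elements have prime power order. -/
def EPPO (X : Type*) [Group X] : Prop := ∀ g : X, g ≠ 1 → IsPrimePow (orderOf g)

theorem EPPO.sub {X : Type*} [Group X] (h : EPPO X) (N : Subgroup X) : EPPO N := by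
  intro g hg
  have := h g (fun h1 => hg (Subtype.ext h1))
  rwa [Subgroup.orderOf_coe] at this

theorem EPPO.quot {X : Type*} [Group X] (h : EPPO X) (N : Subgroup X) [N.Normal] : EPPO (X ⧸ N) := by
  intro g hg
  obtain ⟨x, rfl⟩ := QuotientGroup.mk_surjective g
  have hx1 : x ≠ 1 := by
    rintro rfl
    exact hg rfl
  obtain ⟨r, k, hr, hk, hrk⟩ := h x hx1
  have hd : orderOf (x : X ⧸ N) ∣ r ^ k := by
    rw [hrk]
    exact orderOf_map_dvd (QuotientGroup.mk' N) x
  obtain ⟨i, -, hi⟩ := (Nat.dvd_prime_pow hr.nat_prime).mp hd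
  refine ⟨r, i, hr, ?_, hi.symm⟩
  rcases Nat.eq_zero_or_pos i with h0 | h0
  · exfalso
    rw [h0, pow_zero] at hi
    exact hg (orderOf_eq_one_iff.mp hi)
  · exact h0

theorem not_isPrimePow_mul {p q : ℕ} (hp : p.Prime) (hq : q.Prime) (hpq : p ≠ q) : ¬ IsPrimePow (p * q) := by
  rintro ⟨r, k, hr, hk, h⟩
  have hr' := hr.nat_prime
  have h1 : p = r := (Nat.prime_dvd_prime_iff_eq hp hr').mp
    (hp.dvd_of_dvd_pow (by rw [h]; exact dvd_mul_right _ _))
  have h2 : q = r := (Nat.prime_dvd_prime_iff_eq hq hr').mp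
    (hq.dvd_of_dvd_pow (by rw [h]; exact dvd_mul_left _ _))
  exact hpq (h1.trans h2.symm)

theorem eppo_comm {X : Type*} [Group X] (h : EPPO X) {x y : X} (hxy : Commute x y) (hx1 : x ≠ 1)
    (hy1 : y ≠ 1) (hc : (orderOf x).Coprime (orderOf y)) : False := by
  have h1 : x * y ≠ 1 := by
    intro h2
    have h3 := hxy.orderOf_mul_eq_mul_orderOf_of_coprime hc
    rw [h2, orderOf_one] at h3
    have h4 : orderOf x = 1 := Nat.eq_one_of_mul_eq_one_right h3.symm
    exact hx1 (orderOf_eq_one_iff.mp h4)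
  obtain ⟨r, k, hr, hk, hrk⟩ := h (x * y) h1
  have hr' := hr.nat_prime
  rw [hxy.orderOf_mul_eq_mul_orderOf_of_coprime hc] at hrk
  have hxo : orderOf x ≠ 1 := fun h => hx1 (orderOf_eq_one_iff.mp h)
  have hyo : orderOf y ≠ 1 := fun h => hy1 (orderOf_eq_one_iff.mp h)
  obtain ⟨i, -, hi⟩ := (Nat.dvd_prime_pow hr').mp (hrk ▸ dvd_mul_right (orderOf x) (orderOf y))
  obtain ⟨j, -, hj⟩ := (Nat.dvd_prime_pow hr').mp (hrk ▸ dvd_mul_left (orderOf y) (orderOf x))
  have hi0 : i ≠ 0 := by
    rintro rfl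
    exact hxo (by rw [hi, pow_zero])
  have hj0 : j ≠ 0 := by
    rintro rfl
    exact hyo (by rw [hj, pow_zero])
  rw [hi, hj] at hc
  have := Nat.Coprime.eq_one_of_dvd (Nat.Coprime.coprime_dvd_left (dvd_pow_self r hi0) hc)
    (dvd_pow_self r hj0)
  exact hr'.one_lt.ne' this

theorem isPGroup_of_primes {T : Type*} [Group T] [Finite T] {p : ℕ} (hp : p.Prime)
    (h : ∀ q : ℕ, q.Prime → q ∣ Nat.card T → q = p) : IsPGroup p T := by
  haveI : Fact p.Prime := ⟨hp⟩
  rw [IsPGroup.iff_card]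
  exact ⟨_, Nat.eq_prime_pow_of_unique_prime_dvd Nat.card_pos.ne' (fun hd hdv => h _ hd hdv)⟩

theorem exists_prime_ne_of_not_pgroup {T : Type*} [Group T] [Finite T] {p : ℕ} (hp : p.Prime)
    (h : ¬ IsPGroup p T) : ∃ q : ℕ, q.Prime ∧ q ∣ Nat.card T ∧ q ≠ p := by
  by_contra hno
  push Not at hno
  exact h (isPGroup_of_primes hp fun q hq hd => hno q hq hd)

/-- Prime-power elements of different primes do not commute. -/
theorem eppo_comm_primes {X : Type*} [Group X] [Finite X] (h : EPPO X) {x y : X} {p q : ℕ} (hp : p.Prime) (hq : q.Prime)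
    (hpq : p ≠ q) (hxy : Commute x y) (hx1 : x ≠ 1) (hy1 : y ≠ 1) {a b : ℕ} (hx : orderOf x = p ^ a)
    (hy : orderOf y = q ^ b) : False := by
  refine eppo_comm h hxy hx1 hy1 ?_
  rw [hx, hy]
  exact Nat.Coprime.pow _ _ ((Nat.coprime_primes hp hq).mpr hpq)

theorem order_mul_ne_one {T : Type*} [Group T] {p q : ℕ} (hp : p.Prime) {t : T}
    (ht : orderOf t = p * q) (hq : q.Prime) : t ≠ 1 := by
  rintro rfl
  rw [orderOf_one] at ht
  have h1 := hp.one_lt
  have h2 := hq.one_lt
  nlinarith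

theorem eppo_no_order_mul {T : Type*} [Group T] (h : EPPO T) {p q : ℕ} (hp : p.Prime) (hq : q.Prime)
    (hpq : p ≠ q) (t : T) : orderOf t ≠ p * q := by
  intro ht
  have h1 := h t (order_mul_ne_one hp ht hq)
  rw [ht] at h1
  exact not_isPrimePow_mul hp hq hpq h1

theorem eppo_nilpotent_pgroup {T : Type*} [Group T] [Finite T] [Group.IsNilpotent T] (h : EPPO T) :
    ∃ p : ℕ, p.Prime ∧ IsPGroup p T := by
  by_cases hT : Nat.card T = 1
  · refine ⟨2, Nat.prime_two, ?_⟩
    rw [IsPGroup.iff_card]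
    exact ⟨0, by rw [hT, pow_zero]⟩
  obtain ⟨p, hp, hpd⟩ := Nat.exists_prime_and_dvd hT
  refine ⟨p, hp, isPGroup_of_primes hp fun q hq hqd => ?_⟩
  by_contra hne
  obtain ⟨t, ht⟩ := exists_order_mul_of_nilpotent hp hq (Ne.symm hne) hpd hqd
  exact eppo_no_order_mul h hp hq (Ne.symm hne) t ht

/-- A `q`-element commutes only with `q`-elements. -/
theorem eppo_centralizer_order {X : Type*} [Group X] [Finite X] (h : EPPO X) {q : ℕ} (hq : q.Prime) {z y : X}
    (hz1 : z ≠ 1) {a : ℕ} (hz : orderOf z = q ^ a) (hyz : Commute y z) :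
    ∃ k, orderOf y = q ^ k := by
  by_cases hy1 : y = 1
  · exact ⟨0, by rw [hy1, orderOf_one, pow_zero]⟩
  obtain ⟨r, k, hr, hk, hrk⟩ := h y hy1
  have hr' := hr.nat_prime
  by_cases hrq : r = q
  · exact ⟨k, by rw [← hrk, hrq]⟩
  · exact (eppo_comm_primes h hr' hq hrq hyz hy1 hz1 hrk.symm hz).elim

/-- **A solvable EPPO Frobenius complement has prime power order.** -/
theorem eppo_complement_pgroup {X : Type*} [Group X] [Finite X] (h : EPPO X) {K C : Subgroup X} [K.Normal]
    (hc : IsComplement' K C) (hK : K ≠ ⊥) (hf : ∀ c ∈ C, c ≠ 1 → K ⊓ centralizer {c} = ⊥)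
    (hs : Group.IsSolvable C) : ∃ r : ℕ, r.Prime ∧ IsPGroup r C := by
  classical
  by_cases hT : Nat.card C = 1
  · refine ⟨2, Nat.prime_two, ?_⟩
    rw [IsPGroup.iff_card]
    exact ⟨0, by rw [hT, pow_zero]⟩
  haveI hnt : Nontrivial C := by
    apply Finite.one_lt_card_iff_nontrivial.mp
    have := Nat.card_pos (α := C)
    omega
  have hF : fittingSubgroup C ≠ ⊥ := fitting_ne_bot
  have hF2 : Nat.card (fittingSubgroup C) ≠ 1 := fun h1 => hF (Subgroup.card_eq_one.mp h1)
  obtain ⟨r, hr, hrF⟩ := Nat.exists_prime_and_dvd hF2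
  haveI : Fact r.Prime := ⟨hr⟩
  have hO := Cfsg.Agent.Lib.Techniques.pCore_ne_bot_of_dvd hrF
  refine ⟨r, hr, ?_⟩
  let O : Subgroup C := pCore r C
  have hOp : IsPGroup r O := pCore_isPGroup r C
  haveI hOnt : Nontrivial O := (Subgroup.nontrivial_iff_ne_bot _).mpr hO
  -- the centre of `O`, as a subgroup of `C`
  let Z : Subgroup C := (center O).map O.subtype
  haveI hZn : Z.Normal := ConjAct.normal_of_characteristic_of_normal
  have hZp : IsPGroup r Z := (hOp.to_subgroup (center O)).map _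
  have hZ1 : Z ≠ ⊥ := by
    haveI := hOp.center_nontrivial
    obtain ⟨z, hz⟩ := exists_ne (1 : center O)
    intro h1
    have h2 : ((z : O) : C) ∈ Z := ⟨z, z.2, rfl⟩
    rw [h1, mem_bot] at h2
    exact hz (Subtype.ext (Subtype.ext h2))
  have hZab : IsMulCommutative Z := Subgroup.map_isMulCommutative _ _
  let E : Subgroup X := Z.map C.subtype
  have hEab : IsMulCommutative E := Subgroup.map_isMulCommutative _ _
  have hEs : Group.IsSolvable E := by
    apply Group.isSolvable_of_comm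
    exact hEab.is_comm.comm
  have hEcyc : IsCyclic E := isCyclic_of_le_complement hc hK hf E (by
    rintro _ ⟨x, -, rfl⟩
    exact x.2) hEs (Or.inl hEab)
  have hZcyc : IsCyclic Z :=
    isCyclic_of_injective (Z.equivMapOfInjective C.subtype C.subtype_injective).toMonoidHom
      (Z.equivMapOfInjective C.subtype C.subtype_injective).injective
  -- an element of order `r` in `Z`
  have hrZ : r ∣ Nat.card Z := by
    obtain ⟨n, hn⟩ := IsPGroup.iff_card.mp hZp
    have h1 : Nat.card Z ≠ 1 := fun h1 => hZ1 (Subgroup.card_eq_one.mp h1)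
    rw [hn] at h1 ⊢
    have hn0 : n ≠ 0 := by
      rintro rfl
      exact h1 (pow_zero r)
    exact dvd_pow_self r hn0
  obtain ⟨w, hw⟩ := exists_prime_orderOf_dvd_card' r hrZ
  let z : C := w
  have hz : orderOf z = r := by rw [← hw]; exact Subgroup.orderOf_coe w
  have hz1 : z ≠ 1 := by
    intro h1
    rw [h1, orderOf_one] at hz
    exact hr.one_lt.ne hz
  -- no element of prime order `s ≠ r`
  refine isPGroup_of_primes hr fun s hs' hsd => ?_
  by_contra hsr
  haveI : Fact s.Prime := ⟨hs'⟩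
  obtain ⟨y, hy⟩ := exists_prime_orderOf_dvd_card' s hsd
  have hy1 : y ≠ 1 := by
    intro h1
    rw [h1, orderOf_one] at hy
    exact hs'.one_lt.ne hy
  -- `y` normalises `⟨z⟩`
  have hconj : ∀ c : C, c * z * c⁻¹ ∈ zpowers z := by
    intro c
    have h1 : c * z * c⁻¹ ∈ Z := hZn.conj_mem z w.2 c
    have h2 : (⟨c * z * c⁻¹, h1⟩ : Z) ^ r = 1 := by
      apply Subtype.ext
      change (c * z * c⁻¹) ^ r = 1
      rw [conj_pow, ← hz, pow_orderOf_eq_one]
      group
    have h3 := mem_zpowers_of_pow_eq_one hr.pos hw h2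
    obtain ⟨n, hn⟩ := h3
    refine ⟨n, ?_⟩
    have := congrArg Subtype.val hn
    simpa using this
  let z' : X := z
  let y' : X := y
  have hz' : orderOf z' = r := by rw [← hz]; exact Subgroup.orderOf_coe z
  have hy' : orderOf y' = s := by rw [← hy]; exact Subgroup.orderOf_coe y
  have hz'1 : z' ≠ 1 := fun h1 => hz1 (Subtype.ext h1)
  have hy'1 : y' ≠ 1 := fun h1 => hy1 (Subtype.ext h1)
  have hnorm : zpowers y' ≤ normalizer (zpowers z' : Set X) := by
    rw [zpowers_le, mem_normalizer_iff]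
    intro u
    have hconj2 : ∀ c : C, (c : X) * z' * (c : X)⁻¹ ∈ zpowers z' := by
      intro c
      obtain ⟨n, hn⟩ := hconj c
      refine ⟨n, ?_⟩
      have := congrArg Subtype.val hn
      simpa using this
    have hzu : ∀ (c : C) (u : X), u ∈ zpowers z' → (c : X) * u * (c : X)⁻¹ ∈ zpowers z' := by
      intro c u hu
      obtain ⟨n, rfl⟩ := hu
      have h1 : (c : X) * z' ^ n * (c : X)⁻¹ = ((c : X) * z' * (c : X)⁻¹) ^ n := by
        rw [conj_zpow]
      change (c : X) * z' ^ n * (c : X)⁻¹ ∈ zpowers z'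
      rw [h1]
      exact zpow_mem (hconj2 c) n
    constructor
    · exact hzu y u
    · intro hu
      have h1 := hzu y⁻¹ _ hu
      have h2 : ((y⁻¹ : C) : X) * (y' * u * y'⁻¹) * ((y⁻¹ : C) : X)⁻¹ = u := by
        change (y : X)⁻¹ * ((y : X) * u * (y : X)⁻¹) * ((y : X)⁻¹)⁻¹ = u
        group
      rwa [h2] at h1
  have hcardz : Nat.card (zpowers z') = r := by rw [Nat.card_zpowers, hz']
  have hcardy : Nat.card (zpowers y') = s := by rw [Nat.card_zpowers, hy']
  have hinf : zpowers y' ⊓ zpowers z' = ⊥ := by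
    apply disjoint_iff.mp
    apply disjoint_of_coprime_natCard
    rw [hcardz, hcardy]
    exact (Nat.coprime_primes hs' hr).mpr hsr
  have hcardE := card_sup_of_le_normalizer hnorm hinf
  rw [hcardz, hcardy] at hcardE
  have hE2C : zpowers y' ⊔ zpowers z' ≤ C := by
    rw [sup_le_iff, zpowers_le, zpowers_le]
    exact ⟨y.2, z.2⟩
  have hE2s : Group.IsSolvable ↥(zpowers y' ⊔ zpowers z') :=
    solvable_of_solvable_injective (f := Subgroup.inclusion hE2C) (Subgroup.inclusion_injective hE2C)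
  have hE2cyc : IsCyclic ↥(zpowers y' ⊔ zpowers z') :=
    isCyclic_of_le_complement hc hK hf _ hE2C hE2s (Or.inr ⟨s, r, hs', hr, hcardE⟩)
  have hcomm : Commute y' z' := by
    have h1 : ∀ a b : ↥(zpowers y' ⊔ zpowers z'), a * b = b * a := comm_of_isCyclic
    have h2 := h1 ⟨y', mem_sup_left (mem_zpowers y')⟩ ⟨z', mem_sup_right (mem_zpowers z')⟩
    exact congrArg Subtype.val h2
  exact eppo_comm_primes h hs' hr hsr hcomm hy'1 hz'1 (a := 1) (b := 1) (by rw [hy', pow_one])
    (by rw [hz', pow_one])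

/-- **Solvable EPPO groups involve at most two primes.** -/
theorem eppo_solvable_primes {X : Type*} [Group X] [Finite X] (h : EPPO X) (hs : Group.IsSolvable X) :
    (Nat.card X).primeFactors.card ≤ 2 := by
  classical
  by_contra hcard
  push Not at hcard
  obtain ⟨a, ha, b, hb, c, hc, hab, hac, hbc⟩ := Finset.two_lt_card.mp hcard
  have ha' := Nat.prime_of_mem_primeFactors ha
  have hb' := Nat.prime_of_mem_primeFactors hb
  have hc' := Nat.prime_of_mem_primeFactors hc
  have had := Nat.dvd_of_mem_primeFactors ha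
  have hbd := Nat.dvd_of_mem_primeFactors hb
  have hcd := Nat.dvd_of_mem_primeFactors hc
  have hdisc : ∃ A : Set ℕ, (∃ a ∈ A, a.Prime ∧ a ∣ Nat.card X) ∧ (∃ b ∉ A, b.Prime ∧ b ∣ Nat.card X) ∧
      ∀ a ∈ A, ∀ b ∉ A, a.Prime → b.Prime → a ∣ Nat.card X → b ∣ Nat.card X →
        ¬ ∃ g : X, orderOf g = a * b := by
    refine ⟨{a}, ⟨a, rfl, ha', had⟩, ⟨b, (fun h => hab (Set.mem_singleton_iff.mp h).symm), hb', hbd⟩, ?_⟩
    rintro u hu v hv hu' hv' - - ⟨g, hg⟩
    have huv : u ≠ v := by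
      rintro rfl
      exact hv hu
    exact eppo_no_order_mul h hu' hv' huv g hg
  rcases solvable_disconnected hs hdisc with ⟨C, hC⟩ | ⟨H, K, hHn, hKn, hlt, hK, hGH⟩
  · obtain ⟨N, hN, hNn, -⟩ := FrobThm.frobenius_theorem C hC
    obtain ⟨-, hc1, hN1, hf1, -, hnil⟩ := frob_pack hC hN.symm
    have hCs : Group.IsSolvable C := inferInstance
    obtain ⟨r, hr, hCr⟩ := eppo_complement_pgroup h hc1 hN1 hf1 hCs
    haveI : Fact r.Prime := ⟨hr⟩
    have hNe : EPPO N := h.sub N
    have key : ∀ u : ℕ, u.Prime → u ∣ Nat.card X → u ≠ r → u ∣ Nat.card N := by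
      intro u hu hud hur
      rw [← hc1.card_mul_card] at hud
      rcases (Nat.Prime.dvd_mul hu).mp hud with h1 | h1
      · exact h1
      · exfalso
        obtain ⟨n, hn⟩ := IsPGroup.iff_card.mp hCr
        rw [hn] at h1
        exact hur ((Nat.prime_dvd_prime_iff_eq hu hr).mp (hu.dvd_of_dvd_pow h1))
    have key2 : ∀ u v : ℕ, u.Prime → v.Prime → u ≠ v → u ∣ Nat.card X → v ∣ Nat.card X → u ≠ r →
        v ≠ r → False := by
      intro u v hu hv huv hud hvd hur hvr
      obtain ⟨t, ht⟩ := exists_order_mul_of_nilpotent hu hv huv (key u hu hud hur) (key v hv hvd hvr)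
      exact eppo_no_order_mul hNe hu hv huv t ht
    by_cases h1 : a = r
    · exact key2 b c hb' hc' hbc hbd hcd (fun h2 => hab (h1.trans h2.symm))
        (fun h2 => hac (h1.trans h2.symm))
    · by_cases h2 : b = r
      · exact key2 a c ha' hc' hac had hcd h1 (fun h3 => hbc (h2.trans h3.symm))
      · exact key2 a b ha' hb' hab had hbd h1 h2
  · obtain ⟨-, -, -, -, hgraph⟩ := two_frobenius_main hlt hK hGH
    have key : ∀ u v : ℕ, u.Prime → v.Prime → u ≠ v → u ∣ Nat.card X → v ∣ Nat.card X →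
        ¬ (u ∣ Nat.card (↥K ⧸ H.subgroupOf K) ↔ v ∣ Nat.card (↥K ⧸ H.subgroupOf K)) := by
      intro u v hu hv huv hud hvd hiff
      obtain ⟨g, hg⟩ := (hgraph u v hu hv huv hud hvd).mpr hiff
      exact eppo_no_order_mul h hu hv huv g hg
    have h1 := key a b ha' hb' hab had hbd
    have h2 := key a c ha' hc' hac had hcd
    have h3 := key b c hb' hc' hbc hbd hcd
    tauto

/-- **The solvable radical of a nonsolvable EPPO group is a `p`-group.** -/
theorem eppo_radical_pgroup {G : Type*} [Group G] [Finite G] (hns : ¬ Group.IsSolvable G) (hE : EPPO G)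
    (R : Subgroup G) [hRn : R.Normal] (hRs : Group.IsSolvable R) : ∃ p : ℕ, p.Prime ∧ IsPGroup p R := by
  classical
  by_contra hno
  push Not at hno
  have hRnt : Nontrivial R := by
    by_contra hnt
    rw [not_nontrivial_iff_subsingleton] at hnt
    exact hno 2 Nat.prime_two (IsPGroup.of_card (n := 0) (by rw [Nat.card_of_subsingleton (1 : R)]; rfl))
  have hF : fittingSubgroup R ≠ ⊥ := fitting_ne_bot
  have hF2 : Nat.card (fittingSubgroup R) ≠ 1 := fun h1 => hF (Subgroup.card_eq_one.mp h1)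
  obtain ⟨p, hp, hpF⟩ := Nat.exists_prime_and_dvd hF2
  haveI : Fact p.Prime := ⟨hp⟩
  have hO := Cfsg.Agent.Lib.Techniques.pCore_ne_bot_of_dvd hpF
  let P : Subgroup G := (pCore p R).map R.subtype
  haveI hPn : P.Normal := ConjAct.normal_of_characteristic_of_normal
  have hPp : IsPGroup p P := (pCore_isPGroup p R).map _
  have hP1 : P ≠ ⊥ := by
    intro h1
    apply hO
    rwa [Subgroup.map_eq_bot_iff_of_injective _ R.subtype_injective] at h1
  obtain ⟨q, hq, hqR, hqp⟩ := exists_prime_ne_of_not_pgroup hp (hno p hp)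
  haveI : Fact q.Prime := ⟨hq⟩
  obtain ⟨Q₀⟩ : Nonempty (Sylow q R) := inferInstance
  let Q : Subgroup G := (Q₀ : Subgroup R).map R.subtype
  have hQp : IsPGroup q Q := Q₀.isPGroup'.map _
  have hQ1 : Q ≠ ⊥ := by
    intro h1
    apply Q₀.ne_bot_of_dvd_card hqR
    rwa [Subgroup.map_eq_bot_iff_of_injective _ R.subtype_injective] at h1
  have hsup : normalizer (Q : Set G) ⊔ R = ⊤ := Sylow.normalizer_sup_eq_top Q₀
  let N : Subgroup G := normalizer (Q : Set G)
  -- the centre of `Q`
  let Z : Subgroup G := Q ⊓ centralizer (Q : Set G)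
  have hZle : Z ≤ Q := inf_le_left
  have hZp : IsPGroup q Z := hQp.to_le hZle
  have hZab : IsMulCommutative Z := by
    refine ⟨⟨fun a b => Subtype.ext ?_⟩⟩
    exact (mem_centralizer_iff.mp a.2.2 b b.2.1).symm
  have hZ1 : Z ≠ ⊥ := by
    haveI : Nontrivial Q := (Subgroup.nontrivial_iff_ne_bot _).mpr hQ1
    haveI := hQp.center_nontrivial
    obtain ⟨z, hz⟩ := exists_ne (1 : center Q)
    intro h1
    have h2 : ((z : Q) : G) ∈ Z := by
      refine ⟨(z : Q).2, mem_centralizer_iff.mpr ?_⟩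
      intro y hy
      have := (Subgroup.mem_center_iff.mp z.2) ⟨y, hy⟩
      exact congrArg Subtype.val this
    rw [h1, mem_bot] at h2
    exact hz (Subtype.ext (Subtype.ext h2))
  have hNZ : N ≤ normalizer (Z : Set G) := by
    intro n hn
    rw [mem_normalizer_iff]
    have hn' := mem_normalizer_iff.mp hn
    have hn'' := mem_normalizer_iff.mp (N.inv_mem hn)
    intro h
    constructor
    · rintro ⟨h1, h2⟩
      refine ⟨(hn' h).mp h1, mem_centralizer_iff.mpr ?_⟩
      intro y hy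
      have h3 : n⁻¹ * y * n⁻¹⁻¹ ∈ Q := (hn'' y).mp hy
      have h4 := mem_centralizer_iff.mp h2 _ h3
      simp only [inv_inv] at h4
      calc y * (n * h * n⁻¹) = n * ((n⁻¹ * y * n) * h) * n⁻¹ := by group
        _ = n * (h * (n⁻¹ * y * n)) * n⁻¹ := by rw [h4]
        _ = (n * h * n⁻¹) * y := by group
    · rintro ⟨h1, h2⟩
      refine ⟨(hn' h).mpr h1, mem_centralizer_iff.mpr ?_⟩
      intro y hy
      have h3 : n * y * n⁻¹ ∈ Q := (hn' y).mp hy
      have h4 := mem_centralizer_iff.mp h2 _ h3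
      have h5 : n * (y * h) * n⁻¹ = n * (h * y) * n⁻¹ := by
        calc n * (y * h) * n⁻¹ = (n * y * n⁻¹) * (n * h * n⁻¹) := by group
          _ = (n * h * n⁻¹) * (n * y * n⁻¹) := h4
          _ = n * (h * y) * n⁻¹ := by group
      exact mul_left_cancel (mul_right_cancel h5)
  -- `Z` is cyclic
  have hZs : Group.IsSolvable Z := by
    apply Group.isSolvable_of_comm
    exact hZab.is_comm.comm
  have hcopZP : (Nat.card Z).Coprime (Nat.card P) := by
    obtain ⟨m, hm⟩ := IsPGroup.iff_card.mp hZp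
    obtain ⟨n, hn⟩ := IsPGroup.iff_card.mp hPp
    rw [hm, hn]
    exact Nat.Coprime.pow _ _ ((Nat.coprime_primes hq hp).mpr hqp)
  obtain ⟨V, hVP, hV1, hVab, hZV⟩ := exists_abelian_invariant Z P
    (by rw [Subgroup.normalizer_eq_top_iff.mpr hPn]; exact le_top) hcopZP hZs hP1
  haveI := hVab
  have hZcyc : IsCyclic Z := by
    refine isCyclic_of_fpf Z V hV1 hZV ?_ (Or.inl hZab)
    intro a ha ha1
    rw [eq_bot_iff]
    rintro v ⟨hvV, hvc⟩
    rw [mem_bot]
    by_contra hv1
    obtain ⟨k, hk⟩ := IsPGroup.iff_orderOf.mp hZp ⟨a, ha⟩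
    obtain ⟨l, hl⟩ := IsPGroup.iff_orderOf.mp hPp ⟨v, hVP hvV⟩
    rw [Subgroup.orderOf_mk] at hk hl
    exact eppo_comm_primes hE hp hq (Ne.symm hqp) (mem_centralizer_singleton_iff.mp hvc) hv1 ha1 hl hk
  -- commutators of `N` are `q`-elements
  obtain ⟨z, hzZ, hz1⟩ := (Subgroup.bot_or_exists_ne_one Z).resolve_left hZ1
  obtain ⟨a₀, ha₀⟩ := IsPGroup.iff_orderOf.mp hZp ⟨z, hzZ⟩
  rw [Subgroup.orderOf_mk] at ha₀
  have hcommN : commutator N ≤ (centralizer (Z : Set G)).comap N.subtype := by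
    rw [commutator_def, Subgroup.commutator_le]
    intro a _ b _
    exact commutator_mem_centralizer_of_cyclic hZcyc (hNZ a.2) (hNZ b.2)
  have hDp : IsPGroup q (commutator N) := by
    rw [IsPGroup.iff_orderOf]
    rintro ⟨x, hx⟩
    have h1 := hcommN hx
    have h2 : Commute (x : G) z := (mem_centralizer_iff.mp h1 z hzZ).symm
    obtain ⟨k, hk⟩ := eppo_centralizer_order hE hq hz1 ha₀ h2
    refine ⟨k, ?_⟩
    rw [Subgroup.orderOf_mk, ← hk, Subgroup.orderOf_coe]
  haveI : Group.IsNilpotent (commutator N) := hDp.isNilpotent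
  have hNs : Group.IsSolvable N := by
    refine Group.isSolvable_of_ker_le_range (commutator N).subtype (Abelianization.of (G := N)) ?_
    rw [Abelianization.ker_of]
    intro x hx
    exact ⟨⟨x, hx⟩, rfl⟩
  have hQs : Group.IsSolvable (G ⧸ R) := by
    have hsurj : Function.Surjective ((QuotientGroup.mk' R).comp N.subtype) := by
      intro y
      obtain ⟨g, rfl⟩ := QuotientGroup.mk_surjective y
      have hg : g ∈ N ⊔ R := by rw [hsup]; trivial
      have hg' : g ∈ ((N ⊔ R : Subgroup G) : Set G) := hg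
      rw [Subgroup.mul_normal] at hg'
      obtain ⟨n, hn, r, hr, rfl⟩ := Set.mem_mul.mp hg'
      refine ⟨⟨n, hn⟩, ?_⟩
      change (n : G ⧸ R) = ((n * r : G) : G ⧸ R)
      rw [QuotientGroup.mk_mul, (QuotientGroup.eq_one_iff r).mpr hr, mul_one]
    exact Group.isSolvable_of_surjective hsurj
  apply hns
  refine Group.isSolvable_of_ker_le_range R.subtype (QuotientGroup.mk' R) ?_
  intro x hx
  exact ⟨⟨x, (QuotientGroup.eq_one_iff x).mp hx⟩, rfl⟩

/-- **Socle of an EPPO group without solvable normal subgroups.** -/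
theorem eppo_socle {Y : Type*} [Group Y] [Finite Y] [Nontrivial Y] (hE : EPPO Y)
    (hno : ∀ N : Subgroup Y, N.Normal → Group.IsSolvable N → N = ⊥) :
    ∃ M : Subgroup Y, M.Normal ∧ IsSimpleGroup M ∧ ¬ IsMulCommutative M ∧
      ∀ N : Subgroup Y, N.Normal → N ≠ ⊥ → M ≤ N := by
  classical
  obtain ⟨M, hMn, hM1, -, hmin⟩ := exists_minimal_normal_le (K := (⊤ : Subgroup Y)) inferInstance top_ne_bot
  haveI := hMn
  have hME : EPPO M := hE.sub M
  have hMns : ¬ Group.IsSolvable M := fun h => hM1 (hno M hMn h)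
  -- `M` is not a `p`-group
  have hMnp : ∀ p : ℕ, p.Prime → ¬ IsPGroup p M := by
    intro p hp h
    apply hMns
    haveI : Fact p.Prime := ⟨hp⟩
    haveI := h.isNilpotent
    infer_instance
  have hsimple_aux : ∀ S : Subgroup M, S.Normal → S ≠ ⊥ → S = ⊤ := by
    intro S₀ hS₀n hS₀1
    obtain ⟨S, hSn, hS1, hSS₀, hSmin⟩ := exists_minimal_normal_le hS₀n hS₀1
    haveI := hSn
    suffices hS : S = ⊤ by
      rw [eq_top_iff, ← hS]
      exact hSS₀
    -- `S` is not a `p`-group
    have hSnp : ∀ p : ℕ, p.Prime → ¬ IsPGroup p S := by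
      intro p hp hSp
      haveI : Fact p.Prime := ⟨hp⟩
      have h1 : S ≤ pCore p M := le_pCore hSn hSp
      have h2 : ((pCore p M).map M.subtype).Normal := ConjAct.normal_of_characteristic_of_normal
      have h3 : (pCore p M).map M.subtype ≠ ⊥ := by
        intro h4
        rw [Subgroup.map_eq_bot_iff_of_injective _ M.subtype_injective] at h4
        rw [h4, le_bot_iff] at h1
        exact hS1 h1
      rcases hmin _ h2 (by
        rintro _ ⟨x, -, rfl⟩
        exact x.2) with h4 | h4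
      · exact h3 h4
      · apply hMnp p hp
        have h5 : IsPGroup p ((pCore p M).map M.subtype) := (pCore_isPGroup p M).map _
        rwa [h4] at h5
    -- elements of different prime orders in `S`
    have hS1' : Nat.card S ≠ 1 := fun h1 => hS1 (Subgroup.card_eq_one.mp h1)
    obtain ⟨p, hp, hpS⟩ := Nat.exists_prime_and_dvd hS1'
    obtain ⟨q, hq, hqS, hqp⟩ := exists_prime_ne_of_not_pgroup hp (hSnp p hp)
    haveI : Fact p.Prime := ⟨hp⟩
    haveI : Fact q.Prime := ⟨hq⟩
    obtain ⟨x₀, hx₀⟩ := exists_prime_orderOf_dvd_card' p hpS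
    obtain ⟨y₀, hy₀⟩ := exists_prime_orderOf_dvd_card' q hqS
    let x : M := x₀
    let y : M := y₀
    have hx : orderOf x = p := by rw [← hx₀]; exact Subgroup.orderOf_coe x₀
    have hy : orderOf y = q := by rw [← hy₀]; exact Subgroup.orderOf_coe y₀
    have hx1 : x ≠ 1 := by
      intro h1
      rw [h1, orderOf_one] at hx
      exact hp.one_lt.ne hx
    have hy1 : y ≠ 1 := by
      intro h1
      rw [h1, orderOf_one] at hy
      exact hq.one_lt.ne hy
    -- conjugates of `S`
    have hconjS : ∀ g : Y, S.map (MulAut.conjNormal g : M ≃* M).toMonoidHom = S := by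
      intro g
      by_contra hne
      let e : M ≃* M := MulAut.conjNormal g
      let S₂ : Subgroup M := S.map e.toMonoidHom
      haveI hS₂n : S₂.Normal := Subgroup.Normal.map hSn _ e.surjective
      have hinf : S ⊓ S₂ = ⊥ := by
        rcases hSmin (S ⊓ S₂) (Subgroup.normal_inf_normal S S₂) inf_le_left with h1 | h1
        · exact h1
        · exfalso
          apply hne
          have hle : S ≤ S₂ := by
            rw [← h1]
            exact inf_le_right
          symm
          refine Subgroup.eq_of_le_of_card_ge hle ?_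
          have : Nat.card S₂ = Nat.card S :=
            Subgroup.card_map_of_injective e.injective
          rw [this]
      have hcomm := Subgroup.commute_of_normal_of_disjoint S S₂ hSn hS₂n (disjoint_iff.mpr hinf) x (e y)
        x₀.2 ⟨y, y₀.2, rfl⟩
      have hey : orderOf (e y) = q := by rw [MulEquiv.orderOf_eq, hy]
      have hey1 : e y ≠ 1 := by
        intro h1
        rw [h1, orderOf_one] at hey
        exact hq.one_lt.ne hey
      exact eppo_comm_primes hME hp hq (Ne.symm hqp) hcomm hx1 hey1 (a := 1) (b := 1)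
        (by rw [hx, pow_one]) (by rw [hey, pow_one])
    -- hence `S` is normal in `Y`
    have hS'n : (S.map M.subtype).Normal := by
      refine ⟨fun n hn g => ?_⟩
      obtain ⟨s, hs, rfl⟩ := hn
      have h1 : (MulAut.conjNormal g : M ≃* M) s ∈ S.map (MulAut.conjNormal g : M ≃* M).toMonoidHom :=
        ⟨s, hs, rfl⟩
      rw [hconjS g] at h1
      exact ⟨_, h1, rfl⟩
    rcases hmin _ hS'n (by
      rintro _ ⟨x, -, rfl⟩
      exact x.2) with h4 | h4
    · rw [Subgroup.map_eq_bot_iff_of_injective _ M.subtype_injective] at h4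
      exact (hS1 h4).elim
    · rw [eq_top_iff]
      intro m _
      have h5 : (m : Y) ∈ S.map M.subtype := by
        rw [h4]
        exact m.2
      obtain ⟨s, hs, hsm⟩ := h5
      have : s = m := Subtype.ext hsm
      rwa [← this]
  have hMnt : Nontrivial M := (Subgroup.nontrivial_iff_ne_bot _).mpr hM1
  refine ⟨M, hMn, ⟨fun S hS => ?_⟩, ?_, ?_⟩
  · by_cases h1 : S = ⊥
    · exact Or.inl h1
    · exact Or.inr (hsimple_aux S hS h1)
  · intro hab
    apply hMns
    apply Group.isSolvable_of_comm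
    exact hab.is_comm.comm
  · intro N hNn hN1
    haveI := hNn
    rcases hmin (M ⊓ N) (Subgroup.normal_inf_normal M N) inf_le_left with h1 | h1
    · exfalso
      have hN1' : Nat.card N ≠ 1 := fun h2 => hN1 (Subgroup.card_eq_one.mp h2)
      obtain ⟨r, hr, hrN⟩ := Nat.exists_prime_and_dvd hN1'
      obtain ⟨q, hq, hqM, hqr⟩ := exists_prime_ne_of_not_pgroup hr (hMnp r hr)
      haveI : Fact r.Prime := ⟨hr⟩
      haveI : Fact q.Prime := ⟨hq⟩
      obtain ⟨y₀, hy₀⟩ := exists_prime_orderOf_dvd_card' r hrN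
      obtain ⟨x₀, hx₀⟩ := exists_prime_orderOf_dvd_card' q hqM
      have hy : orderOf (y₀ : Y) = r := by rw [← hy₀]; exact Subgroup.orderOf_coe y₀
      have hx : orderOf (x₀ : Y) = q := by rw [← hx₀]; exact Subgroup.orderOf_coe x₀
      have hy1 : (y₀ : Y) ≠ 1 := by
        intro h2
        rw [h2, orderOf_one] at hy
        exact hr.one_lt.ne hy
      have hx1 : (x₀ : Y) ≠ 1 := by
        intro h2
        rw [h2, orderOf_one] at hx
        exact hq.one_lt.ne hx
      have hcomm := Subgroup.commute_of_normal_of_disjoint M N hMn hNn (disjoint_iff.mpr h1) x₀ y₀ x₀.2 y₀.2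
      exact eppo_comm_primes hE hq hr hqr hcomm hx1 hy1 (a := 1) (b := 1)
        (by rw [hx, pow_one]) (by rw [hy, pow_one])
    · rw [← h1]
      exact inf_le_right

/-- **Higman's theorem on EPPO groups.** -/
theorem higman_eppo {G : Type*} [Group G] [Finite G] (hns : ¬ Group.IsSolvable G)
    (hpp : ∀ g : G, g ≠ 1 → IsPrimePow (orderOf g))
    (R : Subgroup G) [hRn : R.Normal] (hRs : Group.IsSolvable ↥R)
    (hRmax : ∀ N : Subgroup G, N.Normal → Group.IsSolvable ↥N → N ≤ R) :
    (∃ p : ℕ, p.Prime ∧ IsPGroup p ↥R) ∧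
      (∃ M : Subgroup (G ⧸ R), M.Normal ∧ IsSimpleGroup ↥M ∧ ¬ IsMulCommutative ↥M ∧
        ∀ N : Subgroup (G ⧸ R), N.Normal → N ≠ ⊥ → M ≤ N) ∧
      ∀ H : Subgroup G, Group.IsSolvable ↥H → (Nat.card ↥H).primeFactors.card ≤ 2 := by
  have hE : EPPO G := hpp
  refine ⟨eppo_radical_pgroup hns hE R hRs, ?_, fun H hH => eppo_solvable_primes (hE.sub H) hH⟩
  have hnt : Nontrivial (G ⧸ R) := by
    by_contra hnt
    rw [not_nontrivial_iff_subsingleton] at hnt
    apply hns
    refine Group.isSolvable_of_ker_le_range R.subtype (QuotientGroup.mk' R) ?_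
    intro x _
    refine ⟨⟨x, ?_⟩, rfl⟩
    exact (QuotientGroup.eq_one_iff x).mp (Subsingleton.elim _ _)
  refine eppo_socle (hE.quot R) ?_
  intro N hNn hNs
  have h1 : N.comap (QuotientGroup.mk' R) ≤ R := by
    apply hRmax _ inferInstance
    have hRle : R ≤ N.comap (QuotientGroup.mk' R) := by
      intro r hr
      rw [mem_comap]
      have : QuotientGroup.mk' R r = 1 := (QuotientGroup.eq_one_iff r).mpr hr
      rw [this]
      exact N.one_mem
    let g : ↥(N.comap (QuotientGroup.mk' R)) →* N :=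
      ((QuotientGroup.mk' R).comp (N.comap (QuotientGroup.mk' R)).subtype).codRestrict N (fun x => x.2)
    refine Group.isSolvable_of_ker_le_range (Subgroup.inclusion hRle) g ?_
    intro x hx
    have h2 : ((g x : N) : G ⧸ R) = 1 := by
      rw [MonoidHom.mem_ker.mp hx]; rfl
    have h3 : (x : G) ∈ R := (QuotientGroup.eq_one_iff _).mp h2
    exact ⟨⟨x, h3⟩, rfl⟩
  rw [eq_bot_iff]
  intro x hx
  obtain ⟨g, rfl⟩ := QuotientGroup.mk_surjective x
  exact (QuotientGroup.eq_one_iff g).mpr (h1 hx)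

end Cfsg.Agent.Lib.GS1
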