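import Mathlib
import Cfsg.Agent.S3761
import Cfsg.Agent.Lib.Transfer.NormalESq

/-!
# P. Hall: `p`-groups without a normal elementary abelian subgroup of order `p²`
-/

set_option autoImplicit false

namespace Cfsg.Agent.Lib.GS1

open Cfsg Subgroup

variable {G : Type*} [Group G] [Finite G] {p : ℕ} [hpf : Fact p.Prime]

/-- **P. Hall.** A `p`-group which is neither cyclic, dihedral, quaternion nor semidihedral has a
normal elementary abelian subgroup of order `p²`. -/
theorem exists_normal_elem_p2 (hG : IsPGroup p G) (hnc : ¬ IsCyclic G)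
    (hnq : ∀ n : ℕ, ¬ Nonempty (G ≃* QuaternionGroup n))
    (hnd : ∀ n : ℕ, ¬ Nonempty (G ≃* DihedralGroup n)) (hnsd : ¬ Cfsg.IsQuasiDihedral G) :
    ∃ A : Subgroup G, A.Normal ∧ Cfsg.IsElementaryAbelian p A ∧ Nat.card A = p ^ 2 := by
  classical
  by_contra hno
  have hcyc : ∀ N : Subgroup G, N.Normal → IsMulCommutative N → IsCyclic N := by
    intro N hN hab
    by_contra hnc'
    obtain ⟨E, -, hE, hEe, hEc⟩ := Cfsg.Agent.Lib.Transfer.exists_normal_elem_of_abelian hG N hab hnc'
    exact hno ⟨E, hE, hEe, hEc⟩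
  let S : Set (Subgroup G) := {N | N.Normal ∧ IsMulCommutative N}
  have hbot : (⊥ : Subgroup G) ∈ S := ⟨inferInstance, ⟨⟨fun a b => by
    have ha : (a : G) = 1 := Subgroup.mem_bot.mp a.2
    have hb : (b : G) = 1 := Subgroup.mem_bot.mp b.2
    exact Subtype.ext (by simp [ha, hb])⟩⟩⟩
  obtain ⟨U, -, hU⟩ := (Set.toFinite S).exists_le_maximal hbot
  obtain ⟨hUn, hUab⟩ := hU.prop
  haveI := hUn
  have hUle : U ≤ centralizer (U : Set G) := by
    intro u hu
    rw [mem_centralizer_iff]
    intro v hv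
    exact congrArg Subtype.val (hUab.is_comm.comm (⟨v, hv⟩ : U) ⟨u, hu⟩)
  have hUC : centralizer (U : Set G) = U := by
    apply le_antisymm _ hUle
    intro x hx
    by_contra hxU
    -- a central element of `G/U` in `C/U`
    haveI : Group.IsNilpotent (G ⧸ U) := (hG.of_surjective (QuotientGroup.mk' U) (QuotientGroup.mk'_surjective U)).isNilpotent
    let C : Subgroup G := centralizer (U : Set G)
    haveI hCn : C.Normal := inferInstance
    let C' : Subgroup (G ⧸ U) := C.map (QuotientGroup.mk' U)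
    haveI hC'n : C'.Normal := Subgroup.Normal.map hCn _ (QuotientGroup.mk'_surjective U)
    have hC'1 : C' ≠ ⊥ := by
      intro h
      have h1 : ((x : G ⧸ U)) ∈ C' := ⟨x, hx, rfl⟩
      rw [h, mem_bot] at h1
      exact hxU ((QuotientGroup.eq_one_iff x).mp h1)
    have h2 := Cfsg.Agent.Lib.Core.normal_inf_center_ne_bot C' hC'1
    obtain ⟨w, hw, hw1⟩ := (Subgroup.bot_or_exists_ne_one _).resolve_left h2
    obtain ⟨⟨y, hy, hyw⟩, hwc⟩ := Subgroup.mem_inf.mp hw
    have hyU : y ∉ U := by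
      intro h
      apply hw1
      rw [← hyw]
      exact (QuotientGroup.eq_one_iff y).mpr h
    -- the subgroup `⟨U, y⟩`
    let B : Subgroup G := (zpowers w).comap (QuotientGroup.mk' U)
    have hBn : B.Normal := by
      haveI : (zpowers w).Normal := by
        refine ⟨fun n hn g => ?_⟩
        have h3 : g * n * g⁻¹ = n := by
          obtain ⟨k, rfl⟩ := hn
          have h4 : Commute g ((w : G ⧸ U) ^ k) := by
            have : Commute g w := (Subgroup.mem_center_iff.mp hwc g)
            exact this.zpow_right k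
          change g * w ^ k * g⁻¹ = w ^ k
          rw [h4.eq]
          group
        rwa [h3]
      infer_instance
    have hUB : U ≤ B := by
      intro u hu
      change QuotientGroup.mk' U u ∈ zpowers w
      have : QuotientGroup.mk' U u = 1 := (QuotientGroup.eq_one_iff u).mpr hu
      rw [this]
      exact one_mem _
    have hyB : y ∈ B := by
      change QuotientGroup.mk' U y ∈ zpowers w
      rw [hyw]
      exact mem_zpowers w
    have hform : ∀ b ∈ B, ∃ (u : G) (k : ℤ), u ∈ U ∧ b = u * y ^ k := by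
      intro b hb
      obtain ⟨k, hk⟩ : QuotientGroup.mk' U b ∈ zpowers w := hb
      refine ⟨b * (y ^ k)⁻¹, k, ?_, by group⟩
      have h3 : ((b * (y ^ k)⁻¹ : G) : G ⧸ U) = 1 := by
        have h4 : ((y ^ k : G) : G ⧸ U) = w ^ k := by
          rw [QuotientGroup.mk_zpow]
          congr 1
        rw [QuotientGroup.mk_mul, QuotientGroup.mk_inv, h4]
        have h5 : w ^ k = (b : G ⧸ U) := hk
        rw [h5]
        group
      exact (QuotientGroup.eq_one_iff _).mp h3
    have hycomm : ∀ u ∈ U, u * y = y * u := by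
      intro u hu
      exact mem_centralizer_iff.mp hy u hu
    have hBab : IsMulCommutative B := by
      refine ⟨⟨fun a b => Subtype.ext ?_⟩⟩
      obtain ⟨u₁, k₁, hu₁, h1⟩ := hform a a.2
      obtain ⟨u₂, k₂, hu₂, h2⟩ := hform b b.2
      change (a : G) * b = b * a
      rw [h1, h2]
      have hc1 : Commute u₁ u₂ := congrArg Subtype.val (hUab.is_comm.comm (⟨u₁, hu₁⟩ : U) ⟨u₂, hu₂⟩)
      have hc2 : Commute u₁ (y ^ k₂) := Commute.zpow_right (hycomm u₁ hu₁) k₂
      have hc3 : Commute (y ^ k₁) u₂ := (Commute.zpow_right (hycomm u₂ hu₂) k₁).symm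
      have hc4 : Commute (y ^ k₁) (y ^ k₂) := Commute.zpow_zpow_self y k₁ k₂
      calc u₁ * y ^ k₁ * (u₂ * y ^ k₂) = u₁ * (y ^ k₁ * u₂) * y ^ k₂ := by group
        _ = u₁ * (u₂ * y ^ k₁) * y ^ k₂ := by rw [hc3.eq]
        _ = (u₁ * u₂) * (y ^ k₁ * y ^ k₂) := by group
        _ = (u₂ * u₁) * (y ^ k₂ * y ^ k₁) := by rw [hc1.eq, hc4.eq]
        _ = u₂ * (u₁ * y ^ k₂) * y ^ k₁ := by group
        _ = u₂ * (y ^ k₂ * u₁) * y ^ k₁ := by rw [hc2.eq]
        _ = u₂ * y ^ k₂ * (u₁ * y ^ k₁) := by group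
    exact hyU (hU.le_of_ge ⟨hBn, hBab⟩ hUB hyB)
  have hUcyc : IsCyclic U := hcyc U hUn hUab
  obtain ⟨n, hn⟩ := IsPGroup.iff_card.mp (hG.to_subgroup U)
  have hna : ¬ IsMulCommutative G := by
    intro hab
    apply hnc
    have h1 : U = ⊤ := by
      rw [← hUC, eq_top_iff]
      intro x _
      rw [mem_centralizer_iff]
      intro u _
      exact hab.is_comm.comm u x
    rw [h1] at hUcyc
    exact isCyclic_of_surjective (Subgroup.topEquiv (G := G)) (MulEquiv.surjective _)
  rcases Cfsg.Agent.S3761.result hG hna U hUcyc n hn hUC with ⟨-, -, h1 | h1 | h1⟩ | ⟨-, h2, h3, h4⟩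
  · obtain ⟨m, hm⟩ := h1
    exact hnd m hm
  · obtain ⟨m, hm⟩ := h1
    exact hnq m hm
  · exact hnsd h1
  · haveI := h4
    exact hno ⟨_, inferInstance, h2, h3⟩

end Cfsg.Agent.Lib.GS1
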