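import Mathlib
import Cfsg.Agent.Lib.GS1.EqOrdPair

/-!
# `p`-groups transitive on the nonzero vectors
-/

set_option autoImplicit false

namespace Cfsg.Agent.Lib.GS1

open Cfsg Subgroup Cfsg.Agent.Lib.Hall Cfsg.Agent.Lib.Core

theorem exists_odd_factor {p : ℕ} (hp : Odd p) (b : ℕ) : ∃ c : ℕ, Odd c ∧ p ^ (2 * b + 1) + 1 = (p + 1) * c := by
  induction b with
  | zero => exact ⟨1, odd_one, by simp⟩
  | succ b ih =>
    obtain ⟨c, hc, hpc⟩ := ih
    have hp1 : 1 ≤ p := hp.pos
    refine ⟨p ^ 2 * c + 1 - p, ?_, ?_⟩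
    · have h1 : Odd (p ^ 2 * c) := (hp.pow).mul hc
      have hle : p ≤ p ^ 2 * c := by
        have : 1 ≤ c := hc.pos
        nlinarith
      obtain ⟨u, hu⟩ := h1
      obtain ⟨v, hv⟩ := hp
      have : p ^ 2 * c + 1 - p = 2 * (u - v) + 1 := by omega
      rw [this]
      exact odd_two_mul_add_one _
    · have hle : p ≤ p ^ 2 * c := by
        have : 1 ≤ c := hc.pos
        nlinarith
      have h2 : p ^ (2 * (b + 1) + 1) + p ^ 2 = p ^ 2 * (p ^ (2 * b + 1) + 1) := by ring
      rw [hpc] at h2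
      zify [show p ≤ p ^ 2 * c + 1 from by omega]
      zify at h2
      have h3 : ((p : ℤ) ^ (2 * (b + 1) + 1)) = (p : ℤ) ^ 2 * (((p : ℤ) + 1) * c) - (p : ℤ) ^ 2 := by
        linarith
      rw [h3]
      ring

/-- `2^n - 1 = p^a` with `a ≠ 0` and `n ≥ 2` forces `a = 1`. -/
theorem mersenne_prime_pow {n p a : ℕ} (hp : p.Prime) (hn : 2 ≤ n) (h : 2 ^ n = p ^ a + 1) (ha : a ≠ 0) :
    a = 1 := by
  have h2n : 2 ∣ 2 ^ n := dvd_pow_self 2 (by omega)
  have hpo : Odd p := by
    rcases hp.eq_two_or_odd' with rfl | h1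
    · exfalso
      have h3 : 2 ∣ 2 ^ a := dvd_pow_self 2 ha
      omega
    · exact h1
  rcases Nat.even_or_odd a with hae | hao
  · exfalso
    obtain ⟨b, rfl⟩ := hae
    have h1 : Odd (p ^ b) := hpo.pow
    have h2 : (p ^ (b + b)) % 8 = 1 := by
      rw [pow_add]
      obtain ⟨u, hu⟩ := h1
      rw [hu]
      have : (2 * u + 1) * (2 * u + 1) = 4 * (u * (u + 1)) + 1 := by ring
      rw [this]
      have h3 : 2 ∣ u * (u + 1) := (Nat.even_mul_succ_self u).two_dvd
      omega
    have h3 : (2 ^ n) % 8 = 2 := by rw [h]; omega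
    obtain ⟨k, rfl⟩ : ∃ k, n = k + 2 := ⟨n - 2, by omega⟩
    rw [pow_add] at h3
    omega
  · obtain ⟨b, rfl⟩ := hao
    obtain ⟨c, hc, hpc⟩ := exists_odd_factor hpo b
    rw [hpc] at h
    have hd : c ∣ 2 ^ n := h ▸ dvd_mul_left _ _
    obtain ⟨i, -, hi⟩ := (Nat.dvd_prime_pow Nat.prime_two).mp hd
    have hi0 : i = 0 := by
      by_contra h0
      have : 2 ∣ c := hi ▸ dvd_pow_self 2 h0
      exact (Nat.not_even_iff_odd.mpr hc) (even_iff_two_dvd.mpr this)
    rw [hi0, pow_zero] at hi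
    rw [hi, mul_one] at hpc
    have h3 : p ^ (2 * b + 1) = p := by omega
    have h4 := (Nat.pow_right_injective hp.two_le) (h3.trans (pow_one p).symm)
    exact h4

/-- `q^n - 1 = 2^a` with `q` odd prime and `n ≥ 2` forces `q = 3`, `n = 2`. -/
theorem catalan_two {q n a : ℕ} (hq : q.Prime) (hq2 : q ≠ 2) (hn : 2 ≤ n) (h : q ^ n = 2 ^ a + 1) :
    q = 3 ∧ n = 2 := by
  have hqo : Odd q := hq.odd_of_ne_two hq2
  have hq3 : 3 ≤ q := by
    have := hq.two_le
    omega
  rcases Nat.even_or_odd n with hne | hno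
  · obtain ⟨b, rfl⟩ := hne
    have hb : 1 ≤ b := by omega
    set u := q ^ b with hu
    have hu3 : 3 ≤ u := by
      calc 3 ≤ q := hq3
        _ = q ^ 1 := (pow_one q).symm
        _ ≤ q ^ b := Nat.pow_le_pow_right hq.pos hb
    have h1 : (u - 1) * (u + 1) = 2 ^ a := by
      have h2 : q ^ (b + b) = u * u := pow_add q b b
      rw [h2] at h
      obtain ⟨v, hv⟩ : ∃ v, u = v + 1 := ⟨u - 1, by omega⟩
      rw [hv] at h ⊢
      simp only [Nat.add_sub_cancel]
      nlinarith
    have hd1 : u - 1 ∣ 2 ^ a := h1 ▸ dvd_mul_right _ _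
    have hd2 : u + 1 ∣ 2 ^ a := h1 ▸ dvd_mul_left _ _
    obtain ⟨i, -, hi⟩ := (Nat.dvd_prime_pow Nat.prime_two).mp hd1
    obtain ⟨j, -, hj⟩ := (Nat.dvd_prime_pow Nat.prime_two).mp hd2
    have hdiff : 2 ^ j = 2 ^ i + 2 := by omega
    have hi1 : i = 1 := by
      rcases i with _ | _ | i
      · exfalso
        rw [pow_zero] at hdiff
        have hj2 : j = 0 ∨ j = 1 ∨ 2 ≤ j := by omega
        rcases hj2 with rfl | rfl | hj2
        · omega
        · omega
        · have : 4 ∣ 2 ^ j := by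
            calc 4 = 2 ^ 2 := by norm_num
              _ ∣ 2 ^ j := pow_dvd_pow 2 hj2
          omega
      · rfl
      · exfalso
        have h4i : 4 ∣ 2 ^ (i + 1 + 1) := ⟨2 ^ i, by ring⟩
        have hj2 : 2 ≤ j := by
          by_contra hj2
          have hj3 : j = 0 ∨ j = 1 := by omega
          rcases hj3 with rfl | rfl <;> simp at hj <;> omega
        have : 4 ∣ 2 ^ j := by
          calc 4 = 2 ^ 2 := by norm_num
            _ ∣ 2 ^ j := pow_dvd_pow 2 hj2
        omega
    rw [hi1, pow_one] at hi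
    have hu3' : u = 3 := by omega
    have hq3' : q = 3 := by
      have h5 : q ∣ 3 := by
        rw [← hu3', hu]
        exact dvd_pow_self q (by omega)
      exact (Nat.prime_dvd_prime_iff_eq hq Nat.prime_three).mp h5
    refine ⟨hq3', ?_⟩
    have h6 : 3 ^ b = 3 ^ 1 := by
      rw [pow_one]
      rw [hq3'] at hu
      omega
    have := Nat.pow_right_injective (le_refl 2 |>.trans (by norm_num : 2 ≤ 3)) h6
    omega
  · exfalso
    have hS : (∑ i ∈ Finset.range n, q ^ i) * (q - 1) = 2 ^ a := by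
      zify [hq.one_le]
      rw [geom_sum_mul]
      have : ((q : ℤ)) ^ n = 2 ^ a + 1 := by exact_mod_cast h
      rw [this]
      ring
    have hSo : Odd (∑ i ∈ Finset.range n, q ^ i) := by
      rw [Finset.odd_sum_iff_odd_card_odd]
      have h1 : Finset.filter (fun i => Odd (q ^ i)) (Finset.range n) = Finset.range n := by
        apply Finset.filter_true_of_mem
        intro i _
        exact hqo.pow
      rw [h1, Finset.card_range]
      exact hno
    have hd : (∑ i ∈ Finset.range n, q ^ i) ∣ 2 ^ a := hS ▸ dvd_mul_right _ _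
    obtain ⟨i, -, hi⟩ := (Nat.dvd_prime_pow Nat.prime_two).mp hd
    have hi0 : i = 0 := by
      by_contra h0
      have : 2 ∣ (∑ i ∈ Finset.range n, q ^ i) := hi ▸ dvd_pow_self 2 h0
      exact (Nat.not_even_iff_odd.mpr hSo) (even_iff_two_dvd.mpr this)
    rw [hi0, pow_zero] at hi
    have h2 : ∑ i ∈ Finset.range 2, q ^ i ≤ ∑ i ∈ Finset.range n, q ^ i :=
      Finset.sum_le_sum_of_subset (Finset.range_subset_range.mpr hn)
    rw [hi] at h2
    simp [Finset.sum_range_succ] at h2
    omega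

universe u v

/-- A nontrivial group acting fpf on a nontrivial finite abelian group: Frobenius data, any universes. -/
theorem frob_of_fpf_action {Q : Type u} {W : Type v} [Group Q] [Finite Q] [Nontrivial Q] [CommGroup W] [Finite W]
    [Nontrivial W] (ψ : Q →* MulAut W) (hfpf : ∀ h : Q, h ≠ 1 → ∀ v : W, ψ h v = v → v = 1) :
    ∃ (L : Type (max u v)) (_ : Group L) (_ : Finite L) (K N : Subgroup L), N.Normal ∧ IsComplement' N K ∧
      N ≠ ⊥ ∧ (∀ c ∈ K, c ≠ 1 → N ⊓ centralizer {c} = ⊥) ∧ Nonempty (K ≃* Q) := by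
  classical
  let Q' := ULift.{v} Q
  let W' := ULift.{u} W
  letI : DistribMulAction Q' (Additive W') :=
    { smul := fun h v => Additive.ofMul (ULift.up (ψ h.down (Additive.toMul v).down))
      one_smul := fun v => by
        change Additive.ofMul (ULift.up (ψ 1 (Additive.toMul v).down)) = v
        rw [map_one]; rfl
      mul_smul := fun a b v => by
        change Additive.ofMul (ULift.up (ψ (a.down * b.down) (Additive.toMul v).down)) = _
        rw [map_mul]; rfl
      smul_zero := fun a => by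
        change Additive.ofMul (ULift.up (ψ a.down 1)) = 0
        rw [map_one]; rfl
      smul_add := fun a x y => by
        change Additive.ofMul (ULift.up (ψ a.down ((Additive.toMul x).down * (Additive.toMul y).down))) = _
        rw [map_mul]; rfl }
  haveI : Nontrivial Q' := inferInstance
  haveI : Nontrivial (Additive W') := inferInstance
  obtain ⟨L, i1, i2, K, hK, ⟨e⟩⟩ := Frobenius.exists_frobenius_of_fpf (V := Additive W') (H := Q')
    (fun h hh v hv => by
      have h1 : h.down ≠ 1 := fun h2 => hh (ULift.ext _ _ h2)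
      have h2 : ψ h.down (Additive.toMul v).down = (Additive.toMul v).down :=
        congrArg (fun x : Additive W' => (Additive.toMul x).down) hv
      have h3 := hfpf h.down h1 _ h2
      exact congrArg (fun x : W => Additive.ofMul (ULift.up x : W')) h3)
  obtain ⟨N, hN, hNn, hc⟩ := FrobThm.frobenius_theorem K hK
  obtain ⟨-, -, hN1, hf1, -, -⟩ := frob_pack hK hN.symm
  exact ⟨L, i1, i2, K, N, hNn, hc, hN1, hf1, ⟨e.trans MulEquiv.ulift⟩⟩

/-- An abelian group acting fpf is cyclic. -/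
theorem isCyclic_of_fpf_action {Q : Type u} {W : Type v} [Group Q] [Finite Q] [CommGroup W] [Finite W]
    [Nontrivial W] (ψ : Q →* MulAut W) (hfpf : ∀ h : Q, h ≠ 1 → ∀ v : W, ψ h v = v → v = 1)
    (hab : ∀ a b : Q, a * b = b * a) : IsCyclic Q := by
  by_cases hnt : Nontrivial Q
  swap
  · rw [not_nontrivial_iff_subsingleton] at hnt
    exact isCyclic_of_subsingleton
  obtain ⟨L, i1, i2, K, N, hNn, hc, hN1, hf1, ⟨e⟩⟩ := frob_of_fpf_action ψ hfpf
  have hKab : IsMulCommutative K := by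
    refine ⟨⟨fun a b => ?_⟩⟩
    apply e.injective
    rw [map_mul, map_mul, hab]
  have hKs : Group.IsSolvable K := by
    apply Group.isSolvable_of_comm
    exact hKab.is_comm.comm
  have := isCyclic_of_le_complement hc hN1 hf1 K le_rfl hKs (Or.inl hKab)
  exact isCyclic_of_surjective e.toMonoidHom e.surjective

/-- A `q`-group acting fpf on a nontrivial abelian group is cyclic or quaternion (any universes). -/
theorem cyclic_or_quat_of_fpf {Q : Type u} {W : Type v} [Group Q] [Finite Q] [CommGroup W] [Finite W]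
    [Nontrivial W] {q : ℕ} [hq : Fact q.Prime] (hQ : IsPGroup q Q) (ψ : Q →* MulAut W)
    (hfpf : ∀ h : Q, h ≠ 1 → ∀ v : W, ψ h v = v → v = 1) :
    IsCyclic Q ∨ (q = 2 ∧ ∃ n : ℕ, Nonempty (Q ≃* QuaternionGroup (2 ^ n))) := by
  by_cases hnt : Nontrivial Q
  swap
  · left
    rw [not_nontrivial_iff_subsingleton] at hnt
    exact isCyclic_of_subsingleton
  obtain ⟨L, i1, i2, K, N, hNn, hc, hN1, hf1, ⟨e⟩⟩ := frob_of_fpf_action ψ hfpf
  have hKp : IsPGroup q K := hQ.of_equiv e.symm
  have hKtop : IsPGroup q (⊤ : Subgroup K) := hKp.to_subgroup ⊤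
  obtain ⟨P, hP⟩ := hKtop.exists_le_sylow
  have hPtop : (P : Subgroup K) = ⊤ := top_le_iff.mp hP
  let e₂ : (P : Subgroup K) ≃* Q := (MulEquiv.subgroupCongr hPtop).trans (Subgroup.topEquiv.trans e)
  rcases sylow_of_fpf_complement hc hN1 hf1 q P with h | ⟨h2, n, ⟨f⟩⟩
  · left
    exact isCyclic_of_surjective e₂.toMonoidHom e₂.surjective
  · right
    exact ⟨h2, n, ⟨e₂.symm.trans f⟩⟩

section Action

variable {q : ℕ} [hqf : Fact q.Prime] {V : Type u} [AddCommGroup V] [Module (ZMod q) V] [Finite V] [Nontrivial V]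
  {G : Type v} [Group G] [Finite G]

/-- The action of `G` on `V`. -/
@[reducible] def actOn (ρ : G →* (V ≃ₗ[ZMod q] V)) : MulAction G V := MulAction.compHom V ρ

theorem card_V_eq_pow : ∃ n : ℕ, n ≠ 0 ∧ Nat.card V = q ^ n := by
  haveI : Module.Finite (ZMod q) V := Module.Finite.of_finite
  haveI : Fintype V := Fintype.ofFinite V
  have h1 := Module.card_eq_pow_finrank (K := ZMod q) (V := V)
  refine ⟨Module.finrank (ZMod q) V, ?_, ?_⟩
  · exact Module.finrank_pos.ne'
  · rw [Nat.card_eq_fintype_card, h1, ZMod.card]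

/-- Stabiliser as a subgroup. -/
def stabV (ρ : G →* (V ≃ₗ[ZMod q] V)) (v : V) : Subgroup G where
  carrier := {g | ρ g v = v}
  one_mem' := by simp
  mul_mem' := by
    intro a b ha hb
    simp only [Set.mem_setOf_eq] at ha hb ⊢
    rw [map_mul, LinearEquiv.mul_apply, hb, ha]
  inv_mem' := by
    intro a ha
    simp only [Set.mem_setOf_eq] at ha ⊢
    rw [map_inv]
    have : (ρ a)⁻¹ (ρ a v) = v := by
      rw [← LinearEquiv.mul_apply, inv_mul_cancel]; rfl
    rw [ha] at this
    exact this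

theorem mem_stabV {ρ : G →* (V ≃ₗ[ZMod q] V)} {v : V} {g : G} : g ∈ stabV ρ v ↔ ρ g v = v := Iff.rfl

/-- Orbit-stabiliser. -/
theorem card_eq_mul_stab (ρ : G →* (V ≃ₗ[ZMod q] V))
    (htrans : ∀ v w : V, v ≠ 0 → w ≠ 0 → ∃ g : G, ρ g v = w) {v : V} (hv : v ≠ 0) :
    (stabV ρ v).index = Nat.card V - 1 := by
  classical
  letI := actOn ρ
  have h1 : stabV ρ v = MulAction.stabilizer G v := by
    ext g
    rfl
  rw [h1, MulAction.index_stabilizer]
  have h2 : MulAction.orbit G v = {w : V | w ≠ 0} := by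
    ext w
    constructor
    · rintro ⟨g, rfl⟩ h0
      apply hv
      have h3 : ρ g v = 0 := h0
      simpa using h3
    · intro hw
      obtain ⟨g, hg⟩ := htrans v w hv hw
      exact ⟨g, hg⟩
  rw [h2]
  have h3 : Nat.card {w : V | w ≠ 0} = Nat.card V - 1 := by
    have h4 : ({w : V | w ≠ 0} : Set V) = ({0} : Set V)ᶜ := by
      ext w; simp
    rw [h4]
    rw [Nat.card_coe_set_eq, Set.ncard_compl, Set.ncard_singleton]
  exact h3

/-- The action on `V` as an action on `Multiplicative V`. -/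
def toMulAut (ρ : G →* (V ≃ₗ[ZMod q] V)) : G →* MulAut (Multiplicative V) where
  toFun g := (ρ g).toAddEquiv.toMultiplicative
  map_one' := by
    ext v
    simp
  map_mul' a b := by
    ext v
    simp

theorem toMulAut_apply (ρ : G →* (V ≃ₗ[ZMod q] V)) (g : G) (v : V) :
    toMulAut ρ g (Multiplicative.ofAdd v) = Multiplicative.ofAdd (ρ g v) := rfl

/-- Transitive with trivial stabilisers means fixed point free. -/
theorem fpf_of_stab_bot (ρ : G →* (V ≃ₗ[ZMod q] V)) (hstab : ∀ v : V, v ≠ 0 → stabV ρ v = ⊥) :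
    ∀ h : G, h ≠ 1 → ∀ v : Multiplicative V, toMulAut ρ h v = v → v = 1 := by
  intro h hh v hv
  by_contra hv1
  have h0 : Multiplicative.toAdd v ≠ 0 := hv1
  have h1 : h ∈ stabV ρ (Multiplicative.toAdd v) := hv
  rw [hstab _ h0, mem_bot] at h1
  exact hh h1

/-- The prime order case. -/
theorem card_of_prime_points [Nontrivial G] {p : ℕ} [hp : Fact p.Prime] (hG : IsPGroup p G)
    (ρ : G →* (V ≃ₗ[ZMod q] V)) (hρ : Function.Injective ρ)
    (htrans : ∀ v w : V, v ≠ 0 → w ≠ 0 → ∃ g : G, ρ g v = w) (hV : Nat.card V - 1 = p) :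
    Nat.card G = p := by
  classical
  let X := {w : V // w ≠ 0}
  let τ : G →* Equiv.Perm X :=
    { toFun := fun g => (ρ g).toEquiv.subtypeEquiv (fun w => by simp)
      map_one' := by
        ext w
        simp
      map_mul' := fun a b => by
        ext w
        simp }
  have hτ : Function.Injective τ := by
    intro a b hab
    apply hρ
    ext w
    by_cases hw : w = 0
    · rw [hw, map_zero, map_zero]
    · have := congrArg (fun f : Equiv.Perm X => ((f ⟨w, hw⟩ : X) : V)) hab
      exact this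
  have hX : Nat.card X = p := by
    rw [← hV]
    have h4 : ({w : V | w ≠ 0} : Set V) = ({0} : Set V)ᶜ := by
      ext w; simp
    change Nat.card {w : V | w ≠ 0} = _
    rw [h4, Nat.card_coe_set_eq, Set.ncard_compl, Set.ncard_singleton]
  have h1 : Nat.card G ∣ (p).factorial := by
    have := Subgroup.card_dvd_of_injective τ hτ
    rwa [Nat.card_perm, hX] at this
  obtain ⟨k, hk⟩ := IsPGroup.iff_card.mp hG
  have hp' := hp.out
  have hk1 : k ≤ 1 := by
    by_contra hk2
    have h2 : p ^ 2 ∣ p.factorial := by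
      rw [hk] at h1
      exact (pow_dvd_pow p (by omega)).trans h1
    obtain ⟨m, hm⟩ : ∃ m, p = m + 1 := ⟨p - 1, by have := hp'.pos; omega⟩
    have h3 : p.factorial = p * (p - 1).factorial := by
      rw [hm, Nat.factorial_succ]; simp
    rw [h3, pow_two] at h2
    have h4 := Nat.dvd_of_mul_dvd_mul_left hp'.pos h2
    have h5 := (Nat.Prime.dvd_factorial hp').mp h4
    have := hp'.pos
    omega
  have hk0 : k ≠ 0 := by
    rintro rfl
    rw [pow_zero] at hk
    have : Subsingleton G := (Nat.card_eq_one_iff_unique.mp hk).1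
    exact not_subsingleton G this
  have : k = 1 := by omega
  rw [hk, this, pow_one]

end Action

section Nine

universe u₁ v₁

variable {V : Type u₁} [AddCommGroup V] [Module (ZMod 3) V] [Finite V] [Nontrivial V] {G : Type v₁} [Group G] [Finite G]

theorem exists_not_mem_line (hV9 : Nat.card V = 9) (v : V) : ∃ w : V, ∀ c : ZMod 3, w ≠ c • v := by
  by_contra hno
  push Not at hno
  have hs : Function.Surjective (fun c : ZMod 3 => c • v) := fun w => by
    obtain ⟨c, hc⟩ := hno w
    exact ⟨c, hc.symm⟩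
  have h1 := Nat.card_le_card_of_surjective _ hs
  rw [hV9, Nat.card_eq_fintype_card, ZMod.card] at h1
  omega

theorem exists_coords (hV9 : Nat.card V = 9) {v w : V} (hv : v ≠ 0) (hw : ∀ c : ZMod 3, w ≠ c • v) (x : V) :
    ∃ a b : ZMod 3, x = a • v + b • w := by
  let f : ZMod 3 × ZMod 3 → V := fun p => p.1 • v + p.2 • w
  have hinj : Function.Injective f := by
    rintro ⟨a, b⟩ ⟨a', b'⟩ h
    have h1 : a • v + b • w = a' • v + b' • w := h
    have h2 : (a - a') • v + (b - b') • w = 0 := by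
      rw [sub_smul, sub_smul]
      have h3 : a • v - a' • v + (b • w - b' • w) = (a • v + b • w) - (a' • v + b' • w) := by abel
      rw [h3, h1, sub_self]
    have hb : b = b' := by
      by_contra hne
      have h3 : b - b' ≠ 0 := sub_ne_zero.mpr hne
      apply hw (-(b - b')⁻¹ * (a - a'))
      have h4 : (b - b') • w = -((a - a') • v) := eq_neg_of_add_eq_zero_right h2
      have h5 : w = (b - b')⁻¹ • ((b - b') • w) := by
        rw [smul_smul, inv_mul_cancel₀ h3, one_smul]
      rw [h5, h4, smul_neg, smul_smul, neg_mul, neg_smul]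
    subst hb
    rw [sub_self, zero_smul, add_zero] at h2
    have ha : a - a' = 0 := by
      rcases smul_eq_zero.mp h2 with h3 | h3
      · exact h3
      · exact absurd h3 hv
    rw [sub_eq_zero.mp ha]
  have hbij : Function.Bijective f := by
    refine (Nat.bijective_iff_injective_and_card f).mpr ⟨hinj, ?_⟩
    rw [hV9, Nat.card_prod, Nat.card_eq_fintype_card, ZMod.card]
  obtain ⟨⟨a, b⟩, hab⟩ := hbij.2 x
  exact ⟨a, b, hab.symm⟩

variable (ρ : G →* (V ≃ₗ[ZMod 3] V))

/-- An element fixing `v` and moving `w` by a multiple of `v` is trivial. -/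
theorem eq_one_of_transvection (hV9 : Nat.card V = 9) (hG : IsPGroup 2 G) (hρ : Function.Injective ρ) {v w : V}
    (hv : v ≠ 0) (hw : ∀ c : ZMod 3, w ≠ c • v) {g : G} (hgv : ρ g v = v) {α : ZMod 3}
    (hgw : ρ g w = α • v + w) : g = 1 := by
  have hpow : ∀ n : ℕ, ρ (g ^ n) v = v ∧ ρ (g ^ n) w = (n : ZMod 3) • (α • v) + w := by
    intro n
    induction n with
    | zero => simp
    | succ n ih =>
      obtain ⟨h1, h2⟩ := ih
      have h3 : ρ (g ^ (n + 1)) = ρ (g ^ n) * ρ g := by rw [pow_succ, map_mul]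
      constructor
      · rw [h3, LinearEquiv.mul_apply, hgv, h1]
      · rw [h3, LinearEquiv.mul_apply, hgw, map_add, map_smul, h1, h2]
        push_cast
        rw [add_smul, one_smul]
        abel
  obtain ⟨h1, h2⟩ := hpow 3
  have h3 : ((3 : ℕ) : ZMod 3) = 0 := by decide
  rw [h3, zero_smul, zero_add] at h2
  have h4 : g ^ 3 = 1 := by
    apply hρ
    rw [map_one]
    ext x
    obtain ⟨a, b, rfl⟩ := exists_coords hV9 hv hw x
    rw [map_add, map_smul, map_smul, h1, h2]
    rfl
  obtain ⟨k, hk⟩ := IsPGroup.iff_orderOf.mp hG g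
  have h5 : orderOf g ∣ 3 := orderOf_dvd_of_pow_eq_one h4
  rw [hk] at h5
  have h6 : k = 0 := by
    by_contra h0
    have h7 : 2 ∣ 3 := (dvd_pow_self 2 h0).trans h5
    omega
  rw [h6, pow_zero] at hk
  exact orderOf_eq_one_iff.mp hk

theorem card_stab_le_two (hV9 : Nat.card V = 9) (hG : IsPGroup 2 G) (hρ : Function.Injective ρ) {v : V}
    (hv : v ≠ 0) : Nat.card (stabV ρ v) ≤ 2 := by
  classical
  obtain ⟨w, hw⟩ := exists_not_mem_line hV9 v
  -- coordinates of the image of `w`
  have hform : ∀ g ∈ stabV ρ v, g = 1 ∨ ∃ α : ZMod 3, ρ g w = α • v - w := by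
    intro g hg
    obtain ⟨a, b, hab⟩ := exists_coords hV9 hv hw (ρ g w)
    have hb : b = 0 ∨ b = 1 ∨ b = -1 := by
      have key : ∀ b : ZMod 3, b = 0 ∨ b = 1 ∨ b = -1 := by decide
      exact key b
    rcases hb with rfl | rfl | rfl
    · exfalso
      rw [zero_smul, add_zero] at hab
      apply hw a
      have h1 : ρ g (a • v) = a • v := by
        rw [map_smul, mem_stabV.mp hg]
      exact (ρ g).injective (hab.trans h1.symm)
    · left
      rw [one_smul] at hab
      exact eq_one_of_transvection ρ hV9 hG hρ hv hw (mem_stabV.mp hg) hab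
    · right
      refine ⟨a, ?_⟩
      rw [hab, neg_smul, one_smul, sub_eq_add_neg]
  have hmul : ∀ g ∈ stabV ρ v, ∀ h ∈ stabV ρ v, (∃ α : ZMod 3, ρ g w = α • v - w) →
      (∃ α : ZMod 3, ρ h w = α • v - w) → g * h = 1 := by
    rintro g hg h hh ⟨α, hα⟩ ⟨β, hβ⟩
    apply eq_one_of_transvection ρ hV9 hG hρ hv hw (α := β - α)
    · rw [map_mul, LinearEquiv.mul_apply, mem_stabV.mp hh, mem_stabV.mp hg]
    · rw [map_mul, LinearEquiv.mul_apply, hβ, map_sub, map_smul, mem_stabV.mp hg, hα, sub_smul]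
      abel
  by_cases hbot : stabV ρ v = ⊥
  · rw [hbot, Subgroup.card_bot]
    omega
  obtain ⟨g₀, hg₀, hg₀1⟩ := (Subgroup.bot_or_exists_ne_one _).resolve_left hbot
  have hg₀' := (hform g₀ hg₀).resolve_left hg₀1
  have hsub : ((stabV ρ v : Subgroup G) : Set G) ⊆ ({1, g₀} : Set G) := by
    intro h hh
    rcases hform h hh with h1 | h1
    · exact Or.inl h1
    · right
      have h2 := hmul g₀ hg₀ g₀ hg₀ hg₀' hg₀'
      have h3 := hmul g₀ hg₀ h hh hg₀' h1
      have h4 : h = g₀⁻¹ := (eq_inv_of_mul_eq_one_right h3)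
      have h5 : g₀ = g₀⁻¹ := (eq_inv_of_mul_eq_one_right h2)
      rw [h4, ← h5]
      rfl
  have h6 := Set.ncard_le_ncard hsub (Set.toFinite _)
  rw [← Nat.card_coe_set_eq] at h6
  have h7 := Set.ncard_insert_le (1 : G) ({g₀} : Set G)
  rw [Set.ncard_singleton] at h7
  exact h6.trans h7

theorem card_le_sixteen (hV9 : Nat.card V = 9) (hG : IsPGroup 2 G) (hρ : Function.Injective ρ) :
    Nat.card G ≤ 16 := by
  classical
  obtain ⟨v, hv⟩ := exists_ne (0 : V)
  letI := actOn ρ
  have h1 : stabV ρ v = MulAction.stabilizer G v := by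
    ext g
    rfl
  have h2 : (stabV ρ v).index ≤ 8 := by
    rw [h1, MulAction.index_stabilizer]
    have h3 : MulAction.orbit G v ⊆ ({0} : Set V)ᶜ := by
      rintro _ ⟨g, rfl⟩ h0
      apply hv
      have h3 : ρ g v = 0 := h0
      simpa using h3
    have h4 := Set.ncard_le_ncard h3 (Set.toFinite _)
    rw [Set.ncard_compl, Set.ncard_singleton, hV9] at h4
    exact h4
  have h3 := Subgroup.card_mul_index (stabV ρ v)
  have h4 := card_stab_le_two ρ hV9 hG hρ hv
  nlinarith

end Nine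

section Explicit

/-- The group of linear automorphisms of `F₃²`. -/
abbrev L32 := (Fin 2 → ZMod 3) ≃ₗ[ZMod 3] (Fin 2 → ZMod 3)

instance finite_L32 : Finite L32 :=
  Finite.of_injective (fun f : L32 => (⇑f : (Fin 2 → ZMod 3) → (Fin 2 → ZMod 3))) DFunLike.coe_injective

/-- Multiplication by a generator of `F₉^×`. -/
def X₀ : L32 where
  toFun v := ![v 1, v 0 - v 1]
  map_add' x y := by
    funext i
    fin_cases i <;> simp <;> ring
  map_smul' c x := by
    funext i
    fin_cases i <;> simp <;> ring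
  invFun v := ![v 0 + v 1, v 0]
  left_inv v := by
    funext i
    fin_cases i <;> simp
  right_inv v := by
    funext i
    fin_cases i <;> simp

/-- The Frobenius of `F₉`. -/
def Y₀ : L32 where
  toFun v := ![v 0 - v 1, -v 1]
  map_add' x y := by
    funext i
    fin_cases i <;> simp <;> ring
  map_smul' c x := by
    funext i
    fin_cases i <;> simp <;> ring
  invFun v := ![v 0 - v 1, -v 1]
  left_inv v := by
    funext i
    fin_cases i <;> simp
  right_inv v := by
    funext i
    fin_cases i <;> simp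

theorem X₀_apply (v : Fin 2 → ZMod 3) : X₀ v = ![v 1, v 0 - v 1] := rfl

theorem Y₀_apply (v : Fin 2 → ZMod 3) : Y₀ v = ![v 0 - v 1, -v 1] := rfl

theorem L32_ext {f g : L32} (h : ∀ a b : ZMod 3, f ![a, b] = g ![a, b]) : f = g := by
  ext1 v
  have hv : v = ![v 0, v 1] := by
    funext i
    fin_cases i <;> rfl
  rw [hv]
  exact h _ _

theorem X₀_pow_four : X₀ ^ 4 = (LinearEquiv.neg (ZMod 3)) := by
  apply L32_ext
  intro a b
  simp only [pow_succ, pow_zero, one_mul, LinearEquiv.mul_apply, X₀_apply]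
  funext i
  fin_cases i
  · simp
    revert a b
    decide
  · simp
    revert a b
    decide

theorem X₀_order : orderOf X₀ = 2 ^ 3 := by
  apply orderOf_eq_prime_pow (p := 2) (n := 2)
  · rw [show (2 : ℕ) ^ 2 = 4 by norm_num, X₀_pow_four]
    intro h
    have h1 := congrArg (fun f : L32 => f ![1, 0] 0) h
    revert h1
    decide
  · rw [show (2 : ℕ) ^ (2 + 1) = 4 + 4 by norm_num, pow_add, X₀_pow_four]
    apply L32_ext
    intro a b
    simp

theorem Y₀_order : orderOf Y₀ = 2 := by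
  apply orderOf_eq_prime
  · apply L32_ext
    intro a b
    simp only [pow_succ, pow_zero, one_mul, LinearEquiv.mul_apply, Y₀_apply]
    funext i
    fin_cases i <;> simp
  · intro h
    have h1 := congrArg (fun f : L32 => f ![0, 1] 1) h
    revert h1
    decide

theorem Y₀_conj_X₀ : Y₀ * X₀ * Y₀⁻¹ = X₀ ^ 3 := by
  rw [mul_inv_eq_iff_eq_mul]
  apply L32_ext
  intro a b
  simp only [pow_succ, pow_zero, one_mul, LinearEquiv.mul_apply, X₀_apply, Y₀_apply]
  funext i
  fin_cases i
  · simp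
    revert a b
    decide
  · simp
    revert a b
    decide

end Explicit

section Final

universe u₁ v₁

theorem qd_of_card_sixteen {G : Type v₁} [Group G] [Finite G] (hG : IsPGroup 2 G) (ρ : G →* L32)
    (hρ : Function.Injective ρ) (hcard : Nat.card G = 16) : Cfsg.IsQuasiDihedral G := by
  classical
  have hV9 : Nat.card (Fin 2 → ZMod 3) = 9 := by
    rw [Nat.card_eq_fintype_card, Fintype.card_fun, ZMod.card]
    simp
  have hbound : ∀ P : Subgroup L32, IsPGroup 2 P → Nat.card P ≤ 16 := fun P hP =>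
    card_le_sixteen (V := Fin 2 → ZMod 3) P.subtype hV9 hP P.subtype_injective
  have hR : IsPGroup 2 ρ.range := hG.of_surjective ρ.rangeRestrict ρ.rangeRestrict_surjective
  obtain ⟨P₁, hP₁⟩ := hR.exists_le_sylow
  have hRcard : Nat.card ρ.range = 16 := by
    rw [← hcard]
    exact (Nat.card_congr (MonoidHom.ofInjective hρ).toEquiv).symm
  have hP₁eq : (P₁ : Subgroup L32) = ρ.range := by
    symm
    refine Subgroup.eq_of_le_of_card_ge hP₁ ?_
    rw [hRcard]
    exact hbound _ P₁.isPGroup'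
  have hX2 : IsPGroup 2 (zpowers X₀) := by
    rw [IsPGroup.iff_card]
    exact ⟨3, by rw [Nat.card_zpowers, X₀_order]⟩
  have hY2 : IsPGroup 2 (zpowers Y₀) := by
    rw [IsPGroup.iff_card]
    exact ⟨1, by rw [Nat.card_zpowers, Y₀_order, pow_one]⟩
  have hYinv : Y₀⁻¹ = Y₀ := by
    have h1 : Y₀ ^ 2 = 1 := by
      have := pow_orderOf_eq_one Y₀
      rwa [Y₀_order] at this
    rw [pow_two] at h1
    exact (eq_inv_of_mul_eq_one_left h1).symm
  have hconj : ∀ h ∈ zpowers X₀, Y₀ * h * Y₀⁻¹ ∈ zpowers X₀ := by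
    rintro _ ⟨k, rfl⟩
    have h1 : Y₀ * X₀ ^ k * Y₀⁻¹ = (Y₀ * X₀ * Y₀⁻¹) ^ k := by rw [conj_zpow]
    change Y₀ * X₀ ^ k * Y₀⁻¹ ∈ zpowers X₀
    rw [h1, Y₀_conj_X₀]
    exact zpow_mem (pow_mem (mem_zpowers X₀) 3) k
  have hnorm : zpowers Y₀ ≤ normalizer (zpowers X₀ : Set L32) := by
    rw [zpowers_le, mem_normalizer_iff]
    intro h
    refine ⟨hconj h, fun hh => ?_⟩
    have h2 := hconj _ hh
    have h3 : Y₀ * (Y₀ * h * Y₀⁻¹) * Y₀⁻¹ = h := by
      rw [hYinv]
      have h4 : Y₀ * Y₀ = 1 := by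
        have := pow_orderOf_eq_one Y₀
        rwa [Y₀_order, pow_two] at this
      calc Y₀ * (Y₀ * h * Y₀) * Y₀ = (Y₀ * Y₀) * h * (Y₀ * Y₀) := by group
        _ = h := by rw [h4]; group
    rwa [h3] at h2
  have hH₀ : IsPGroup 2 (zpowers Y₀ ⊔ zpowers X₀ : Subgroup L32) :=
    IsPGroup.to_sup_of_normal_right' hY2 hX2 hnorm
  obtain ⟨P₂, hP₂⟩ := hH₀.exists_le_sylow
  obtain ⟨g, hg⟩ := MulAction.exists_smul_eq L32 P₂ P₁
  have hmem : ∀ u ∈ zpowers Y₀ ⊔ zpowers X₀, g * u * g⁻¹ ∈ ρ.range := by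
    intro u hu
    rw [← hP₁eq, ← hg, Sylow.coe_subgroup_smul, mem_conj_smul_iff]
    have h1 : g⁻¹ * (g * u * g⁻¹) * g = u := by group
    rw [h1]
    exact hP₂ hu
  obtain ⟨x', hx'⟩ := hmem X₀ (mem_sup_right (mem_zpowers X₀))
  obtain ⟨y', hy'⟩ := hmem Y₀ (mem_sup_left (mem_zpowers Y₀))
  refine ⟨3, le_rfl, by rw [hcard]; norm_num, x', y', ?_, ?_, ?_⟩
  · rw [← orderOf_injective ρ hρ x', hx']
    exact (MulEquiv.orderOf_eq (MulAut.conj g) X₀).trans X₀_order
  · rw [← orderOf_injective ρ hρ y', hy']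
    exact (MulEquiv.orderOf_eq (MulAut.conj g) Y₀).trans Y₀_order
  · apply hρ
    have h0 : (2 : ℕ) ^ (3 - 1) - 1 = 3 := by norm_num
    rw [h0, map_mul, map_mul, map_inv, map_pow, hx', hy']
    calc g * Y₀ * g⁻¹ * (g * X₀ * g⁻¹) * (g * Y₀ * g⁻¹)⁻¹ = g * (Y₀ * X₀ * Y₀⁻¹) * g⁻¹ := by group
      _ = g * X₀ ^ 3 * g⁻¹ := by rw [Y₀_conj_X₀]
      _ = (g * X₀ * g⁻¹) ^ 3 := by rw [conj_pow]

theorem nine_case {V : Type u₁} [AddCommGroup V] [Module (ZMod 3) V] [Finite V] [Nontrivial V]
    {G : Type v₁} [Group G] [Finite G] (hV9 : Nat.card V = 9) (hG : IsPGroup 2 G)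
    (ρ : G →* (V ≃ₗ[ZMod 3] V)) (hρ : Function.Injective ρ)
    (htrans : ∀ v w : V, v ≠ 0 → w ≠ 0 → ∃ g : G, ρ g v = w) :
    (IsCyclic G ∧ Nat.card G = 8) ∨ Nonempty (G ≃* QuaternionGroup 2) ∨
      (Cfsg.IsQuasiDihedral G ∧ Nat.card G = 16) := by
  classical
  obtain ⟨v₀, hv₀⟩ := exists_ne (0 : V)
  have hc : ∀ v : V, v ≠ 0 → Nat.card (stabV ρ v) * 8 = Nat.card G := by
    intro v hv
    have h1 := Subgroup.card_mul_index (stabV ρ v)
    rwa [card_eq_mul_stab ρ htrans hv, hV9] at h1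
  have h2 := card_stab_le_two ρ hV9 hG hρ hv₀
  have hpos : 0 < Nat.card (stabV ρ v₀) := Nat.card_pos
  by_cases h1 : Nat.card (stabV ρ v₀) = 1
  · have h8 : Nat.card G = 8 := by
      rw [← hc v₀ hv₀, h1]
    have hstab : ∀ v : V, v ≠ 0 → stabV ρ v = ⊥ := by
      intro v hv
      apply Subgroup.card_eq_one.mp
      have := hc v hv
      omega
    rcases cyclic_or_quat_of_fpf hG (toMulAut ρ) (fpf_of_stab_bot ρ hstab) with h | ⟨-, n, ⟨f⟩⟩
    · exact Or.inl ⟨h, h8⟩
    · right
      left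
      haveI : NeZero (2 ^ n) := ⟨by positivity⟩
      have h3 : Nat.card G = 4 * 2 ^ n := by
        rw [Nat.card_congr f.toEquiv, Nat.card_eq_fintype_card, QuaternionGroup.card]
      have h4 : n = 1 := by
        have h5 : 2 ^ n = 2 ^ 1 := by omega
        exact Nat.pow_right_injective (le_refl 2) h5
      subst h4
      exact ⟨f.trans (MulEquiv.refl _)⟩
  · have h16 : Nat.card G = 16 := by
      have h3 : Nat.card (stabV ρ v₀) = 2 := by omega
      rw [← hc v₀ hv₀, h3]
    right
    right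
    refine ⟨?_, h16⟩
    -- transport to coordinates
    have hfr : Module.finrank (ZMod 3) V = 2 := by
      haveI : Module.Finite (ZMod 3) V := Module.Finite.of_finite
      haveI : Fintype V := Fintype.ofFinite V
      have h3 := Module.card_eq_pow_finrank (K := ZMod 3) (V := V)
      rw [← Nat.card_eq_fintype_card, hV9, ZMod.card] at h3
      have h4 : 3 ^ 2 = 3 ^ Module.finrank (ZMod 3) V := by
        rw [← h3]; norm_num
      exact (Nat.pow_right_injective (by norm_num : 2 ≤ 3) h4).symm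
    haveI : Module.Finite (ZMod 3) V := Module.Finite.of_finite
    let e : V ≃ₗ[ZMod 3] (Fin 2 → ZMod 3) := LinearEquiv.ofFinrankEq V (Fin 2 → ZMod 3) (by
      rw [hfr]; simp)
    let ρ' : G →* L32 :=
      { toFun := fun g => e.symm.trans ((ρ g).trans e)
        map_one' := by
          ext1 v
          simp
        map_mul' := fun a b => by
          ext1 v
          simp }
    have hρ' : Function.Injective ρ' := by
      intro a b hab
      apply hρ
      ext1 v
      have := congrArg (fun f : L32 => e.symm (f (e v))) hab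
      simpa [ρ'] using this
    exact qd_of_card_sixteen hG ρ' hρ' h16

/-- **`p`-groups transitive on the nonzero vectors.** -/
theorem trans_pgroup_main (q : ℕ) [hqf : Fact q.Prime] {V : Type u₁} [AddCommGroup V] [Module (ZMod q) V] [Finite V]
    [Nontrivial V] {G : Type v₁} [Group G] [Finite G] [Nontrivial G] (p : ℕ) [hpf : Fact p.Prime] (hG : IsPGroup p G)
    (ρ : G →* (V ≃ₗ[ZMod q] V)) (hρ : Function.Injective ρ)
    (htrans : ∀ v w : V, v ≠ 0 → w ≠ 0 → ∃ g : G, ρ g v = w) :
    (q = 2 ∧ p = Nat.card V - 1 ∧ Nat.card G = p) ∨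
    (p = 2 ∧ Nat.card V = q ∧ (∃ m : ℕ, q = 2 ^ m + 1 ∧ Nat.card G = 2 ^ m) ∧ IsCyclic G) ∨
    (p = 2 ∧ q = 3 ∧ Nat.card V = 9 ∧
      ((IsCyclic G ∧ Nat.card G = 8) ∨ Nonempty (G ≃* QuaternionGroup 2) ∨
        (Cfsg.IsQuasiDihedral G ∧ Nat.card G = 16))) := by
  classical
  have hq : q.Prime := hqf.out
  have hp : p.Prime := hpf.out
  obtain ⟨n, hn0, hVn⟩ := card_V_eq_pow (q := q) (V := V)
  obtain ⟨v, hv⟩ := exists_ne (0 : V)
  have hidx := card_eq_mul_stab ρ htrans hv
  obtain ⟨a, ha⟩ := hG.index (stabV ρ v)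
  have hV2 : 2 ≤ Nat.card V := by
    have := Finite.one_lt_card_iff_nontrivial.mpr (inferInstance : Nontrivial V)
    omega
  have hVeq : Nat.card V = p ^ a + 1 := by omega
  have ha0 : a ≠ 0 := by
    rintro rfl
    rw [pow_zero] at hVeq
    obtain ⟨g, hg⟩ := exists_ne (1 : G)
    apply hg
    apply hρ
    rw [map_one]
    ext1 w
    by_cases hw : w = 0
    · rw [hw, map_zero, map_zero]
    obtain ⟨y, -, hy⟩ := (Nat.card_eq_two_iff' (0 : V)).mp hVeq
    have hgw : ρ g w ≠ 0 := by
      intro h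
      apply hw
      simpa using h
    rw [hy _ hgw, hy _ hw]
    rfl
  by_cases hq2 : q = 2
  · subst hq2
    left
    have hn2 : 2 ≤ n := by
      by_contra h
      have hn1 : n = 1 := by omega
      rw [hn1, pow_one] at hVn
      have h1 : p ^ a = 1 := by omega
      have h2 := Nat.one_lt_pow ha0 hp.one_lt
      omega
    have ha1 := mersenne_prime_pow hp hn2 (hVn.symm.trans hVeq) ha0
    subst ha1
    rw [pow_one] at hVeq
    have hp1 : Nat.card V - 1 = p := by omega
    exact ⟨rfl, hp1.symm, card_of_prime_points hG ρ hρ htrans hp1⟩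
  · have hodd : Odd (Nat.card V) := by
      rw [hVn]
      exact (hq.odd_of_ne_two hq2).pow
    have hp2 : p = 2 := by
      have h1 : 2 ∣ p ^ a := by
        obtain ⟨k, hk⟩ := hodd
        exact ⟨k, by omega⟩
      exact ((Nat.prime_dvd_prime_iff_eq Nat.prime_two hp).mp (Nat.prime_two.dvd_of_dvd_pow h1)).symm
    subst hp2
    right
    by_cases hn1 : n = 1
    · left
      rw [hn1, pow_one] at hVn
      -- one dimensional
      have hspan : ∀ x : V, x ≠ 0 → ∀ w : V, ∃ c : ZMod q, w = c • x := by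
        intro x hx w
        have hinj : Function.Injective (fun c : ZMod q => c • x) := by
          intro c d hcd
          have h1 : (c - d) • x = 0 := by
            rw [sub_smul]
            exact sub_eq_zero.mpr hcd
          rcases smul_eq_zero.mp h1 with h2 | h2
          · exact sub_eq_zero.mp h2
          · exact absurd h2 hx
        have hbij : Function.Bijective (fun c : ZMod q => c • x) := by
          refine (Nat.bijective_iff_injective_and_card _).mpr ⟨hinj, ?_⟩
          rw [hVn, Nat.card_eq_fintype_card, ZMod.card]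
        obtain ⟨c, hc⟩ := hbij.2 w
        exact ⟨c, hc.symm⟩
      have hstab : ∀ x : V, x ≠ 0 → stabV ρ x = ⊥ := by
        intro x hx
        rw [eq_bot_iff]
        intro g hg
        rw [mem_bot]
        apply hρ
        rw [map_one]
        ext1 w
        obtain ⟨c, rfl⟩ := hspan x hx w
        rw [map_smul, mem_stabV.mp hg]
        rfl
      have hcardG : Nat.card G = 2 ^ a := by
        have h1 := Subgroup.card_mul_index (stabV ρ v)
        rw [ha, hstab v hv, Subgroup.card_bot, one_mul] at h1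
        exact h1.symm
      have hab : ∀ g h : G, g * h = h * g := by
        intro g h
        apply hρ
        ext1 w
        obtain ⟨c, rfl⟩ := hspan v hv w
        obtain ⟨c₁, hc₁⟩ := hspan v hv (ρ g v)
        obtain ⟨c₂, hc₂⟩ := hspan v hv (ρ h v)
        rw [map_mul, map_mul, LinearEquiv.mul_apply, LinearEquiv.mul_apply, map_smul, map_smul, map_smul,
          map_smul, hc₁, hc₂, map_smul, map_smul, hc₁, hc₂, smul_comm c₁ c₂ v]
      refine ⟨rfl, hVn, ⟨a, by omega, hcardG⟩, ?_⟩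
      exact isCyclic_of_fpf_action (toMulAut ρ) (fpf_of_stab_bot ρ hstab) hab
    · right
      have hn2 : 2 ≤ n := by omega
      obtain ⟨rfl, rfl⟩ := catalan_two hq hq2 hn2 (hVn.symm.trans hVeq)
      have h9 : Nat.card V = 9 := by rw [hVn]; norm_num
      exact ⟨rfl, rfl, h9, nine_case h9 hG ρ hρ htrans⟩

end Final

end Cfsg.Agent.Lib.GS1
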