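import Mathlib
import Cfsg.Agent.Lib.GS1.PHall2
import Cfsg.Agent.Lib.GS1.TransP
import Cfsg.Agent.Lib.GS1.EqOrd
import Cfsg.Agent.Lib.GS1.ConstStab
import Cfsg.Agent.Lib.Core.Basic

/-!
# Irreducible `p`-groups which are not cyclic, quaternion, dihedral or semidihedral are imprimitive
-/

set_option autoImplicit false

namespace Cfsg.Agent.Lib.GS1

open Cfsg Subgroup

section

universe u v

variable {q : ℕ} [hqf : Fact q.Prime] {V : Type u} [AddCommGroup V] [Module (ZMod q) V] [Finite V] [Nontrivial V]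
  {G : Type v} [Group G] [Finite G] (ρ : G →* (V ≃ₗ[ZMod q] V))

/-- The fixed space of an element. -/
def fixS (b : G) : Submodule (ZMod q) V where
  carrier := {v | ρ b v = v}
  add_mem' := by
    intro x y hx hy
    simp only [Set.mem_setOf_eq] at *
    rw [map_add, hx, hy]
  zero_mem' := by simp
  smul_mem' := by
    intro c x hx
    simp only [Set.mem_setOf_eq] at *
    rw [map_smul, hx]

theorem mem_fixS {b : G} {v : V} : v ∈ fixS ρ b ↔ ρ b v = v := Iff.rfl

theorem rho_mul_apply (g h : G) (v : V) : ρ (g * h) v = ρ g (ρ h v) := by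
  rw [map_mul, LinearEquiv.mul_apply]

theorem rho_inv_apply (g : G) (v : V) : ρ g⁻¹ (ρ g v) = v := by
  rw [← rho_mul_apply, inv_mul_cancel, map_one]
  rfl

theorem rho_apply_inv (g : G) (v : V) : ρ g (ρ g⁻¹ v) = v := by
  rw [← rho_mul_apply, mul_inv_cancel, map_one]
  rfl

theorem map_fixS (g b : G) : (fixS ρ b).map (ρ g : V →ₗ[ZMod q] V) = fixS ρ (g * b * g⁻¹) := by
  ext w
  simp only [Submodule.mem_map, mem_fixS, LinearEquiv.coe_coe]
  constructor
  · rintro ⟨v, hv, rfl⟩
    rw [rho_mul_apply, rho_mul_apply, rho_inv_apply, hv]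
  · intro hw
    refine ⟨ρ g⁻¹ w, ?_, rho_apply_inv ρ g w⟩
    have h1 := congrArg (ρ g⁻¹) hw
    rw [rho_mul_apply, rho_mul_apply, rho_inv_apply] at h1
    exact h1

theorem fixS_central_eq_bot (hρ : Function.Injective ρ)
    (hirr : ∀ W : Submodule (ZMod q) V, (∀ g : G, ∀ w ∈ W, ρ g w ∈ W) → W = ⊥ ∨ W = ⊤) {t : G}
    (ht : ∀ g : G, g * t = t * g) (ht1 : t ≠ 1) : fixS ρ t = ⊥ := by
  rcases hirr (fixS ρ t) (fun g w hw => by
    rw [mem_fixS] at hw ⊢
    rw [← rho_mul_apply, ← ht, rho_mul_apply, hw]) with h | h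
  · exact h
  · exfalso
    apply ht1
    apply hρ
    rw [map_one]
    ext1 w
    have : w ∈ fixS ρ t := by rw [h]; trivial
    exact this

theorem char_ne_of_fpf {p : ℕ} [hpf : Fact p.Prime] {z : G} (hzo : orderOf z = p) (hfz : fixS ρ z = ⊥) :
    ((p : ℕ) : ZMod q) ≠ 0 := by
  classical
  intro h0
  have hq : q.Prime := hqf.out
  have hp : p.Prime := hpf.out
  have hqp : q = p := by
    have h1 : q ∣ p := (ZMod.natCast_eq_zero_iff p q).mp h0
    exact (Nat.prime_dvd_prime_iff_eq hq hp).mp h1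
  subst hqp
  obtain ⟨n, hn0, hVn⟩ := card_V_eq_pow (q := q) (V := V)
  letI : MulAction (zpowers z) V := MulAction.compHom V (ρ.comp (zpowers z).subtype)
  have hP : IsPGroup q (zpowers z) := by
    rw [IsPGroup.iff_card]
    exact ⟨1, by rw [Nat.card_zpowers, hzo, pow_one]⟩
  have h := hP.card_modEq_card_fixedPoints V
  have hfp : MulAction.fixedPoints (zpowers z) V = {0} := by
    ext v
    simp only [MulAction.mem_fixedPoints, Set.mem_singleton_iff]
    constructor
    · intro hv
      have h1 : v ∈ fixS ρ z := hv ⟨z, mem_zpowers z⟩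
      rw [hfz] at h1
      simpa using h1
    · rintro rfl g
      change ρ (g : G) 0 = 0
      exact map_zero _
  rw [hfp, Nat.card_coe_set_eq, Set.ncard_singleton, hVn] at h
  have h1 : q ∣ q ^ n := dvd_pow_self q hn0
  have h2 := (Nat.modEq_zero_iff_dvd.mpr h1).symm.trans h
  have h3 : q ∣ 1 := (Nat.modEq_zero_iff_dvd.mp h2.symm)
  exact hq.one_lt.ne' (Nat.dvd_one.mp h3)

/-- **Imprimitivity.** -/
theorem imprimitive_main (q : ℕ) [hqf : Fact q.Prime] {V : Type u} [AddCommGroup V] [Module (ZMod q) V] [Finite V]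
    [Nontrivial V] {G : Type v} [Group G] [Finite G] (p : ℕ) [hpf : Fact p.Prime] (hG : IsPGroup p G)
    (ρ : G →* (V ≃ₗ[ZMod q] V)) (hρ : Function.Injective ρ)
    (hirr : ∀ W : Submodule (ZMod q) V, (∀ g : G, ∀ w ∈ W, ρ g w ∈ W) → W = ⊥ ∨ W = ⊤)
    (hnc : ¬ IsCyclic G) (hnq : ∀ n : ℕ, ¬ Nonempty (G ≃* QuaternionGroup n))
    (hnd : ∀ n : ℕ, ¬ Nonempty (G ≃* DihedralGroup n)) (hnsd : ¬ Cfsg.IsQuasiDihedral G) :
    ∃ (H : Subgroup G) (W : Fin p → Submodule (ZMod q) V), H.index = p ∧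
      iSup W = ⊤ ∧ iSupIndep W ∧
      (∀ h ∈ H, ∀ i, ∀ w ∈ W i, ρ h w ∈ W i) ∧
      (∀ i, ∃ h ∈ H, h ≠ 1 ∧ ∀ w ∈ W i, ρ h w = w) ∧
      ∀ g : G, g ∉ H → ∃ σ : Equiv.Perm (Fin p), orderOf σ = p ∧
        ∀ i, (W i).map (ρ g : V →ₗ[ZMod q] V) = W (σ i) := by
  classical
  have hp : p.Prime := hpf.out
  obtain ⟨A, hAn, ⟨hAab, hAe⟩, hAc⟩ := exists_normal_elem_p2 hG hnc hnq hnd hnsd
  haveI := hAn
  haveI hGnil : Group.IsNilpotent G := hG.isNilpotent
  have hA1 : A ≠ ⊥ := by
    intro h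
    rw [h, Subgroup.card_bot] at hAc
    have := hp.one_lt
    nlinarith
  have hAcomm : ∀ x ∈ A, ∀ y ∈ A, x * y = y * x := fun x hx y hy =>
    congrArg Subtype.val (hAab.is_comm.comm (⟨x, hx⟩ : A) ⟨y, hy⟩)
  -- a central element of order `p` in `A`
  obtain ⟨z, hz, hz1⟩ := (Subgroup.bot_or_exists_ne_one _).resolve_left
    (Cfsg.Agent.Lib.Core.normal_inf_center_ne_bot A hA1)
  obtain ⟨hzA, hzc⟩ := Subgroup.mem_inf.mp hz
  have hzcomm : ∀ g : G, g * z = z * g := fun g => (Subgroup.mem_center_iff.mp hzc g)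
  have hzo : orderOf z = p := orderOf_eq_prime (hAe z hzA) hz1
  have hfix : ∀ t ∈ center G, t ≠ 1 → fixS ρ t = ⊥ := fun t ht ht1 =>
    fixS_central_eq_bot ρ hρ hirr (fun g => Subgroup.mem_center_iff.mp ht g) ht1
  have hfz := hfix z hzc hz1
  have hpq := char_ne_of_fpf ρ hzo hfz
  -- an element of `A` with a fixed vector
  have hex : ∃ a ∈ A, a ≠ 1 ∧ fixS ρ a ≠ ⊥ := by
    by_contra hno
    push Not at hno
    let ψ : A →* MulAut (Multiplicative V) := (toMulAut ρ).comp A.subtype
    have hfp : ∀ h : A, h ≠ 1 → ∀ v, ψ h v = v → v = 1 := by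
      intro h hh v hv
      have h1 := hno h h.2 (fun e => hh (Subtype.ext e))
      have h2 : Multiplicative.toAdd v ∈ fixS ρ (h : G) := hv
      rw [h1, Submodule.mem_bot] at h2
      exact h2
    have hcycA : IsCyclic A := isCyclic_of_fpf_action ψ hfp hAab.is_comm.comm
    obtain ⟨c, hc⟩ := IsCyclic.exists_ofOrder_eq_natCard (α := A)
    have h3 : orderOf c ∣ p := orderOf_dvd_of_pow_eq_one (Subtype.ext (hAe c c.2))
    rw [hc, hAc] at h3
    have h4 := Nat.le_of_dvd hp.pos h3
    have := hp.one_lt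
    nlinarith
  obtain ⟨a, haA, ha1, hfa⟩ := hex
  have hao : orderOf a = p := orderOf_eq_prime (hAe a haA) ha1
  have hazc : a * z = z * a := hAcomm a haA z hzA
  have hzpowC : ∀ n : ℕ, z ^ n ∈ center G := fun n => pow_mem hzc n
  have haz : a ∉ zpowers z := by
    intro h
    have hzp : z ^ p = 1 := hAe z hzA
    have h1 : z ∈ zpowers a := mem_zpowers_of_mem_zpowers_of_prime hp ha1 hzp h
    apply hfa
    rw [eq_bot_iff, ← hfz]
    intro v hv
    rw [mem_fixS] at hv ⊢
    obtain ⟨n, hn⟩ := (mem_powers_iff_mem_zpowers).mpr h1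
    have hn' : a ^ n = z := hn
    rw [← hn']
    have h2 : ∀ k : ℕ, ρ (a ^ k) v = v := by
      intro k
      induction k with
      | zero => simp
      | succ k ih => rw [pow_succ, rho_mul_apply, hv, ih]
    exact h2 n
  -- `a` modulo `⟨z⟩` is central
  have hZ₀n : (zpowers z).Normal := by
    refine ⟨fun n hn g => ?_⟩
    obtain ⟨k, rfl⟩ := hn
    have h4 : Commute g (z ^ k) := Commute.zpow_right (hzcomm g) k
    change g * z ^ k * g⁻¹ ∈ zpowers z
    rw [h4.eq, mul_inv_cancel_right]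
    exact zpow_mem (mem_zpowers z) k
  haveI := hZ₀n
  have hQnil : Group.IsNilpotent (G ⧸ zpowers z) :=
    (hG.of_surjective (QuotientGroup.mk' _) (QuotientGroup.mk'_surjective _)).isNilpotent
  have hcent : ((a : G) : G ⧸ zpowers z) ∈ center (G ⧸ zpowers z) := by
    let A' : Subgroup (G ⧸ zpowers z) := A.map (QuotientGroup.mk' _)
    haveI hA'n : A'.Normal := Subgroup.Normal.map hAn _ (QuotientGroup.mk'_surjective _)
    have hA'1 : A' ≠ ⊥ := by
      intro h
      have h1 : ((a : G) : G ⧸ zpowers z) ∈ A' := ⟨a, haA, rfl⟩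
      rw [h, mem_bot] at h1
      exact haz ((QuotientGroup.eq_one_iff a).mp h1)
    obtain ⟨w₀, hw₀, hw₀1⟩ := (Subgroup.bot_or_exists_ne_one _).resolve_left
      (Cfsg.Agent.Lib.Core.normal_inf_center_ne_bot A' hA'1)
    obtain ⟨⟨w, hwA, hww⟩, hwc⟩ := Subgroup.mem_inf.mp hw₀
    have hwZ : w ∉ zpowers z := by
      intro h
      apply hw₀1
      rw [← hww]
      exact (QuotientGroup.eq_one_iff w).mpr h
    have hw1 : w ≠ 1 := by
      rintro rfl
      exact hwZ (one_mem _)
    have hwp : w ^ p = 1 := hAe w hwA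
    have hwo : orderOf w = p := orderOf_eq_prime hwp hw1
    have hinf : zpowers w ⊓ zpowers z = ⊥ := by
      rw [eq_bot_iff]
      rintro x ⟨hx1, hx2⟩
      rw [mem_bot]
      by_contra hx
      have h1 : w ∈ zpowers x := mem_zpowers_of_mem_zpowers_of_prime hp hx hwp hx1
      exact hwZ (Subgroup.zpowers_le.mpr hx2 h1)
    have hcard := Cfsg.Agent.Lib.Hall.card_sup_of_le_normalizer (P := zpowers w) (Q := zpowers z)
      (by rw [Subgroup.normalizer_eq_top_iff.mpr hZ₀n]; exact le_top) hinf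
    rw [Nat.card_zpowers, Nat.card_zpowers, hwo, hzo] at hcard
    have hle : zpowers w ⊔ zpowers z ≤ A := by
      rw [sup_le_iff, zpowers_le, zpowers_le]
      exact ⟨hwA, hzA⟩
    have heq : zpowers w ⊔ zpowers z = A := Subgroup.eq_of_le_of_card_ge hle (by
      rw [hAc, hcard, pow_two])
    have ha' : a ∈ zpowers w ⊔ zpowers z := by rw [heq]; exact haA
    rw [Subgroup.mem_sup_of_normal_right] at ha'
    obtain ⟨y, hy, t, ht, rfl⟩ := ha'
    have h1 : ((y * t : G) : G ⧸ zpowers z) = (y : G ⧸ zpowers z) := by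
      rw [QuotientGroup.mk_mul, (QuotientGroup.eq_one_iff t).mpr ht, mul_one]
    rw [h1]
    obtain ⟨n, rfl⟩ := hy
    have h2 : (((w ^ n : G)) : G ⧸ zpowers z) = (w₀) ^ n := by
      rw [← hww]
      rfl
    change (((w ^ n : G)) : G ⧸ zpowers z) ∈ center (G ⧸ zpowers z)
    rw [h2]
    exact zpow_mem hwc n
  have hk : ∀ g : G, ∃ k : ℕ, g * a * g⁻¹ = a * z ^ k := by
    intro g
    have h1 : ((g : G) : G ⧸ zpowers z) * (a : G ⧸ zpowers z) =
        (a : G ⧸ zpowers z) * (g : G ⧸ zpowers z) :=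
      (Subgroup.mem_center_iff.mp hcent (g : G ⧸ zpowers z))
    rw [← QuotientGroup.mk_mul, ← QuotientGroup.mk_mul, QuotientGroup.eq] at h1
    have h2 : (a * g)⁻¹ * (g * a) ∈ zpowers z := by
      have h0 := inv_mem h1
      have e : ((g * a)⁻¹ * (a * g))⁻¹ = (a * g)⁻¹ * (g * a) := by group
      rwa [e] at h0
    obtain ⟨k, hk⟩ := (mem_powers_iff_mem_zpowers).mpr h2
    have hk' : z ^ k = (a * g)⁻¹ * (g * a) := hk
    refine ⟨k, ?_⟩
    have h3 : g * a = (a * g) * z ^ k := by
      rw [hk']; group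
    have hcg : Commute g (z ^ k) := Commute.pow_right (hzcomm g) k
    calc g * a * g⁻¹ = (a * g) * z ^ k * g⁻¹ := by rw [h3]
      _ = a * (g * z ^ k) * g⁻¹ := by group
      _ = a * (z ^ k * g) * g⁻¹ := by rw [hcg.eq]
      _ = a * z ^ k := by group
  -- the centraliser of `a`
  let H : Subgroup G := centralizer {a}
  have hHmem : ∀ g : G, g ∈ H ↔ g * a = a * g := fun g => mem_centralizer_singleton_iff
  have hHne : H ≠ ⊤ := by
    intro h
    apply hfa
    refine hfix a ?_ ha1
    rw [Subgroup.mem_center_iff]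
    intro g
    have : g ∈ H := by rw [h]; trivial
    exact (hHmem g).mp this
  have hidx : H.index = p := by
    have h1 := ncard_conj_eq_index a
    have hsub : {b : G | IsConj b a} ⊆ (fun i : ℕ => a * z ^ i) '' (Set.Iio p) := by
      intro b hb
      obtain ⟨c, hc⟩ := isConj_iff.mp (IsConj.symm hb)
      obtain ⟨k, hk'⟩ := hk c
      refine ⟨k % p, Nat.mod_lt _ hp.pos, ?_⟩
      change a * z ^ (k % p) = b
      rw [← hzo, pow_mod_orderOf, ← hk', hc]
    have h2 : {b : G | IsConj b a}.ncard ≤ p := by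
      refine (Set.ncard_le_ncard hsub (Set.toFinite _)).trans ?_
      refine (Set.ncard_image_le (Set.toFinite _)).trans ?_
      have h3 : (Set.Iio p).ncard = p := by
        rw [Set.ncard_eq_toFinset_card', Set.toFinset_Iio]
        simp
      exact h3.le
    rw [h1] at h2
    obtain ⟨m, hm⟩ := hG.index H
    have hm0 : m ≠ 0 := by
      rintro rfl
      rw [pow_zero] at hm
      exact hHne (Subgroup.index_eq_one.mp hm)
    have h3 : p ≤ p ^ m := Nat.le_self_pow hm0 p
    have h4 : (centralizer {a} : Subgroup G).index = p ^ m := hm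
    rw [h4] at h2
    change (centralizer {a} : Subgroup G).index = p
    rw [h4]
    exact le_antisymm h2 h3
  -- the subspaces
  let W : Fin p → Submodule (ZMod q) V := fun i => fixS ρ (a * z ^ (i : ℕ))
  have hmapW : ∀ (g : G) (i : Fin p) (k : ℕ), g * a * g⁻¹ = a * z ^ k →
      (W i).map (ρ g : V →ₗ[ZMod q] V) = fixS ρ (a * z ^ (k + (i : ℕ))) := by
    intro g i k hgk
    change (fixS ρ (a * z ^ (i : ℕ))).map _ = _
    rw [map_fixS]
    congr 1
    have hcg : Commute g (z ^ (i : ℕ)) := Commute.pow_right (hzcomm g) _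
    calc g * (a * z ^ (i : ℕ)) * g⁻¹ = (g * a * g⁻¹) * (g * z ^ (i : ℕ) * g⁻¹) := by group
      _ = (a * z ^ k) * z ^ (i : ℕ) := by rw [hgk, hcg.eq, mul_inv_cancel_right]
      _ = a * z ^ (k + (i : ℕ)) := by rw [pow_add, mul_assoc]
  have hWmod : ∀ n : ℕ, ∃ j : Fin p, fixS ρ (a * z ^ n) = W j := by
    intro n
    refine ⟨⟨n % p, Nat.mod_lt _ hp.pos⟩, ?_⟩
    change fixS ρ (a * z ^ n) = fixS ρ (a * z ^ (n % p))
    rw [← hzo, pow_mod_orderOf]
  have hsup : iSup W = ⊤ := by
    rcases hirr (iSup W) (fun g w hw => by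
      have hle : iSup W ≤ (iSup W).comap (ρ g : V →ₗ[ZMod q] V) := by
        refine iSup_le fun i => ?_
        intro v hv
        obtain ⟨k, hk'⟩ := hk g
        obtain ⟨j, hj⟩ := hWmod (k + (i : ℕ))
        have h1 : ρ g v ∈ (W i).map (ρ g : V →ₗ[ZMod q] V) := ⟨v, hv, rfl⟩
        rw [hmapW g i k hk', hj] at h1
        exact le_iSup W j h1
      exact hle hw) with h | h
    · exfalso
      apply hfa
      have h1 := le_iSup W ⟨0, hp.pos⟩
      rw [h, le_bot_iff] at h1
      have h2 : W ⟨0, hp.pos⟩ = fixS ρ a := by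
        change fixS ρ (a * z ^ 0) = fixS ρ a
        rw [pow_zero, mul_one]
      rwa [h2] at h1
    · exact h
  have hbA : ∀ n : ℕ, a * z ^ n ∈ A := fun n => A.mul_mem haA (pow_mem hzA n)
  have hindep : iSupIndep W := by
    intro j
    rw [Submodule.disjoint_def]
    intro v hv hv2
    let b : G := a * z ^ (j : ℕ)
    have hbAj : b ∈ A := hbA _
    have hbp : b ^ p = 1 := hAe b hbAj
    let N : V →ₗ[ZMod q] V := ∑ m ∈ Finset.range p, ((ρ (b ^ m) : V ≃ₗ[ZMod q] V) : V →ₗ[ZMod q] V)
    have hN : ∀ x : V, N x = ∑ m ∈ Finset.range p, ρ (b ^ m) x := by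
      intro x
      simp [N, LinearMap.sum_apply]
    have hshift : ∀ x : V, ρ b (N x) = N x := by
      intro x
      rw [hN, map_sum]
      have h1 : ∀ m ∈ Finset.range p, ρ b (ρ (b ^ m) x) = ρ (b ^ (m + 1)) x := by
        intro m _
        rw [← rho_mul_apply, pow_succ']
      rw [Finset.sum_congr rfl h1]
      have h2 := Finset.sum_range_succ (fun m => ρ (b ^ m) x) p
      have h3 := Finset.sum_range_succ' (fun m => ρ (b ^ m) x) p
      simp only [hbp, pow_zero] at h2 h3
      rw [h2] at h3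
      exact (add_right_cancel h3).symm
    have hker : (⨆ i, ⨆ (_ : i ≠ j), W i) ≤ LinearMap.ker N := by
      refine iSup_le fun i => iSup_le fun hij => ?_
      intro x hx
      rw [LinearMap.mem_ker]
      have hx' : ρ (a * z ^ (i : ℕ)) x = x := hx
      let b' : G := a * z ^ (i : ℕ)
      have hb'A : b' ∈ A := hbA _
      have hfixb' : ρ b' (N x) = N x := by
        rw [hN, map_sum]
        refine Finset.sum_congr rfl fun m _ => ?_
        have hcomm : b' * b ^ m = b ^ m * b' := hAcomm _ hb'A _ (pow_mem hbAj m)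
        rw [← rho_mul_apply, hcomm, rho_mul_apply, hx']
      have hfixb : ρ b⁻¹ (N x) = N x := by
        have h1 := rho_inv_apply ρ b (N x)
        rwa [hshift x] at h1
      let c : G := z ^ (i : ℕ) * (z ^ (j : ℕ))⁻¹
      have hcC : c ∈ center G := Subgroup.mul_mem _ (hzpowC _) (inv_mem (hzpowC _))
      have ht : b' * b⁻¹ = c := by
        have hac : a * c = c * a := (Subgroup.mem_center_iff.mp hcC a)
        change a * z ^ (i : ℕ) * (a * z ^ (j : ℕ))⁻¹ = c
        calc a * z ^ (i : ℕ) * (a * z ^ (j : ℕ))⁻¹ = a * c * a⁻¹ := by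
              simp only [c]
              group
          _ = c := by rw [hac]; group
      have hc1 : c ≠ 1 := by
        intro h1
        apply hij
        have h2 : z ^ (i : ℕ) = z ^ (j : ℕ) := by
          have : z ^ (i : ℕ) * (z ^ (j : ℕ))⁻¹ = 1 := h1
          exact mul_inv_eq_one.mp this
        have hi' : (i : ℕ) ∈ Set.Iio (orderOf z) := by rw [hzo]; exact i.2
        have hj' : (j : ℕ) ∈ Set.Iio (orderOf z) := by rw [hzo]; exact j.2
        have h3 := pow_injOn_Iio_orderOf hi' hj' h2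
        exact Fin.ext h3
      have h4 : N x ∈ fixS ρ c := by
        rw [mem_fixS, ← ht, rho_mul_apply, hfixb, hfixb']
      rw [hfix c hcC hc1, Submodule.mem_bot] at h4
      exact h4
    have h0 : N v = 0 := LinearMap.mem_ker.mp (hker hv2)
    have hself : N v = (p : ZMod q) • v := by
      have hv' : ρ b v = v := hv
      have h1 : ∀ m : ℕ, ρ (b ^ m) v = v := by
        intro m
        induction m with
        | zero => simp
        | succ m ih => rw [pow_succ, rho_mul_apply, hv', ih]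
      rw [hN, Finset.sum_congr rfl (fun m _ => h1 m), Finset.sum_const, Finset.card_range,
        Nat.cast_smul_eq_nsmul]
    rw [h0] at hself
    rcases smul_eq_zero.mp hself.symm with h1 | h1
    · exact absurd h1 hpq
    · exact h1
  refine ⟨H, W, hidx, hsup, hindep, ?_, ?_, ?_⟩
  · intro h hh i w hw
    have hw' : ρ (a * z ^ (i : ℕ)) w = w := hw
    change ρ (a * z ^ (i : ℕ)) (ρ h w) = ρ h w
    have hc : (a * z ^ (i : ℕ)) * h = h * (a * z ^ (i : ℕ)) := by
      have h1 : a * h = h * a := ((hHmem h).mp hh).symm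
      have h2 : Commute (z ^ (i : ℕ)) h := (Commute.pow_right (hzcomm h) _).symm
      rw [mul_assoc, h2.eq, ← mul_assoc, h1, mul_assoc]
    rw [← rho_mul_apply, hc, rho_mul_apply, hw']
  · intro i
    refine ⟨a * z ^ (i : ℕ), ?_, ?_, fun w hw => hw⟩
    · rw [hHmem]
      exact hAcomm _ (hbA _) _ haA
    · intro h1
      apply haz
      have h2 : a = (z ^ (i : ℕ))⁻¹ := eq_inv_of_mul_eq_one_left h1
      rw [h2]
      exact inv_mem (pow_mem (mem_zpowers z) _)
  · intro g hg
    obtain ⟨k, hk'⟩ := hk g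
    haveI : NeZero p := ⟨hp.ne_zero⟩
    let c : Fin p := ⟨k % p, Nat.mod_lt _ hp.pos⟩
    have hc0 : c ≠ 0 := by
      intro h0
      apply hg
      rw [hHmem]
      have h1 : k % p = 0 := by
        have := congrArg Fin.val h0
        simpa [c] using this
      have h2 : z ^ k = 1 := by
        rw [← pow_mod_orderOf, hzo, h1, pow_zero]
      rw [h2, mul_one] at hk'
      calc g * a = g * a * g⁻¹ * g := by group
        _ = a * g := by rw [hk']
    refine ⟨Equiv.addRight c, ?_, ?_⟩
    · apply orderOf_eq_prime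
      · have h1 : p • c = 0 := by
          have := card_nsmul_eq_zero' (G := Fin p) (x := c)
          rwa [Nat.card_eq_fintype_card, Fintype.card_fin] at this
        have h2 : ∀ (n : ℕ) (x : Fin p), ((Equiv.addRight c : Equiv.Perm (Fin p)) ^ n) x = x + n • c := by
          intro n x
          induction n with
          | zero => simp
          | succ n ih =>
            rw [pow_succ', Equiv.Perm.mul_apply, ih, Equiv.coe_addRight, succ_nsmul, ← add_assoc]
        ext x
        rw [h2, h1, add_zero]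
        rfl
      · intro h1
        apply hc0
        have h2 := congrArg (fun f : Equiv.Perm (Fin p) => f 0) h1
        simpa using h2
    · intro i
      rw [hmapW g i k hk']
      change fixS ρ (a * z ^ (k + (i : ℕ))) = fixS ρ (a * z ^ (((i + c : Fin p)) : ℕ))
      have h1 : ((i + c : Fin p) : ℕ) = (k + (i : ℕ)) % p := by
        rw [Fin.val_add]
        change ((i : ℕ) + k % p) % p = _
        rw [Nat.add_mod_mod, add_comm]
      have h2 : z ^ ((k + (i : ℕ)) % p) = z ^ (k + (i : ℕ)) := by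
        have := pow_mod_orderOf z (k + (i : ℕ))
        rwa [hzo] at this
      rw [h1, h2]

end

end Cfsg.Agent.Lib.GS1
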