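import Mathlib
import Cfsg.Agent.Lib.M24.Three
import Cfsg.Agent.Lib.M24.Six
import Cfsg.Agent.Lib.M24.Inv
import Cfsg.Agent.Lib.Golay.Trans
import Cfsg.Agent.Lib.SmallSimple.Tools
import Cfsg.Agent.Lib.Hall.FPF
import Cfsg.Agent.Lib.Transfer.Comp

/-!
# Fixed points of elements of `M24`; Sylow counts for subgroups of prime order
-/

set_option autoImplicit false

namespace Cfsg.Agent.Lib.GS1.M22

open Cfsg Cfsg.Agent.Lib.Compute Cfsg.Agent.Lib.Golay Cfsg.Agent.Lib.M24 Subgroup
open scoped Pointwise

/-- Counting fixed points modulo a prime. -/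
theorem card_modEq_fix {α : Type*} [DecidableEq α] (f : Equiv.Perm α) {p : ℕ} [Fact p.Prime]
    (hf : f ^ p = 1) (B : Finset α) (hB : ∀ a ∈ B, f a ∈ B) :
    B.card ≡ (B.filter fun a => f a = a).card [MOD p] := by
  classical
  let e : Function.End ↥B := fun a => ⟨f a, hB a a.2⟩
  have hpow : ∀ (n : ℕ) (a : ↥B), (((e ^ n) a : ↥B) : α) = (f ^ n) a := by
    intro n
    induction n with
    | zero => intro a; rfl
    | succ n ih =>
      intro a
      rw [pow_succ, pow_succ]
      exact ih (e a)
  have he : e ^ p ^ 1 = 1 := by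
    rw [pow_one]
    funext a
    apply Subtype.ext
    rw [hpow, hf]
    rfl
  have h := Equiv.Perm.card_fixedPoints_modEq (f := e) he
  rw [Fintype.card_coe] at h
  have h2 : Fintype.card (Function.fixedPoints e) = (B.filter fun a => f a = a).card := by
    rw [← Fintype.card_coe (B.filter fun a => f a = a)]
    apply Fintype.card_congr
    exact
      { toFun := fun x => ⟨x.1.1, Finset.mem_filter.2 ⟨x.1.2, congrArg Subtype.val x.2⟩⟩
        invFun := fun x => ⟨⟨x.1, (Finset.mem_filter.1 x.2).1⟩, Subtype.ext (Finset.mem_filter.1 x.2).2⟩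
        left_inv := fun x => rfl
        right_inv := fun x => rfl }
  rw [h2] at h
  exact h

/-- A free action of a prime-order permutation on an invariant set. -/
theorem dvd_card_of_free {α : Type*} [DecidableEq α] (f : Equiv.Perm α) {p : ℕ} [Fact p.Prime]
    (hf : f ^ p = 1) (B : Finset α) (hB : ∀ a ∈ B, f a ∈ B) (hfree : ∀ a ∈ B, f a ≠ a) :
    p ∣ B.card := by
  have h := card_modEq_fix f hf B hB
  have h0 : (B.filter fun a => f a = a) = ∅ := by
    apply Finset.filter_eq_empty_iff.2
    intro a ha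
    exact hfree a ha
  rw [h0, Finset.card_empty] at h
  exact (Nat.modEq_zero_iff_dvd).1 h

/-- The fixed points of a permutation of the 24 points. -/
abbrev Fx (σ : Equiv.Perm GolayPt) : Finset GolayPt := Finset.univ.filter fun p => σ p = p

theorem mem_Fx {σ : Equiv.Perm GolayPt} {a : GolayPt} : a ∈ Fx σ ↔ σ a = a := by
  simp [Fx]

theorem Fx_modEq (σ : Equiv.Perm GolayPt) {p : ℕ} [Fact p.Prime] (h : σ ^ p = 1) :
    24 ≡ (Fx σ).card [MOD p] := by
  have h1 := card_modEq_fix σ h Finset.univ (fun _ _ => Finset.mem_univ _)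
  have h2 : (Finset.univ : Finset GolayPt).card = 24 := by decide
  rw [h2] at h1
  exact h1

theorem Fx_pow_subset (σ : Equiv.Perm GolayPt) (n : ℕ) : Fx σ ⊆ Fx (σ ^ n) := by
  intro a ha
  rw [mem_Fx] at ha ⊢
  induction n with
  | zero => rfl
  | succ n ih => rw [pow_succ, Equiv.Perm.mul_apply, ha, ih]

/-- An element of `M24` fixing five points has order dividing 48. -/
theorem pow48_of_fix_five {σ : Equiv.Perm GolayPt} (hσ : σ ∈ M24) {E : Finset GolayPt}
    (hE : 5 ≤ E.card) (hfix : ∀ p ∈ E, σ p = p) : σ ^ 48 = 1 := by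
  obtain ⟨t, ht, htc⟩ := Finset.exists_subset_card_eq hE
  have hc : Fintype.card ↥t = 5 := by rw [Fintype.card_coe, htc]
  let e : ↥t ≃ Fin 5 := Fintype.equivFinOfCardEq hc
  let x : Fin 5 ↪ GolayPt := e.symm.toEmbedding.trans (Function.Embedding.subtype _)
  obtain ⟨g, hg, hgx⟩ := exists_M24_base5 x
  have hxE : ∀ i, σ (x i) = x i := fun i => hfix _ (ht (e.symm i).2)
  let τ : Equiv.Perm GolayPt := g⁻¹ * σ * g
  have hτ : τ ∈ M24 := M24.mul_mem (M24.mul_mem (M24.inv_mem hg) hσ) hg
  have hτfix : ∀ i, τ (base5 i) = base5 i := by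
    intro i
    show g⁻¹ (σ (g (base5 i))) = base5 i
    rw [hgx, hxE, ← hgx i]
    simp
  have hmem : τ ∈ stabL M24 (L5.map pt) := by
    refine ⟨hτ, fun y hy => ?_⟩
    simp only [L5, List.map_cons, List.map_nil, List.mem_cons, List.not_mem_nil, or_false] at hy
    rcases hy with rfl | rfl | rfl | rfl | rfl
    · exact hτfix 4
    · exact hτfix 3
    · exact hτfix 2
    · exact hτfix 1
    · exact hτfix 0
  have h48 : (⟨τ, hmem⟩ : ↥(stabL M24 (L5.map pt))) ^ 48 = 1 := by
    rw [← card_H]
    exact pow_card_eq_one'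
  have h1 : τ ^ 48 = 1 := congrArg Subtype.val h48
  have h2 : σ = g * τ * g⁻¹ := by
    show σ = g * (g⁻¹ * σ * g) * g⁻¹
    group
  rw [h2, conj_pow, h1]
  group

/-- Elements of large prime order fix at most four points. -/
theorem Fx_le_four {σ : Equiv.Perm GolayPt} (hσ : σ ∈ M24) {r : ℕ} (hr : r.Prime) (hr5 : 5 ≤ r)
    (ho : orderOf σ = r) : (Fx σ).card ≤ 4 := by
  by_contra hcon
  have h1 : σ ^ 48 = 1 := pow48_of_fix_five hσ (E := Fx σ) (by omega) (fun p hp => mem_Fx.1 hp)
  have h2 : r ∣ 48 := ho ▸ orderOf_dvd_of_pow_eq_one h1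
  have h3 : r ∣ 2 ^ 4 * 3 := by simpa using h2
  rcases (Nat.Prime.dvd_mul hr).1 h3 with h4 | h4
  · have := Nat.le_of_dvd (by norm_num) (hr.dvd_of_dvd_pow h4)
    omega
  · have := Nat.le_of_dvd (by norm_num) h4
    omega

/-- Involutions fix eight points or none. -/
theorem Fx_two {σ : Equiv.Perm GolayPt} (hσ : σ ∈ M24) (ho : orderOf σ = 2) :
    (Fx σ).card = 8 ∨ (Fx σ).card = 0 := by
  obtain ⟨h1, h2⟩ := order_two_iff.1 ho
  obtain ⟨k, -, h | h⟩ := involution_classify hσ h1 h2
  · left
    have h4 : (Finset.univ.filter fun p => ppm r2a p = p).card = 8 := by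
      rw [r2a_filter]
      decide +kernel
    rw [← h4, ← h, filter_conj, Finset.card_image_of_injective _ k.injective]
  · right
    have h4 : (Finset.univ.filter fun p => ppm r2b p = p).card = 0 := by
      rw [r2b_filter]
      rfl
    rw [← h4, ← h, filter_conj, Finset.card_image_of_injective _ k.injective]

/-- Elements of order three fix six points or none. -/
theorem Fx_three {σ : Equiv.Perm GolayPt} (hσ : σ ∈ M24) (ho : orderOf σ = 3) :
    (Fx σ).card = 6 ∨ (Fx σ).card = 0 := by
  obtain ⟨k, -, ⟨-, h⟩ | ⟨-, h⟩⟩ := order3_classify' hσ ho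
  · exact Or.inl h
  · exact Or.inr h

/-- A nontrivial element of `M24` fixes at most eight points. -/
theorem eq_one_of_nine {σ : Equiv.Perm GolayPt} (hσ : σ ∈ M24) (h : 9 ≤ (Fx σ).card) : σ = 1 := by
  by_contra hne
  have hne' : orderOf σ ≠ 1 := by
    intro h1
    exact hne (orderOf_eq_one_iff.1 h1)
  have hpos : 0 < orderOf σ := orderOf_pos σ
  obtain ⟨r, hr, hrd⟩ := Nat.exists_prime_and_dvd hne'
  have hτ : σ ^ (orderOf σ / r) ∈ M24 := M24.pow_mem hσ _
  have ho : orderOf (σ ^ (orderOf σ / r)) = r := orderOf_pow_orderOf_div hpos.ne' hrd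
  have hc : 9 ≤ (Fx (σ ^ (orderOf σ / r))).card :=
    le_trans h (Finset.card_le_card (Fx_pow_subset σ _))
  by_cases h2 : r = 2
  · subst h2
    rcases Fx_two hτ ho with h3 | h3 <;> omega
  by_cases h3 : r = 3
  · subst h3
    rcases Fx_three hτ ho with h4 | h4 <;> omega
  have h5 : 5 ≤ r := by
    have := hr.two_le
    have h4 : r ≠ 4 := by
      rintro rfl
      revert hr
      decide
    omega
  have := Fx_le_four hτ hr h5 ho
  omega

/-! ### Subgroups of prime order -/

section Abstract

variable {G : Type*} [Group G] [Finite G] {p : ℕ} [hp : Fact p.Prime]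

theorem zpowers_le_centralizer (a : G) :
    zpowers a ≤ centralizer ((zpowers a : Subgroup G) : Set G) := by
  intro x hx
  rw [mem_centralizer_iff]
  intro y hy
  obtain ⟨i, rfl⟩ := mem_zpowers_iff.1 hx
  obtain ⟨j, rfl⟩ := mem_zpowers_iff.1 hy
  exact (Commute.refl a).zpow_zpow j i

/-- The centraliser of an element of prime order, if only that prime occurs. -/
theorem centralizer_eq_zpowers (a : G) (ha : orderOf a = p) (hsq : ¬ p ^ 2 ∣ Nat.card G)
    (hC : ∀ v : G, Commute v a → ∀ r : ℕ, r.Prime → orderOf v = r → r = p) :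
    centralizer ((zpowers a : Subgroup G) : Set G) = zpowers a := by
  set C := centralizer ((zpowers a : Subgroup G) : Set G) with hCdef
  have hcH : Nat.card (zpowers a) = p := by rw [Nat.card_zpowers, ha]
  have hle : zpowers a ≤ C := zpowers_le_centralizer a
  have hprime : ∀ {r : ℕ}, r.Prime → r ∣ Nat.card C → r = p := by
    intro r hr hd
    haveI : Fact r.Prime := ⟨hr⟩
    obtain ⟨x, hx⟩ := exists_prime_orderOf_dvd_card' r hd
    have h1 : Commute (x : G) a := by
      have := (mem_centralizer_iff.1 x.2) a (mem_zpowers a)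
      exact this.symm
    exact hC x h1 r hr (by rw [Subgroup.orderOf_coe, hx])
  have h0 : Nat.card C ≠ 0 := Nat.card_pos.ne'
  have hpow := Nat.eq_prime_pow_of_unique_prime_dvd h0 hprime
  have hdC : Nat.card C ∣ Nat.card G := Subgroup.card_subgroup_dvd_card C
  have hdp : p ∣ Nat.card C := by
    rw [← hcH]
    exact Subgroup.card_dvd_of_le hle
  set k := (Nat.card C).primeFactorsList.length with hk
  have hk1 : k ≠ 0 := by
    intro h
    rw [h, pow_zero] at hpow
    rw [hpow] at hdp
    exact hp.out.one_lt.ne' (Nat.dvd_one.1 hdp)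
  have hk2 : k < 2 := by
    by_contra hcon
    apply hsq
    exact (pow_dvd_pow p (by omega)).trans (hpow ▸ hdC)
  have hk3 : k = 1 := by omega
  rw [hk3, pow_one] at hpow
  symm
  apply Subgroup.eq_of_le_of_card_ge hle
  rw [hpow, hcH]

/-- The normaliser of a subgroup of prime order: the odd case. -/
theorem norm_bound (hp2 : p ≠ 2) (a : G) (ha : orderOf a = p) (hsq : ¬ p ^ 2 ∣ Nat.card G)
    (hC : ∀ v : G, Commute v a → ∀ r : ℕ, r.Prime → orderOf v = r → r = p)
    (hI : ∀ u : G, orderOf u = 2 → u * a * u⁻¹ ≠ a⁻¹) :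
    ∃ e, e ∣ p - 1 ∧ Odd e ∧ Nat.card (normalizer ((zpowers a : Subgroup G) : Set G)) = p * e := by
  set H : Subgroup G := zpowers a with hH
  have hcH : Nat.card H = p := by rw [hH, Nat.card_zpowers, ha]
  have hCH : centralizer (H : Set G) = H := centralizer_eq_zpowers a ha hsq hC
  have hCN : centralizer (H : Set G) ≤ normalizer (H : Set G) := Subgroup.centralizer_le_normalizer _
  set e := (centralizer (H : Set G)).relIndex (normalizer (H : Set G)) with he
  have hed : e ∣ p - 1 := by
    have := Cfsg.Agent.Lib.SmallSimple.relIndex_centralizer_normalizer_dvd H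
    rwa [hcH, Nat.totient_prime hp.out] at this
  have hcard : Nat.card (normalizer (H : Set G)) = p * e := by
    have h1 := Subgroup.card_mul_index ((centralizer (H : Set G)).subgroupOf (normalizer (H : Set G)))
    have h2 : Nat.card ↥((centralizer (H : Set G)).subgroupOf (normalizer (H : Set G))) = p := by
      rw [Nat.card_congr (Subgroup.subgroupOfEquivOfLe hCN).toEquiv, hCH, hcH]
    rw [h2] at h1
    exact h1.symm
  refine ⟨e, hed, ?_, hcard⟩
  by_contra hodd
  have h2e : 2 ∣ e := by
    rw [Nat.not_odd_iff_even] at hodd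
    exact hodd.two_dvd
  have h2N : 2 ∣ Nat.card (normalizer (H : Set G)) := by
    rw [hcard]
    exact h2e.trans (Nat.dvd_mul_left _ _)
  haveI : Fact (Nat.Prime 2) := ⟨Nat.prime_two⟩
  obtain ⟨u, hu⟩ := exists_prime_orderOf_dvd_card' 2 h2N
  have hu' : orderOf (u : G) = 2 := by rw [Subgroup.orderOf_coe, hu]
  have hmem : (u : G) * a * (u : G)⁻¹ ∈ H := (mem_normalizer_iff.1 u.2 a).1 (mem_zpowers a)
  obtain ⟨k, hk⟩ := mem_zpowers_iff.1 hmem
  have hsq1 : (u : G) * (u : G) = 1 := by rw [← pow_two, ← hu', pow_orderOf_eq_one]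
  have hinv : (u : G)⁻¹ = u := by
    rw [inv_eq_iff_mul_eq_one]
    exact hsq1
  have h3 : a ^ (k * k) = a := by
    have h4 : (u : G) * a ^ k * (u : G)⁻¹ = a := by
      rw [hk]
      calc (u : G) * ((u : G) * a * (u : G)⁻¹) * (u : G)⁻¹
          = ((u : G) * u) * a * ((u : G) * u)⁻¹ := by group
        _ = a := by rw [hsq1]; group
    have h5 : (u : G) * a ^ k * (u : G)⁻¹ = ((u : G) * a * (u : G)⁻¹) ^ k := by
      rw [conj_zpow]
    rw [h5, ← hk, ← zpow_mul] at h4
    exact h4
  have h6 : ((p : ℕ) : ℤ) ∣ (k - 1) * (k + 1) := by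
    have h7 : a ^ (k * k - 1) = 1 := by
      rw [zpow_sub, h3, zpow_one, mul_inv_cancel]
    have h8 := orderOf_dvd_iff_zpow_eq_one.2 h7
    rw [ha] at h8
    have h9 : (k - 1) * (k + 1) = k * k - 1 := by ring
    rw [h9]
    exact h8
  have hpz : Prime ((p : ℕ) : ℤ) := Nat.prime_iff_prime_int.1 hp.out
  rcases hpz.dvd_or_dvd h6 with h7 | h7
  · -- commutes
    have h8 : a ^ (k - 1) = 1 := by
      rw [← ha] at h7
      exact orderOf_dvd_iff_zpow_eq_one.1 h7
    have h9 : a ^ k = a := by
      have : a ^ k = a ^ (k - 1) * a := by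
        rw [← zpow_add_one]
        congr 1
        ring
      rw [this, h8, one_mul]
    have h10 : Commute (u : G) a := by
      rw [h9] at hk
      have : (u : G) * a * (u : G)⁻¹ = a := hk.symm
      exact (mul_inv_eq_iff_eq_mul.1 this)
    have := hC u h10 2 Nat.prime_two hu'
    exact hp2 this.symm
  · have h8 : a ^ (k + 1) = 1 := by
      rw [← ha] at h7
      exact orderOf_dvd_iff_zpow_eq_one.1 h7
    have h9 : a ^ k = a⁻¹ := by
      rw [zpow_add_one] at h8
      exact eq_inv_of_mul_eq_one_left h8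
    exact hI u hu' (by rw [← hk, h9])

/-- Sylow's count for a subgroup of prime order. -/
theorem sylow_count (a : G) (ha : orderOf a = p) (hsq : ¬ p ^ 2 ∣ Nat.card G) :
    ∃ n, Nat.card G = Nat.card (normalizer ((zpowers a : Subgroup G) : Set G)) * n ∧ n ≡ 1 [MOD p] := by
  have hcH : Nat.card (zpowers a) = p := by rw [Nat.card_zpowers, ha]
  have hpd : p ∣ Nat.card G := by
    rw [← hcH]
    exact Subgroup.card_subgroup_dvd_card _
  have hf : (Nat.card G).factorization p = 1 := by
    have h1 : 1 ≤ (Nat.card G).factorization p :=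
      (hp.out.dvd_iff_one_le_factorization Nat.card_pos.ne').1 hpd
    have h2 : (Nat.card G).factorization p < 2 := by
      by_contra hcon
      apply hsq
      exact (hp.out.pow_dvd_iff_le_factorization Nat.card_pos.ne').2 (by omega)
    omega
  let P : Sylow p G := Sylow.ofCard (zpowers a) (by rw [hcH, hf, pow_one])
  have hP : (P : Subgroup G) = zpowers a := rfl
  refine ⟨Nat.card (Sylow p G), ?_, card_sylow_modEq_one p G⟩
  have h1 := Sylow.card_eq_index_normalizer P
  have h2 : (normalizer ((P : Subgroup G) : Set G)).index * Nat.card (normalizer ((P : Subgroup G) : Set G)) = Nat.card G :=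
    Subgroup.index_mul_card _
  rw [h1, mul_comm]
  exact h2.symm

/-- A self-normalising, self-centralising Sylow subgroup of prime order is everything, when no
prime power below `#G` is `1` modulo `p`. -/
theorem card_eq_of_self_norm (a : G) (ha : orderOf a = p) (hsq : ¬ p ^ 2 ∣ Nat.card G)
    (hCa : centralizer ((zpowers a : Subgroup G) : Set G) = zpowers a)
    (hN : normalizer ((zpowers a : Subgroup G) : Set G) ≤ centralizer ((zpowers a : Subgroup G) : Set G))
    (hprime : ∀ r : ℕ, r.Prime → r ≠ p → ∀ k, 1 ≤ k → r ^ k ∣ Nat.card G → ¬ r ^ k ≡ 1 [MOD p]) :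
    Nat.card G = p := by
  have hcH : Nat.card (zpowers a) = p := by rw [Nat.card_zpowers, ha]
  have hpd : p ∣ Nat.card G := by
    rw [← hcH]
    exact Subgroup.card_subgroup_dvd_card _
  have hf : (Nat.card G).factorization p = 1 := by
    have h1 : 1 ≤ (Nat.card G).factorization p :=
      (hp.out.dvd_iff_one_le_factorization Nat.card_pos.ne').1 hpd
    have h2 : (Nat.card G).factorization p < 2 := by
      by_contra hcon
      apply hsq
      exact (hp.out.pow_dvd_iff_le_factorization Nat.card_pos.ne').2 (by omega)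
    omega
  let P : Sylow p G := Sylow.ofCard (zpowers a) (by rw [hcH, hf, pow_one])
  have hP : (P : Subgroup G) = zpowers a := rfl
  have hN' : normalizer (((P : Subgroup G)) : Set G) ≤ centralizer ((P : Subgroup G) : Set G) := hN
  have hc := MonoidHom.ker_transferSylow_isComplement' P hN'
  set E : Subgroup G := (MonoidHom.transferSylow P hN').ker with hE
  haveI hEn : E.Normal := inferInstance
  have hcard : Nat.card E * p = Nat.card G := by
    have := hc.card_mul_card
    rwa [hP, hcH] at this
  suffices h1 : Nat.card E = 1 by rw [← hcard, h1, one_mul]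
  by_contra hne
  obtain ⟨r, hr, hrd⟩ := Nat.exists_prime_and_dvd hne
  haveI : Fact r.Prime := ⟨hr⟩
  have hrp : r ≠ p := by
    rintro rfl
    have : r ^ 2 ∣ Nat.card G := by
      rw [← hcard, pow_two]
      exact mul_dvd_mul_right hrd _
    exact hsq this
  -- conjugation by `a` on `E`
  let φ : E ≃* E := MulAut.conjNormal a
  have hφ : ∀ x : E, ((φ x : E) : G) = a * x * a⁻¹ := fun x => MulAut.conjNormal_apply a x
  have hdisj : E ⊓ zpowers a = ⊥ := by
    have := hc.disjoint
    rw [hP] at this
    exact disjoint_iff.1 this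
  have hfpf : MonoidHom.FixedPointFree (φ : E →* E) := by
    intro x hx
    have h1 : ((φ x : E) : G) = x := congrArg Subtype.val hx
    rw [hφ] at h1
    have h2 : (x : G) ∈ centralizer ((zpowers a : Subgroup G) : Set G) := by
      rw [mem_centralizer_iff]
      intro y hy
      obtain ⟨i, rfl⟩ := mem_zpowers_iff.1 hy
      have h3 : Commute a (x : G) := mul_inv_eq_iff_eq_mul.1 h1
      exact (h3.zpow_left i)
    rw [hCa] at h2
    have h3 : (x : G) ∈ E ⊓ zpowers a := ⟨x.2, h2⟩
    rw [hdisj, mem_bot] at h3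
    exact Subtype.ext h3
  obtain ⟨R, hR⟩ := Cfsg.Agent.Lib.Hall.exists_invariant_sylow_of_fixedPointFree φ hfpf r
  classical
  -- the permutation of `R`
  have hRinv : ∀ x : E, x ∈ (R : Subgroup E) → φ x ∈ (R : Subgroup E) := by
    intro x hx
    rw [← hR]
    exact ⟨x, hx, rfl⟩
  have hRinv' : ∀ x : E, x ∈ (R : Subgroup E) → φ.symm x ∈ (R : Subgroup E) := by
    intro x hx
    rw [← hR] at hx
    obtain ⟨y, hy, rfl⟩ := hx
    show φ.symm (φ y) ∈ _
    rw [MulEquiv.symm_apply_apply]
    exact hy
  let f : Equiv.Perm ↥(R : Subgroup E) :=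
    { toFun := fun x => ⟨φ x, hRinv x x.2⟩
      invFun := fun x => ⟨φ.symm x, hRinv' x x.2⟩
      left_inv := fun x => Subtype.ext (φ.symm_apply_apply x)
      right_inv := fun x => Subtype.ext (φ.apply_symm_apply x) }
  have hfa : ∀ (n : ℕ) (x : ↥(R : Subgroup E)), ((((f ^ n) x : ↥(R : Subgroup E)) : E) : G) = a ^ n * x * a⁻¹ ^ n := by
    intro n
    induction n with
    | zero => intro x; simp
    | succ n ih =>
      intro x
      rw [pow_succ, Equiv.Perm.mul_apply, ih]
      show a ^ n * (((φ (x : E) : E) : G)) * a⁻¹ ^ n = _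
      rw [hφ, pow_succ, pow_succ]
      simp only [inv_pow, mul_assoc]
      group
  have hfp : f ^ p = 1 := by
    ext x
    rw [hfa]
    have : a ^ p = 1 := by rw [← ha]; exact pow_orderOf_eq_one a
    simp [this]
  haveI : Fintype ↥(R : Subgroup E) := Fintype.ofFinite _
  have hm := card_modEq_fix f hfp Finset.univ (fun _ _ => Finset.mem_univ _)
  have hfilter : (Finset.univ.filter fun x : ↥(R : Subgroup E) => f x = x) = {1} := by
    ext x
    simp only [Finset.mem_filter, Finset.mem_univ, true_and, Finset.mem_singleton]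
    constructor
    · intro h
      have h1 : φ (x : E) = x := congrArg Subtype.val h
      have h2 := hfpf _ h1
      exact Subtype.ext h2
    · rintro rfl
      apply Subtype.ext
      show φ (1 : E) = 1
      exact map_one φ
  rw [hfilter, Finset.card_singleton, Finset.card_univ, ← Nat.card_eq_fintype_card] at hm
  have hRc : Nat.card (R : Subgroup E) = r ^ (Nat.card E).factorization r := R.card_eq_multiplicity
  have hk : 1 ≤ (Nat.card E).factorization r :=
    (hr.dvd_iff_one_le_factorization Nat.card_pos.ne').1 hrd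
  apply hprime r hr hrp _ hk
  · rw [← hRc]
    refine (Subgroup.card_subgroup_dvd_card _).trans ?_
    exact Subgroup.card_subgroup_dvd_card E
  · rw [← hRc]
    exact hm

end Abstract

end Cfsg.Agent.Lib.GS1.M22
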