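import Mathlib
import Cfsg.Agent.Lib.GS1.M22Fix
import Cfsg.Agent.Lib.M24.Tables
import Cfsg.Agent.Lib.M24.Flag2

/-!
# Data for overgroups of an element of order 11 in the two-point stabiliser of `M24`
-/

set_option autoImplicit false

namespace Cfsg.Agent.Lib.GS1.M22

open Cfsg Cfsg.Agent.Lib.Compute Cfsg.Agent.Lib.Golay Cfsg.Agent.Lib.M24 Subgroup
open scoped Pointwise

/-- The unit `2` modulo 23. -/
def u2 : (ZMod 23)ˣ := ⟨2, 12, by decide, by decide⟩

/-- Multiplication by 2 on the projective line. -/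
def g0 : Equiv.Perm GolayPt := Equiv.optionCongr (Units.mulLeft u2)

theorem g0_none : g0 none = none := rfl
theorem g0_some (x : ZMod 23) : g0 (some x) = some (2 * x) := rfl

theorem g0_pow_none (k : ℕ) : (g0 ^ k) none = none := by
  induction k with
  | zero => rfl
  | succ k ih => rw [pow_succ, Equiv.Perm.mul_apply, g0_none, ih]

theorem g0_pow_some (k : ℕ) (x : ZMod 23) : (g0 ^ k) (some x) = some (2 ^ k * x) := by
  induction k generalizing x with
  | zero => simp
  | succ k ih =>
    rw [pow_succ, Equiv.Perm.mul_apply, g0_some, ih]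
    congr 1
    ring

theorem g0_pow11 : g0 ^ 11 = 1 := by
  ext a
  cases a with
  | none => rw [g0_pow_none]; rfl
  | some x =>
    rw [g0_pow_some]
    have h : (2 : ZMod 23) ^ 11 = 1 := by decide
    rw [h, one_mul]
    rfl

theorem g0_ne_one : g0 ≠ 1 := by
  intro h
  have h1 := congrArg (fun σ : Equiv.Perm GolayPt => σ (some 1)) h
  simp only [g0_some, Equiv.Perm.one_apply] at h1
  revert h1
  decide

instance fact11 : Fact (Nat.Prime 11) := ⟨by norm_num⟩
instance fact7 : Fact (Nat.Prime 7) := ⟨by norm_num⟩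
instance fact5 : Fact (Nat.Prime 5) := ⟨by norm_num⟩
instance fact3 : Fact (Nat.Prime 3) := ⟨by norm_num⟩
instance fact2 : Fact (Nat.Prime 2) := ⟨Nat.prime_two⟩

theorem orderOf_g0 : orderOf g0 = 11 := orderOf_eq_prime g0_pow11 g0_ne_one

/-- The code of `g0`. -/
def g0code : ℕ → ℕ := fun i => if i < 23 then (2 * i) % 23 else i

theorem g0_code : enc.IsCode g0 g0code := by
  intro a
  revert a
  decide +kernel

theorem g0_mem : g0 ∈ M24 := mem_M24_of_check g0_code (by decide +kernel)

/-! ### The two orbits -/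

/-- The mask of the nonzero squares. -/
abbrev mS : ℕ := 340830
/-- The mask of the non-squares. -/
abbrev mN : ℕ := 8047776
/-- The mask of the squares with `0`. -/
abbrev mD : ℕ := 340831

/-- The nonzero squares. -/
noncomputable abbrev Sf : Finset GolayPt := enc.finOf mS
/-- The non-squares. -/
noncomputable abbrev Nf : Finset GolayPt := enc.finOf mN
/-- The squares with `0`. -/
noncomputable abbrev Df : Finset GolayPt := enc.finOf mD

theorem Sf_cases : ∀ z : GolayPt, z ≠ none → z ≠ some 0 → z ∈ Sf ∨ z ∈ Nf := by decide +kernel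
theorem none_notMem_Sf : (none : GolayPt) ∉ Sf := by decide +kernel
theorem none_notMem_Nf : (none : GolayPt) ∉ Nf := by decide +kernel
theorem zero_notMem_Sf : (some 0 : GolayPt) ∉ Sf := by decide +kernel
theorem zero_notMem_Nf : (some 0 : GolayPt) ∉ Nf := by decide +kernel
theorem Sf_Nf_disj : ∀ z : GolayPt, z ∈ Sf → z ∉ Nf := by decide +kernel
theorem card_Sf : Sf.card = 11 := by decide +kernel
theorem card_Nf : Nf.card = 11 := by decide +kernel
theorem Df_eq : Df = insert (some 0) Sf := by decide +kernel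
theorem Df_mem : Df ∈ dodecads := by
  rw [mem_dodecads_iff]
  exact ⟨mD % 4096, by norm_num, by decide +kernel, by decide +kernel⟩

theorem none_notMem_Df : (none : GolayPt) ∉ Df := by decide +kernel
theorem zero_mem_Df : (some 0 : GolayPt) ∈ Df := by decide +kernel

theorem g0_Sf : ∀ z ∈ Sf, g0 z ∈ Sf := by decide +kernel
theorem g0_Nf : ∀ z ∈ Nf, g0 z ∈ Nf := by decide +kernel

theorem Sf_orbit : ∀ x y : ZMod 23, (some x : GolayPt) ∈ Sf → (some y : GolayPt) ∈ Sf →
    ∃ i ∈ Finset.range 11, 2 ^ i * x = y := by decide +kernel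
theorem Nf_orbit : ∀ x y : ZMod 23, (some x : GolayPt) ∈ Nf → (some y : GolayPt) ∈ Nf →
    ∃ i ∈ Finset.range 11, 2 ^ i * x = y := by decide +kernel

theorem Sf_g0_trans {z w : GolayPt} (hz : z ∈ Sf) (hw : w ∈ Sf) : ∃ i : ℕ, (g0 ^ i) z = w := by
  cases z with
  | none => exact absurd hz none_notMem_Sf
  | some x =>
    cases w with
    | none => exact absurd hw none_notMem_Sf
    | some y =>
      obtain ⟨i, -, h⟩ := Sf_orbit x y hz hw
      exact ⟨i, by rw [g0_pow_some, h]⟩

theorem Nf_g0_trans {z w : GolayPt} (hz : z ∈ Nf) (hw : w ∈ Nf) : ∃ i : ℕ, (g0 ^ i) z = w := by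
  cases z with
  | none => exact absurd hz none_notMem_Nf
  | some x =>
    cases w with
    | none => exact absurd hw none_notMem_Nf
    | some y =>
      obtain ⟨i, -, h⟩ := Nf_orbit x y hz hw
      exact ⟨i, by rw [g0_pow_some, h]⟩

/-- The fixed points of `g0`. -/
theorem Fx_g0 : Fx g0 = {none, some 0} := by decide +kernel

/-! ### Octads through the two fixed points -/

/-- The octads through the two fixed points. -/
def hexL : List ℕ :=
  [8391797, 8398155, 8412681, 8421811, 8431757, 8471941, 8499969, 8505411, 8524371, 8536111, 8546577,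
   8593633, 8619033, 8657159, 8663097, 8675909, 8688833, 8716939, 8783649, 8922769, 8946281, 8966165,
   8983587, 9048457, 9112069, 9193633, 9240913, 9347075, 9440193, 9465987, 9471495, 9506893, 9519665,
   9607201, 9748745, 9776129, 9830549, 9963547, 9969957, 10110017, 10486557, 10496547, 10506593,
   10557585, 10630149, 10666625, 10765331, 10846245, 10881097, 11010247, 11046145, 11100169, 11535529,
   11575377, 11731203, 12325377, 12587685, 12599513, 12641313, 12650793, 12656663, 12717187, 12747077,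
   12880401, 13062145, 13121601, 13124355, 13370381, 13636881, 13771273, 13893731, 14254209, 14716939,
   14747201, 14950785, 15335473, 15747077]

/-- An octad through the two fixed points. -/
def Hx (o : Finset GolayPt) : Prop := o ∈ octads ∧ none ∈ o ∧ some 0 ∈ o

/-- The size of the meet with the squares. -/
noncomputable def popA (m : ℕ) : ℕ := Enc.popAux (m &&& mS) 24

theorem hex_check1 : hexL.all (fun m => (inCode m && Nat.beq (Enc.popAux m 24) 8) &&
    (m.testBit 23 && m.testBit 0)) = true := by decide +kernel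

theorem hex_check2 : allBelow (fun k => !(Nat.beq (Enc.popAux (word k) 24) 8 && (word k).testBit 23 &&
    (word k).testBit 0) || hexL.contains (word k)) 4096 = true := by decide +kernel

theorem hexL_lt : hexL.all (fun m => Nat.blt m 16777216) = true := by decide +kernel

theorem hexL_nodup : hexL.Nodup := by decide +kernel

theorem mem_finOf_none {m : ℕ} : (none : GolayPt) ∈ enc.finOf m ↔ m.testBit 23 = true := by
  rw [Enc.mem_finOf]
  rfl

theorem mem_finOf_zero {m : ℕ} : (some 0 : GolayPt) ∈ enc.finOf m ↔ m.testBit 0 = true := by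
  rw [Enc.mem_finOf]
  rfl

theorem Hx_of_mem {m : ℕ} (hm : m ∈ hexL) : Hx (enc.finOf m) := by
  have h := List.all_eq_true.1 hex_check1 m hm
  simp only [Bool.and_eq_true] at h
  refine ⟨octad_of_mask (by simp only [Bool.and_eq_true]; exact h.1), ?_, ?_⟩
  · exact mem_finOf_none.2 h.2.1
  · exact mem_finOf_zero.2 h.2.2

theorem exists_mask_of_Hx {o : Finset GolayPt} (h : Hx o) : ∃ m ∈ hexL, o = enc.finOf m := by
  obtain ⟨h1, h2, h3⟩ := h
  obtain ⟨k, hk, hc, rfl⟩ := mem_octads_iff.1 h1
  refine ⟨word k, ?_, rfl⟩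
  have h4 := (allBelow_iff _ _).1 hex_check2 k hk
  rw [mem_finOf_none] at h2
  rw [mem_finOf_zero] at h3
  have h5 : Nat.beq (Enc.popAux (word k) 24) 8 = true := by rw [hc]; rfl
  simp only [h5, h2, h3, Bool.and_true, Bool.not_true, Bool.false_or] at h4
  simpa using h4

theorem inter_card (m : ℕ) : (enc.finOf m ∩ Sf).card = popA m := by
  rw [Sf, ← Enc.finOf_and, Enc.card_finOf]
  rfl

/-- The octads through the fixed points meeting the squares in `i` points. -/
noncomputable def Lv (i : ℕ) : Finset (Finset GolayPt) :=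
  ((hexL.filter (fun m => Nat.beq (popA m) i)).map enc.finOf).toFinset

theorem mem_Lv {i : ℕ} {o : Finset GolayPt} : o ∈ Lv i ↔ Hx o ∧ (o ∩ Sf).card = i := by
  rw [Lv, List.mem_toFinset, List.mem_map]
  constructor
  · rintro ⟨m, hm, rfl⟩
    rw [List.mem_filter] at hm
    refine ⟨Hx_of_mem hm.1, ?_⟩
    rw [inter_card]
    exact Nat.eq_of_beq_eq_true hm.2
  · rintro ⟨h1, h2⟩
    obtain ⟨m, hm, rfl⟩ := exists_mask_of_Hx h1
    refine ⟨m, ?_, rfl⟩
    rw [List.mem_filter]
    refine ⟨hm, ?_⟩
    rw [inter_card] at h2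
    rw [h2]
    exact Nat.beq_refl _

theorem card_Lv_le (i : ℕ) : (Lv i).card ≤ (hexL.filter (fun m => Nat.beq (popA m) i)).length := by
  refine (List.toFinset_card_le _).trans ?_
  rw [List.length_map]

theorem len5 : (hexL.filter (fun m => Nat.beq (popA m) 5)).length = 11 := by decide +kernel
theorem len1 : (hexL.filter (fun m => Nat.beq (popA m) 1)).length = 11 := by decide +kernel
theorem len3 : (hexL.filter (fun m => Nat.beq (popA m) 3)).length = 55 := by decide +kernel

theorem hex_levels : hexL.all (fun m => Nat.beq (popA m) 1 || Nat.beq (popA m) 3 || Nat.beq (popA m) 5) = true := by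
  decide +kernel

theorem Hx_levels {o : Finset GolayPt} (h : Hx o) :
    (o ∩ Sf).card = 1 ∨ (o ∩ Sf).card = 3 ∨ (o ∩ Sf).card = 5 := by
  obtain ⟨m, hm, rfl⟩ := exists_mask_of_Hx h
  have h1 := List.all_eq_true.1 hex_levels m hm
  rw [inter_card]
  simp only [Bool.or_eq_true] at h1
  rcases h1 with (h1 | h1) | h1
  · exact Or.inl (Nat.eq_of_beq_eq_true h1)
  · exact Or.inr (Or.inl (Nat.eq_of_beq_eq_true h1))
  · exact Or.inr (Or.inr (Nat.eq_of_beq_eq_true h1))

/-- All the octads through the fixed points. -/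
noncomputable def hexF : Finset (Finset GolayPt) := (hexL.map enc.finOf).toFinset

theorem mem_hexF {o : Finset GolayPt} : o ∈ hexF ↔ Hx o := by
  rw [hexF, List.mem_toFinset, List.mem_map]
  constructor
  · rintro ⟨m, hm, rfl⟩
    exact Hx_of_mem hm
  · intro h
    obtain ⟨m, hm, rfl⟩ := exists_mask_of_Hx h
    exact ⟨m, hm, rfl⟩

theorem card_hexF : hexF.card = 77 := by
  rw [hexF, List.toFinset_card_of_nodup, List.length_map]
  · decide +kernel
  · refine List.Nodup.map_on ?_ hexL_nodup
    intro a ha b hb hab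
    have h1 := List.all_eq_true.1 hexL_lt a ha
    have h2 := List.all_eq_true.1 hexL_lt b hb
    have h3 : a < 2 ^ 24 := by
      have := Nat.blt_eq.mp h1
      simpa using this
    have h4 : b < 2 ^ 24 := by
      have := Nat.blt_eq.mp h2
      simpa using this
    exact enc.finOf_injOn h3 h4 hab

/-! ### The dodecads -/

/-- The test for one dodecad. -/
noncomputable def xOK (w : ℕ) : Bool :=
  hexL.any (fun m => Nat.beq (Enc.popAux (m &&& (w ^^^ 1)) 24) 5 && Nat.beq (popA m) 3) &&
  hexL.any (fun m => Nat.beq (Enc.popAux (m &&& (w ^^^ 1)) 24) 1 && Nat.beq (popA m) 3)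

theorem x_check : allBelow (fun k => !(Nat.beq (Enc.popAux (word k) 24) 12 && (word k).testBit 0 &&
    !(word k).testBit 23 && !Nat.beq (word k) mD) || xOK (word k)) 4096 = true := by decide +kernel

/-- The elements considered. -/
def InM22 (σ : Equiv.Perm GolayPt) : Prop := σ ∈ M24 ∧ σ none = none ∧ σ (some 0) = some 0

theorem InM22.inv {σ : Equiv.Perm GolayPt} (h : InM22 σ) : InM22 σ⁻¹ := by
  refine ⟨M24.inv_mem h.1, ?_, ?_⟩
  · rw [Equiv.Perm.inv_eq_iff_eq, h.2.1]
  · rw [Equiv.Perm.inv_eq_iff_eq, h.2.2]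

theorem InM22_g0 : InM22 g0 := ⟨g0_mem, rfl, by decide +kernel⟩

theorem Hx_smul {σ : Equiv.Perm GolayPt} (hσ : InM22 σ) {o : Finset GolayPt} (h : Hx o) : Hx (σ • o) := by
  obtain ⟨h1, h2, h3⟩ := h
  refine ⟨smul_mem_octads hσ.1 h1, ?_, ?_⟩
  · rw [← hσ.2.1]
    exact Finset.smul_mem_smul_finset h2
  · rw [← hσ.2.2]
    exact Finset.smul_mem_smul_finset h3

theorem smul_inter_card (σ : Equiv.Perm GolayPt) (A B : Finset GolayPt) :
    ((σ • A) ∩ (σ • B)).card = (A ∩ B).card := by
  rw [← Finset.smul_finset_inter, Finset.card_smul_finset]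

theorem smul_Df {σ : Equiv.Perm GolayPt} (hσ : InM22 σ) : σ • Df = insert (some 0) (σ • Sf) := by
  rw [Df_eq, Finset.smul_finset_insert]
  have : σ • (some 0 : GolayPt) = some 0 := hσ.2.2
  rw [this]

theorem zero_notMem_smul {σ : Equiv.Perm GolayPt} (hσ : InM22 σ) : (some 0 : GolayPt) ∉ σ • Sf := by
  intro h
  obtain ⟨z, hz, h1⟩ := Finset.mem_smul_finset.1 h
  have h2 : σ z = σ (some 0) := by rw [hσ.2.2]; exact h1
  rw [σ.injective h2] at hz
  exact zero_notMem_Sf hz

theorem none_notMem_smul {σ : Equiv.Perm GolayPt} (hσ : InM22 σ) : (none : GolayPt) ∉ σ • Sf := by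
  intro h
  obtain ⟨z, hz, h1⟩ := Finset.mem_smul_finset.1 h
  have h2 : σ z = σ none := by rw [hσ.2.1]; exact h1
  rw [σ.injective h2] at hz
  exact none_notMem_Sf hz

/-- Moving the squares moves some octads between the levels. -/
theorem x_data {x : Equiv.Perm GolayPt} (hx : InM22 x) (hS : x • Sf ≠ Sf) :
    (∃ o, Hx o ∧ (o ∩ Sf).card = 5 ∧ ((x • o) ∩ Sf).card = 3) ∧
    (∃ o, Hx o ∧ (o ∩ Sf).card = 1 ∧ ((x • o) ∩ Sf).card = 3) := by
  have hD : x • Df ∈ dodecads := smul_mem_dodecads hx.1 Df_mem
  obtain ⟨k, hk, hc, hDk⟩ := mem_dodecads_iff.1 hD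
  set w := word k with hw
  have h0 : w.testBit 0 = true := by
    rw [← mem_finOf_zero, ← hDk, smul_Df hx]
    exact Finset.mem_insert_self _ _
  have h23 : w.testBit 23 = false := by
    by_contra hcon
    have h1 : w.testBit 23 = true := by simpa using hcon
    rw [← mem_finOf_none, ← hDk, smul_Df hx, Finset.mem_insert] at h1
    rcases h1 with h1 | h1
    · exact absurd h1 (by decide)
    · exact none_notMem_smul hx h1
  have hne : w ≠ mD := by
    intro he
    apply hS
    have h1 : insert (some 0) (x • Sf) = insert (some 0) Sf := by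
      rw [← smul_Df hx, hDk, he]
      exact Df_eq
    have h2 : (insert (some 0) (x • Sf)).erase (some 0 : GolayPt) = (insert (some 0) Sf).erase (some 0 : GolayPt) := by
      rw [h1]
    rwa [Finset.erase_insert (zero_notMem_smul hx), Finset.erase_insert zero_notMem_Sf] at h2
  have hS2 : x • Sf = enc.finOf (w ^^^ 1) := by
    ext a
    rw [Enc.mem_finOf, Nat.testBit_xor]
    have h1 : a ∈ enc.finOf w ↔ w.testBit (enc.idx a) = true := enc.mem_finOf
    rw [← hDk, smul_Df hx, Finset.mem_insert] at h1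
    by_cases ha : a = some 0
    · subst ha
      have : enc.idx (some 0 : GolayPt) = 0 := rfl
      rw [this, h0]
      simp only [Nat.testBit_zero, Bool.true_xor]
      constructor
      · intro h
        exact absurd h (zero_notMem_smul hx)
      · intro h
        simp at h
    · have hi : enc.idx a ≠ 0 := by
        intro h
        apply ha
        have : enc.idx a = enc.idx (some 0 : GolayPt) := h
        exact enc.idx_injective this
      have hb : Nat.testBit 1 (enc.idx a) = false := by
        cases hc1 : Nat.testBit 1 (enc.idx a) with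
        | false => rfl
        | true => exact absurd (Nat.testBit_one_eq_true_iff_self_eq_zero.1 hc1) hi
      rw [hb, Bool.xor_false, ← h1]
      simp [ha]
  have hchk := (allBelow_iff _ _).1 x_check k hk
  have h1 : Nat.beq (Enc.popAux (word k) 24) 12 = true := by rw [hc]; rfl
  have h2 : Nat.beq (word k) mD = false := by
    rw [← hw]
    cases hb : Nat.beq w mD with
    | false => rfl
    | true => exact absurd (Nat.eq_of_beq_eq_true hb) hne
  rw [← hw] at hchk h1 h2
  simp only [h1, h0, h23, h2, Bool.and_true, Bool.not_false, Bool.not_true, Bool.false_or] at hchk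
  rw [xOK, Bool.and_eq_true, List.any_eq_true, List.any_eq_true] at hchk
  obtain ⟨⟨m1, hm1, h3⟩, ⟨m2, hm2, h4⟩⟩ := hchk
  simp only [Bool.and_eq_true] at h3 h4
  have key : ∀ m ∈ hexL, ∀ i, Enc.popAux (m &&& (w ^^^ 1)) 24 = i → popA m = 3 →
      ∃ o, Hx o ∧ (o ∩ Sf).card = i ∧ ((x • o) ∩ Sf).card = 3 := by
    intro m hm i hi hp
    refine ⟨x⁻¹ • enc.finOf m, Hx_smul hx.inv (Hx_of_mem hm), ?_, ?_⟩
    · rw [← smul_inter_card x, smul_inv_smul, hS2, ← Enc.finOf_and, Enc.card_finOf]
      exact hi
    · rw [smul_inv_smul, inter_card, hp]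
  exact ⟨key m1 hm1 5 (Nat.eq_of_beq_eq_true h3.1) (Nat.eq_of_beq_eq_true h3.2),
    key m2 hm2 1 (Nat.eq_of_beq_eq_true h4.1) (Nat.eq_of_beq_eq_true h4.2)⟩

/-- No element of `M24` fixing the point `0` carries the squares to the non-squares. -/
theorem not_swap {x : Equiv.Perm GolayPt} (hx : InM22 x) (h : x • Sf = Nf) : False := by
  have hD : x • Df ∈ dodecads := smul_mem_dodecads hx.1 Df_mem
  obtain ⟨k, hk, hc, hDk⟩ := mem_dodecads_iff.1 hD
  have h1 : enc.finOf (word k) = enc.finOf 8047777 := by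
    rw [← hDk, smul_Df hx, h]
    decide +kernel
  have h2 : word k = 8047777 := enc.finOf_injOn (word_lt hk) (by norm_num) h1
  have h3 : k = 8047777 % 4096 := by
    rw [← word_mod hk, h2]
  rw [h3] at h2
  revert h2
  decide +kernel

/-- The stabiliser of a dodecad and two points. -/
theorem card_flag2 {d : Finset GolayPt} (hd : d ∈ dodecads) {p : GolayPt} (hp : p ∈ d) {q : GolayPt} (hq : q ∉ d) :
    Nat.card ↥(MulAction.stabilizer M24 d ⊓ MulAction.stabilizer M24 p ⊓ MulAction.stabilizer M24 q) = 660 := by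
  have h := card_inf_stab_sub (MulAction.stabilizer M24 d ⊓ MulAction.stabilizer M24 p) q
  have horb : MulAction.orbit ↥(MulAction.stabilizer M24 d ⊓ MulAction.stabilizer M24 p) q = (dᶜ : Finset GolayPt) := by
    ext x
    constructor
    · rintro ⟨⟨g, hg⟩, rfl⟩
      simp only [Finset.coe_compl, Set.mem_compl_iff, Finset.mem_coe]
      intro h
      have hg1 : g • d = d := hg.1
      have h2 : g • q ∈ g • d := by
        rw [hg1]
        exact h
      exact hq ((mem_smul_iff g _ _).1 h2)
    · intro h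
      have hx : x ∉ d := by simpa using h
      obtain ⟨r, hr, hr1, hr2⟩ := exists_third (S := dᶜ) (by rw [card_compl_dodecad hd]; norm_num) x x
      obtain ⟨r', hr', hr1', hr2'⟩ := exists_third (S := dᶜ) (by rw [card_compl_dodecad hd]; norm_num) q q
      obtain ⟨g, hg, h1, -⟩ := pair_transitive hd hp hq (Finset.mem_compl.1 hr') hx (Finset.mem_compl.1 hr) hr1'.symm hr1.symm
      exact ⟨⟨g, hg⟩, h1⟩
  rw [card_stabilizer_flag hd hp, horb, Set.ncard_coe_finset, card_compl_dodecad hd] at h
  omega

end Cfsg.Agent.Lib.GS1.M22
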