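import Mathlib
import Cfsg.Agent.Lib.GS1.M22Data

/-!
# Subgroups of the two-point stabiliser of `M24` of order divisible by 11

A subgroup has order 11, or order dividing 660, or it is the whole group of order 443520.
-/

set_option autoImplicit false

namespace Cfsg.Agent.Lib.GS1.M22

open Cfsg Cfsg.Agent.Lib.Compute Cfsg.Agent.Lib.Golay Cfsg.Agent.Lib.M24 Subgroup
open scoped Pointwise

/-- The two-point stabiliser, in the symmetric group. -/
noncomputable def G2 : Subgroup (Equiv.Perm GolayPt) :=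
  M24 ⊓ MulAction.stabilizer _ (none : GolayPt) ⊓ MulAction.stabilizer _ (some 0 : GolayPt)

theorem mem_G2 {σ : Equiv.Perm GolayPt} : σ ∈ G2 ↔ InM22 σ := by
  constructor
  · rintro ⟨⟨h1, h2⟩, h3⟩
    exact ⟨h1, h2, h3⟩
  · rintro ⟨h1, h2, h3⟩
    exact ⟨⟨h1, h2⟩, h3⟩

theorem card_G2 : Nat.card G2 = 443520 := by
  rw [← card_stabilizer_two (p := none) (q := some 0) (by decide)]
  apply Nat.card_congr
  exact
    { toFun := fun s => ⟨⟨s.1, s.2.1.1⟩, ⟨s.2.1.2, s.2.2⟩⟩
      invFun := fun s => ⟨s.1.1, ⟨⟨s.1.2, s.2.1⟩, s.2.2⟩⟩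
      left_inv := fun s => rfl
      right_inv := fun s => rfl }

/-- The action on sets as a permutation. -/
noncomputable def fperm (τ : Equiv.Perm GolayPt) : Equiv.Perm (Finset GolayPt) := MulAction.toPerm τ

theorem fperm_apply (τ : Equiv.Perm GolayPt) (o : Finset GolayPt) : fperm τ o = τ • o := rfl

theorem fperm_pow_eq_one {τ : Equiv.Perm GolayPt} {n : ℕ} (h : τ ^ n = 1) : fperm τ ^ n = 1 := by
  have h1 : fperm τ ^ n = fperm (τ ^ n) := (map_pow (MulAction.toPermHom (Equiv.Perm GolayPt) (Finset GolayPt)) τ n).symm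
  rw [h1, h]
  ext1 o
  show (1 : Equiv.Perm GolayPt) • o = o
  rw [one_smul]

/-- Elements commuting with an element of prime order with few fixed points. -/
theorem comm_prime {a v : Equiv.Perm GolayPt} (hv : v ∈ M24) {p f : ℕ} [Fact p.Prime] (hap : a ^ p = 1)
    (hF : (Fx a).card = f) (hsub : Fx a ⊆ Fx v) (hc : Commute v a) {r : ℕ} (hr : r.Prime)
    (ho : orderOf v = r) (hrp : r ≠ p) (harith : (p = 11 ∧ f = 2) ∨ (p = 7 ∧ f = 3)) : False := by
  classical
  have hB : p ∣ (Fx v \ Fx a).card := by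
    apply dvd_card_of_free a hap
    · intro z hz
      rw [Finset.mem_sdiff, mem_Fx, mem_Fx] at hz ⊢
      refine ⟨?_, ?_⟩
      · have := congrArg (fun σ : Equiv.Perm GolayPt => σ z) hc.eq
        simp only [Equiv.Perm.mul_apply] at this
        rw [this, hz.1]
      · intro h
        exact hz.2 (a.injective h)
    · intro z hz h
      rw [Finset.mem_sdiff, mem_Fx, mem_Fx] at hz
      exact hz.2 h
  have hcard : (Fx v \ Fx a).card = (Fx v).card - f := by
    rw [Finset.card_sdiff_of_subset hsub, hF]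
  have hle : f ≤ (Fx v).card := hF ▸ Finset.card_le_card hsub
  rw [hcard] at hB
  by_cases h2 : r = 2
  · subst h2
    rcases Fx_two hv ho with h3 | h3 <;> rcases harith with ⟨rfl, rfl⟩ | ⟨rfl, rfl⟩ <;> rw [h3] at hB hle <;> omega
  by_cases h3 : r = 3
  · subst h3
    rcases Fx_three hv ho with h4 | h4 <;> rcases harith with ⟨rfl, rfl⟩ | ⟨rfl, rfl⟩ <;> rw [h4] at hB hle <;> omega
  have h5 : 5 ≤ r := by
    have := hr.two_le
    have h4 : r ≠ 4 := by
      rintro rfl
      revert hr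
      decide
    omega
  have h6 := Fx_le_four hv hr h5 ho
  haveI : Fact r.Prime := ⟨hr⟩
  have h7 : v ^ r = 1 := by rw [← ho]; exact pow_orderOf_eq_one v
  have h8 := Fx_modEq v h7
  have h9 : (Fx v).card = f := by
    rcases harith with ⟨rfl, rfl⟩ | ⟨rfl, rfl⟩ <;> omega
  rw [h9] at h8
  rcases harith with ⟨rfl, rfl⟩ | ⟨rfl, rfl⟩
  · have h10 : r ∣ 22 := by
      have := (Nat.modEq_iff_dvd' (by norm_num)).1 h8.symm
      simpa using this
    have h11 : r ∣ 2 * 11 := by simpa using h10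
    rcases (Nat.Prime.dvd_mul hr).1 h11 with h12 | h12
    · have := Nat.le_of_dvd (by norm_num) h12
      omega
    · exact hrp ((Nat.prime_dvd_prime_iff_eq hr (by norm_num)).1 h12)
  · have h10 : r ∣ 21 := by
      have := (Nat.modEq_iff_dvd' (by norm_num)).1 h8.symm
      simpa using this
    have h11 : r ∣ 3 * 7 := by simpa using h10
    rcases (Nat.Prime.dvd_mul hr).1 h11 with h12 | h12
    · have := Nat.le_of_dvd (by norm_num) h12
      omega
    · exact hrp ((Nat.prime_dvd_prime_iff_eq hr (by norm_num)).1 h12)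

/-- No involution inverts an element of prime order with few fixed points, if it fixes those. -/
theorem inv_bound {a u : Equiv.Perm GolayPt} (hu : u ∈ M24) (ho : orderOf u = 2) {p f : ℕ} [hp : Fact p.Prime]
    (hap : a ^ p = 1) (hF : (Fx a).card = f) (hsub : Fx a ⊆ Fx u) (hinv : u * a * u⁻¹ = a⁻¹)
    (harith : (p = 11 ∧ f = 2) ∨ (p = 7 ∧ f = 3)) : False := by
  classical
  have hle : f ≤ (Fx u).card := hF ▸ Finset.card_le_card hsub
  have hf8 : (Fx u).card = 8 := by
    rcases Fx_two hu ho with h | h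
    · exact h
    · exfalso
      rcases harith with ⟨-, rfl⟩ | ⟨-, rfl⟩ <;> omega
  have hp2 : p ≠ 2 := by
    rcases harith with ⟨rfl, -⟩ | ⟨rfl, -⟩ <;> norm_num
  have hcard : (Fx u \ Fx a).card = 8 - f := by
    rw [Finset.card_sdiff_of_subset hsub, hF, hf8]
  have hcard2 : ((Finset.univ : Finset GolayPt) \ Fx a).card = 24 - f := by
    rw [Finset.card_sdiff_of_subset (Finset.subset_univ _), hF]
    rfl
  have hpow : ∀ (k : ℕ) (z : GolayPt), z ∈ Fx u → u ((a ^ k) z) = (a⁻¹ ^ k) z := by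
    intro k z hz
    have h1 : u * a ^ k * u⁻¹ = a⁻¹ ^ k := by rw [← conj_pow, hinv]
    have h2 := congrArg (fun σ : Equiv.Perm GolayPt => σ (u z)) h1
    have h3 : u⁻¹ (u z) = z := by simp
    simp only [Equiv.Perm.mul_apply, h3] at h2
    rw [h2, mem_Fx.1 hz]
  have key : ∀ z ∈ Fx u \ Fx a, ∀ z' ∈ Fx u \ Fx a, ∀ i j : ℕ, i ≤ j → j < p → (a ^ i) z = (a ^ j) z' → i = j ∧ z = z' := by
    intro z hz z' hz' i j hij hj h
    obtain ⟨k, rfl⟩ := Nat.exists_eq_add_of_le hij
    rw [pow_add, Equiv.Perm.mul_apply] at h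
    have h1 : z = (a ^ k) z' := (a ^ i).injective h
    have hzu := (Finset.mem_sdiff.1 hz).1
    have hzu' := (Finset.mem_sdiff.1 hz').1
    have h2 : z = (a⁻¹ ^ k) z' := by
      have h3 := congrArg u h1
      rw [mem_Fx.1 hzu, hpow k z' hzu'] at h3
      exact h3
    have h3 : (a ^ k) z = z' := by
      rw [h2, ← Equiv.Perm.mul_apply, inv_pow, mul_inv_cancel]
      rfl
    have h4 : (a ^ (2 * k)) z' = z' := by
      rw [two_mul, pow_add, Equiv.Perm.mul_apply, ← h1, h3]
    by_cases hk : k = 0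
    · subst hk
      refine ⟨rfl, ?_⟩
      rw [h1]
      rfl
    exfalso
    have hcop : Nat.Coprime (2 * k) p := by
      apply Nat.Coprime.mul_left
      · exact (Nat.coprime_primes Nat.prime_two hp.out).2 hp2.symm
      · rw [Nat.coprime_comm]
        exact (Nat.Prime.coprime_iff_not_dvd hp.out).2 (fun hd =>
          absurd (Nat.le_of_dvd (Nat.pos_of_ne_zero hk) hd) (by omega))
    obtain ⟨m, -, hm⟩ := Nat.exists_mul_mod_eq_one_of_coprime hcop hp.out.one_lt
    have h5 : a = a ^ (2 * k * m) := by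
      rw [pow_eq_pow_mod _ hap, hm, pow_one]
    have h6 : a z' = z' := by
      rw [h5, pow_mul]
      exact mem_Fx.1 (Fx_pow_subset (a ^ (2 * k)) m (mem_Fx.2 h4))
    exact (Finset.mem_sdiff.1 hz').2 (mem_Fx.2 h6)
  have hle2 : ((Fx u \ Fx a) ×ˢ Finset.range p).card ≤ ((Finset.univ : Finset GolayPt) \ Fx a).card := by
    apply Finset.card_le_card_of_injOn (fun x => (a ^ x.2) x.1)
    · intro x hx
      rw [Finset.mem_coe, Finset.mem_sdiff, mem_Fx]
      refine ⟨Finset.mem_univ _, fun h => ?_⟩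
      have hx' := (Finset.mem_product.1 hx).1
      apply (Finset.mem_sdiff.1 hx').2
      rw [mem_Fx]
      have h2 : (a ^ x.2) (a x.1) = (a ^ x.2) x.1 := by
        rw [← Equiv.Perm.mul_apply, ← pow_succ, pow_succ', Equiv.Perm.mul_apply]
        exact h
      exact (a ^ x.2).injective h2
    · rintro ⟨z, i⟩ hx ⟨z', j⟩ hy h
      simp only [Finset.coe_product, Set.mem_prod, Finset.mem_coe, Finset.mem_range] at hx hy
      simp only at h
      rcases le_total i j with hij | hij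
      · obtain ⟨h1, h2⟩ := key z hx.1 z' hy.1 i j hij hy.2 h
        rw [h1, h2]
      · obtain ⟨h1, h2⟩ := key z' hy.1 z hx.1 j i hij hx.2 h.symm
        rw [h1, h2]
  rw [Finset.card_product, Finset.card_range, hcard, hcard2] at hle2
  rcases harith with ⟨rfl, rfl⟩ | ⟨rfl, rfl⟩ <;> omega

theorem prime_power_ok {r k : ℕ} (hr : r.Prime) (hr11 : r ≠ 11) (hk : 1 ≤ k) (hd : r ^ k ∣ 443520) :
    ¬ r ^ k ≡ 1 [MOD 11] := by
  have hrd : r ∣ 443520 := (dvd_pow_self r (by omega)).trans hd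
  have h0 : r ∣ 2 ^ 7 * (3 ^ 2 * (5 * (7 * 11))) := by simpa using hrd
  have h2 : ∀ k < 20, 1 ≤ k → 2 ^ k ∣ 443520 → ¬ 2 ^ k ≡ 1 [MOD 11] := by decide +kernel
  have h3 : ∀ k < 20, 1 ≤ k → 3 ^ k ∣ 443520 → ¬ 3 ^ k ≡ 1 [MOD 11] := by decide +kernel
  have h5 : ∀ k < 20, 1 ≤ k → 5 ^ k ∣ 443520 → ¬ 5 ^ k ≡ 1 [MOD 11] := by decide +kernel
  have h7 : ∀ k < 20, 1 ≤ k → 7 ^ k ∣ 443520 → ¬ 7 ^ k ≡ 1 [MOD 11] := by decide +kernel
  have hkb : r ^ k ≤ 443520 := Nat.le_of_dvd (by norm_num) hd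
  have hlt : k < 20 := by
    by_contra hcon
    have h6 : 2 ^ 20 ≤ r ^ k := (Nat.pow_le_pow_left hr.two_le 20).trans (Nat.pow_le_pow_right hr.pos (by omega))
    norm_num at h6
    omega
  rcases (Nat.Prime.dvd_mul hr).1 h0 with h | h
  · rw [(Nat.prime_dvd_prime_iff_eq hr Nat.prime_two).1 (hr.dvd_of_dvd_pow h)] at hd ⊢
    exact h2 k hlt hk hd
  rcases (Nat.Prime.dvd_mul hr).1 h with h | h
  · rw [(Nat.prime_dvd_prime_iff_eq hr Nat.prime_three).1 (hr.dvd_of_dvd_pow h)] at hd ⊢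
    exact h3 k hlt hk hd
  rcases (Nat.Prime.dvd_mul hr).1 h with h | h
  · rw [(Nat.prime_dvd_prime_iff_eq hr (by norm_num)).1 h] at hd ⊢
    exact h5 k hlt hk hd
  rcases (Nat.Prime.dvd_mul hr).1 h with h | h
  · rw [(Nat.prime_dvd_prime_iff_eq hr (by norm_num)).1 h] at hd ⊢
    exact h7 k hlt hk hd
  · exact absurd ((Nat.prime_dvd_prime_iff_eq hr (by norm_num)).1 h) hr11

/-! ### Action on the octads through the two fixed points -/

theorem g0_smul_Sf : g0 • Sf = Sf := by decide +kernel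

theorem g0_free {o : Finset GolayPt} (h : Hx o) : g0 • o ≠ o := by
  classical
  intro he
  have hc : o.card = 8 := h.1.2
  have hB : 11 ∣ ((o.erase none).erase (some 0)).card := by
    apply dvd_card_of_free g0 g0_pow11
    · intro z hz
      simp only [Finset.mem_erase] at hz ⊢
      obtain ⟨h1, h2, h3⟩ := hz
      refine ⟨?_, ?_, ?_⟩
      · intro h4
        apply h1
        have h5 : g0 z = g0 (some 0) := by rw [h4]; decide +kernel
        exact g0.injective h5
      · intro h4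
        apply h2
        have h5 : g0 z = g0 none := by rw [h4]; rfl
        exact g0.injective h5
      · rw [← he]
        exact Finset.smul_mem_smul_finset h3
    · intro z hz h1
      simp only [Finset.mem_erase] at hz
      have h2 : z ∈ Fx g0 := mem_Fx.2 h1
      rw [Fx_g0] at h2
      simp only [Finset.mem_insert, Finset.mem_singleton] at h2
      rcases h2 with h2 | h2
      · exact hz.2.1 h2
      · exact hz.1 h2
  rw [Finset.card_erase_of_mem, Finset.card_erase_of_mem h.2.1, hc] at hB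
  · norm_num at hB
  · rw [Finset.mem_erase]
    exact ⟨by decide, h.2.2⟩

theorem Lv_smul {τ : Equiv.Perm GolayPt} (hτ : InM22 τ) (hS : τ • Sf = Sf) {i : ℕ} {o : Finset GolayPt}
    (h : o ∈ Lv i) : τ • o ∈ Lv i := by
  rw [mem_Lv] at h ⊢
  refine ⟨Hx_smul hτ h.1, ?_⟩
  have h1 := smul_inter_card τ o Sf
  rw [hS] at h1
  rw [h1, h.2]

theorem fill_g0 {s : Set (Finset GolayPt)} (hs : ∀ o ∈ s, g0 • o ∈ s) {i : ℕ} (hi : (Lv i).card ≤ 11)
    {o1 : Finset GolayPt} (h1 : o1 ∈ Lv i) (h2 : o1 ∈ s) : ∀ o ∈ Lv i, o ∈ s := by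
  classical
  have hB : 11 ∣ ((Lv i).filter (fun o => o ∈ s)).card := by
    apply dvd_card_of_free (fperm g0) (fperm_pow_eq_one g0_pow11)
    · intro o ho
      rw [Finset.mem_filter] at ho ⊢
      exact ⟨Lv_smul InM22_g0 g0_smul_Sf ho.1, hs o ho.2⟩
    · intro o ho
      rw [Finset.mem_filter, mem_Lv] at ho
      exact g0_free ho.1.1
  have hpos : 0 < ((Lv i).filter (fun o => o ∈ s)).card :=
    Finset.card_pos.2 ⟨o1, Finset.mem_filter.2 ⟨h1, h2⟩⟩
  have hle := Nat.le_of_dvd hpos hB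
  have heq : (Lv i).filter (fun o => o ∈ s) = Lv i :=
    Finset.eq_of_subset_of_card_le (Finset.filter_subset _ _) (hi.trans hle)
  intro o ho
  rw [← heq] at ho
  exact (Finset.mem_filter.1 ho).2

theorem c_free {c : Equiv.Perm GolayPt} (hc : InM22 c) (ho : orderOf c = 5) (hS : c • Sf = Sf)
    {o : Finset GolayPt} (h : o ∈ Lv 3) : c • o ≠ o := by
  classical
  intro he
  rw [mem_Lv] at h
  have hpow : c ^ 5 = 1 := by rw [← ho]; exact pow_orderOf_eq_one c
  have h1 := card_modEq_fix c hpow (o ∩ Sf) (by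
    intro z hz
    rw [Finset.mem_inter] at hz ⊢
    constructor
    · rw [← he]
      exact Finset.smul_mem_smul_finset hz.1
    · rw [← hS]
      exact Finset.smul_mem_smul_finset hz.2)
  have h2 : ((o ∩ Sf).filter fun a => c a = a).card ≤ 3 := by
    rw [← h.2]
    exact Finset.card_filter_le _ _
  have h3 : ((o ∩ Sf).filter fun a => c a = a).card = 3 := by
    rw [h.2] at h1
    have h4 : 3 % 5 = ((o ∩ Sf).filter fun a => c a = a).card % 5 := h1
    omega
  have h4 : (o ∩ Sf).filter (fun a => c a = a) = o ∩ Sf :=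
    Finset.eq_of_subset_of_card_le (Finset.filter_subset _ _) (by rw [h3, h.2])
  have hfix : ∀ z ∈ o ∩ Sf, c z = z := by
    intro z hz
    rw [← h4] at hz
    exact (Finset.mem_filter.1 hz).2
  have hsub : insert none (insert (some 0) (o ∩ Sf)) ⊆ Fx c := by
    intro z hz
    rw [Finset.mem_insert, Finset.mem_insert] at hz
    rw [mem_Fx]
    rcases hz with rfl | rfl | hz
    · exact hc.2.1
    · exact hc.2.2
    · exact hfix z hz
  have h5 : (insert none (insert (some 0) (o ∩ Sf))).card = 5 := by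
    rw [Finset.card_insert_of_notMem, Finset.card_insert_of_notMem, h.2]
    · intro h6
      exact zero_notMem_Sf (Finset.mem_inter.1 h6).2
    · intro h6
      rw [Finset.mem_insert] at h6
      rcases h6 with h6 | h6
      · exact absurd h6 (by decide)
      · exact none_notMem_Sf (Finset.mem_inter.1 h6).2
  have h6 := Finset.card_le_card hsub
  have h7 := Fx_le_four hc.1 (by norm_num : Nat.Prime 5) (by norm_num) ho
  omega

theorem fill_c {s : Set (Finset GolayPt)} (hs : ∀ o ∈ s, g0 • o ∈ s) {c : Equiv.Perm GolayPt}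
    (hc : InM22 c) (ho : orderOf c = 5) (hS : c • Sf = Sf) (hsc : ∀ o ∈ s, c • o ∈ s)
    {o1 : Finset GolayPt} (h1 : o1 ∈ Lv 3) (h2 : o1 ∈ s) : ∀ o ∈ Lv 3, o ∈ s := by
  classical
  have hpow : c ^ 5 = 1 := by rw [← ho]; exact pow_orderOf_eq_one c
  have hB : 11 ∣ ((Lv 3).filter (fun o => o ∈ s)).card := by
    apply dvd_card_of_free (fperm g0) (fperm_pow_eq_one g0_pow11)
    · intro o ho
      rw [Finset.mem_filter] at ho ⊢
      exact ⟨Lv_smul InM22_g0 g0_smul_Sf ho.1, hs o ho.2⟩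
    · intro o ho
      rw [Finset.mem_filter, mem_Lv] at ho
      exact g0_free ho.1.1
  have hB5 : 5 ∣ ((Lv 3).filter (fun o => o ∈ s)).card := by
    apply dvd_card_of_free (fperm c) (fperm_pow_eq_one hpow)
    · intro o ho
      rw [Finset.mem_filter] at ho ⊢
      exact ⟨Lv_smul hc hS ho.1, hsc o ho.2⟩
    · intro o ho'
      rw [Finset.mem_filter] at ho'
      exact c_free hc ho hS ho'.1
  have hB55 : 55 ∣ ((Lv 3).filter (fun o => o ∈ s)).card :=
    Nat.Coprime.mul_dvd_of_dvd_of_dvd (by norm_num : Nat.Coprime 5 11) hB5 hB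
  have hpos : 0 < ((Lv 3).filter (fun o => o ∈ s)).card :=
    Finset.card_pos.2 ⟨o1, Finset.mem_filter.2 ⟨h1, h2⟩⟩
  have hle := Nat.le_of_dvd hpos hB55
  have hi : (Lv 3).card ≤ 55 := by
    have := card_Lv_le 3
    rwa [len3] at this
  have heq : (Lv 3).filter (fun o => o ∈ s) = Lv 3 :=
    Finset.eq_of_subset_of_card_le (Finset.filter_subset _ _) (hi.trans hle)
  intro o ho'
  rw [← heq] at ho'
  exact (Finset.mem_filter.1 ho').2

theorem g0_pow_Sf (i : ℕ) {z : GolayPt} (hz : z ∈ Sf) : (g0 ^ i) z ∈ Sf := by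
  induction i generalizing z with
  | zero => exact hz
  | succ i ih =>
    rw [pow_succ, Equiv.Perm.mul_apply]
    exact ih (g0_Sf z hz)

theorem g0_pow_Nf (i : ℕ) {z : GolayPt} (hz : z ∈ Nf) : (g0 ^ i) z ∈ Nf := by
  induction i generalizing z with
  | zero => exact hz
  | succ i ih =>
    rw [pow_succ, Equiv.Perm.mul_apply]
    exact ih (g0_Nf z hz)

theorem ne_none_of_InM22 {σ : Equiv.Perm GolayPt} (h : InM22 σ) {z : GolayPt} (hz : z ≠ none) : σ z ≠ none := by
  intro h1
  apply hz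
  apply σ.injective
  rw [h1, h.2.1]

theorem ne_zero_of_InM22 {σ : Equiv.Perm GolayPt} (h : InM22 σ) {z : GolayPt} (hz : z ≠ some 0) : σ z ≠ some 0 := by
  intro h1
  apply hz
  apply σ.injective
  rw [h1, h.2.2]

theorem ne_none_of_Sf {z : GolayPt} (hz : z ∈ Sf) : z ≠ none := by
  rintro rfl
  exact none_notMem_Sf hz

theorem ne_zero_of_Sf {z : GolayPt} (hz : z ∈ Sf) : z ≠ some 0 := by
  rintro rfl
  exact zero_notMem_Sf hz

theorem ne_none_of_Nf {z : GolayPt} (hz : z ∈ Nf) : z ≠ none := by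
  rintro rfl
  exact none_notMem_Nf hz

theorem ne_zero_of_Nf {z : GolayPt} (hz : z ∈ Nf) : z ≠ some 0 := by
  rintro rfl
  exact zero_notMem_Nf hz

theorem one_mem_Sf : (some 1 : GolayPt) ∈ Sf := by decide +kernel

/-- Elements normalising `⟨g0⟩` preserve the squares. -/
theorem c_smul_Sf {c : Equiv.Perm GolayPt} (hc : InM22 c) (hN : c * g0 * c⁻¹ ∈ zpowers g0) : c • Sf = Sf := by
  classical
  obtain ⟨k, hk⟩ := Submonoid.mem_powers_iff _ _ |>.1 (mem_powers_iff_mem_zpowers.2 hN)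
  have hconj : ∀ i : ℕ, c * g0 ^ i * c⁻¹ = g0 ^ (k * i) := by
    intro i
    rw [← conj_pow, ← hk, pow_mul]
  have happ : ∀ (i : ℕ) (z : GolayPt), c ((g0 ^ i) z) = (g0 ^ (k * i)) (c z) := by
    intro i z
    rw [← hconj i]
    simp
  have h1 : c (some 1) ∈ Sf ∨ c (some 1) ∈ Nf :=
    Sf_cases _ (ne_none_of_InM22 hc (ne_none_of_Sf one_mem_Sf)) (ne_zero_of_InM22 hc (ne_zero_of_Sf one_mem_Sf))
  have hcard : (c • Sf).card = 11 := by rw [Finset.card_smul_finset, card_Sf]
  rcases h1 with h1 | h1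
  · apply Finset.eq_of_subset_of_card_le
    · intro y hy
      obtain ⟨z, hz, rfl⟩ := Finset.mem_smul_finset.1 hy
      obtain ⟨i, rfl⟩ := Sf_g0_trans one_mem_Sf hz
      show c ((g0 ^ i) (some 1)) ∈ Sf
      rw [happ]
      exact g0_pow_Sf _ h1
    · rw [hcard, card_Sf]
  · exfalso
    apply not_swap hc
    apply Finset.eq_of_subset_of_card_le
    · intro y hy
      obtain ⟨z, hz, rfl⟩ := Finset.mem_smul_finset.1 hy
      obtain ⟨i, rfl⟩ := Sf_g0_trans one_mem_Sf hz
      show c ((g0 ^ i) (some 1)) ∈ Nf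
      rw [happ]
      exact g0_pow_Nf _ h1
    · rw [hcard, card_Nf]

/-- Some square is moved to a non-square. -/
theorem exists_move {x : Equiv.Perm GolayPt} (hx : InM22 x) (hS : x • Sf ≠ Sf) : ∃ z ∈ Sf, x z ∈ Nf := by
  by_contra hcon
  push Not at hcon
  apply hS
  apply Finset.eq_of_subset_of_card_le
  · intro y hy
    obtain ⟨z, hz, rfl⟩ := Finset.mem_smul_finset.1 hy
    have h1 : x z ∈ Sf ∨ x z ∈ Nf :=
      Sf_cases _ (ne_none_of_InM22 hx (ne_none_of_Sf hz)) (ne_zero_of_InM22 hx (ne_zero_of_Sf hz))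
    rcases h1 with h1 | h1
    · exact h1
    · exact absurd h1 (hcon z hz)
  · rw [Finset.card_smul_finset]

end Cfsg.Agent.Lib.GS1.M22
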