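import Mathlib
import Cfsg.Agent.Lib.GS1.M22Sub

/-!
# Subgroups of order divisible by 11 of the two-point stabiliser of `M24`
-/

set_option autoImplicit false

namespace Cfsg.Agent.Lib.GS1.M22

open Cfsg Cfsg.Agent.Lib.Compute Cfsg.Agent.Lib.Golay Cfsg.Agent.Lib.M24 Subgroup
open scoped Pointwise

/-- The 22 moved points. -/
noncomputable abbrev Wf : Finset GolayPt := Sf ∪ Nf

theorem mem_Wf {z : GolayPt} : z ∈ Wf ↔ z ≠ none ∧ z ≠ some 0 := by
  rw [Finset.mem_union]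
  constructor
  · rintro (h | h)
    · exact ⟨ne_none_of_Sf h, ne_zero_of_Sf h⟩
    · exact ⟨ne_none_of_Nf h, ne_zero_of_Nf h⟩
  · rintro ⟨h1, h2⟩
    exact Sf_cases z h1 h2

theorem card_Wf : Wf.card = 22 := by decide +kernel

section T

variable {T : Subgroup (Equiv.Perm GolayPt)}

theorem trans22 (hT : ∀ σ ∈ T, InM22 σ) (hg : g0 ∈ T) {x : Equiv.Perm GolayPt} (hxT : x ∈ T)
    (hS : x • Sf ≠ Sf) : ∀ y ∈ Wf, ∀ w ∈ Wf, ∃ τ ∈ T, τ y = w := by
  have hbase : ∀ w ∈ Wf, ∃ τ ∈ T, τ (some 1) = w := by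
    intro w hw
    rcases Finset.mem_union.1 hw with hw | hw
    · obtain ⟨i, hi⟩ := Sf_g0_trans one_mem_Sf hw
      exact ⟨g0 ^ i, T.pow_mem hg i, hi⟩
    · obtain ⟨z, hz, hxz⟩ := exists_move (hT x hxT) hS
      obtain ⟨i, hi⟩ := Sf_g0_trans one_mem_Sf hz
      obtain ⟨j, hj⟩ := Nf_g0_trans hxz hw
      refine ⟨g0 ^ j * x * g0 ^ i, T.mul_mem (T.mul_mem (T.pow_mem hg j) hxT) (T.pow_mem hg i), ?_⟩
      simp only [Equiv.Perm.mul_apply]
      rw [hi, hj]
  intro y hy w hw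
  obtain ⟨τ1, h1, h2⟩ := hbase y hy
  obtain ⟨τ2, h3, h4⟩ := hbase w hw
  refine ⟨τ2 * τ1⁻¹, T.mul_mem h3 (T.inv_mem h1), ?_⟩
  rw [Equiv.Perm.mul_apply, ← h2]
  simp [h4]

theorem orbit_Wf (hT : ∀ σ ∈ T, InM22 σ) (hg : g0 ∈ T) {x : Equiv.Perm GolayPt} (hxT : x ∈ T)
    (hS : x • Sf ≠ Sf) {y : GolayPt} (hy : y ∈ Wf) : MulAction.orbit ↥T y = (Wf : Finset GolayPt) := by
  ext w
  constructor
  · rintro ⟨τ, rfl⟩
    refine Finset.mem_coe.2 (mem_Wf.2 ?_)
    exact ⟨ne_none_of_InM22 (hT _ τ.2) (mem_Wf.1 hy).1, ne_zero_of_InM22 (hT _ τ.2) (mem_Wf.1 hy).2⟩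
  · intro hw
    obtain ⟨τ, h1, h2⟩ := trans22 hT hg hxT hS y hy w hw
    exact ⟨⟨τ, h1⟩, h2⟩

theorem seven_dvd (hT : ∀ σ ∈ T, InM22 σ) (hg : g0 ∈ T) {c : Equiv.Perm GolayPt} (hcT : c ∈ T)
    (hc5 : orderOf c = 5) (hcS : c • Sf = Sf) {x : Equiv.Perm GolayPt} (hxT : x ∈ T) (hS : x • Sf ≠ Sf) :
    7 ∣ Nat.card T := by
  classical
  obtain ⟨⟨o1, h11, h12, h13⟩, ⟨o2, h21, h22, h23⟩⟩ := x_data (hT x hxT) hS
  set s : Set (Finset GolayPt) := MulAction.orbit ↥T o1 with hs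
  have hsT : ∀ o ∈ s, ∀ τ ∈ T, τ • o ∈ s := by
    rintro o ⟨τ0, rfl⟩ τ hτ
    refine ⟨⟨τ, hτ⟩ * τ0, ?_⟩
    show ((τ * (τ0 : Equiv.Perm GolayPt)) • o1) = τ • ((τ0 : Equiv.Perm GolayPt) • o1)
    rw [mul_smul]
  have ho1 : o1 ∈ s := MulAction.mem_orbit_self o1
  have hL5 : ∀ o ∈ Lv 5, o ∈ s := by
    apply fill_g0 (fun o ho => hsT o ho g0 hg) (by
      have := card_Lv_le 5
      rwa [len5] at this) (mem_Lv.2 ⟨h11, h12⟩) ho1
  have hxo1 : x • o1 ∈ s := hsT o1 ho1 x hxT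
  have hL3 : ∀ o ∈ Lv 3, o ∈ s :=
    fill_c (fun o ho => hsT o ho g0 hg) (hT c hcT) hc5 hcS (fun o ho => hsT o ho c hcT)
      (mem_Lv.2 ⟨Hx_smul (hT x hxT) h11, h13⟩) hxo1
  have ho2 : o2 ∈ s := by
    have h1 := hL3 (x • o2) (mem_Lv.2 ⟨Hx_smul (hT x hxT) h21, h23⟩)
    have h2 := hsT _ h1 x⁻¹ (T.inv_mem hxT)
    rwa [inv_smul_smul] at h2
  have hL1 : ∀ o ∈ Lv 1, o ∈ s := by
    apply fill_g0 (fun o ho => hsT o ho g0 hg) (by
      have := card_Lv_le 1
      rwa [len1] at this) (mem_Lv.2 ⟨h21, h22⟩) ho2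
  have hseq : s = (hexF : Finset (Finset GolayPt)) := by
    ext o
    constructor
    · rintro ⟨τ, rfl⟩
      exact mem_hexF.2 (Hx_smul (hT _ τ.2) h11)
    · intro ho
      have h1 : Hx o := mem_hexF.1 ho
      rcases Hx_levels h1 with h2 | h2 | h2
      · exact hL1 o (mem_Lv.2 ⟨h1, h2⟩)
      · exact hL3 o (mem_Lv.2 ⟨h1, h2⟩)
      · exact hL5 o (mem_Lv.2 ⟨h1, h2⟩)
  have hcard := card_inf_stab_sub T o1
  rw [← hs, hseq, Set.ncard_coe_finset, card_hexF] at hcard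
  rw [← hcard]
  exact Dvd.dvd.mul_left (by norm_num) _

theorem orbit21 {U : Subgroup (Equiv.Perm GolayPt)} {y : GolayPt}
    (hU : ∀ σ ∈ U, InM22 σ ∧ σ y = y) {h c : Equiv.Perm GolayPt} (hh : h ∈ U) (h7 : orderOf h = 7)
    (hFh : ∀ z ∈ Fx h, z = none ∨ z = some 0 ∨ z = y) (hc : c ∈ U) (hc5 : orderOf c = 5)
    (hFc : (Fx c).card = 4) (hy : y ∈ Wf) {z : GolayPt} (hz : z ∈ Wf) (hzy : z ≠ y) :
    (MulAction.orbit ↥U z).ncard = 21 := by
  classical
  have hpow7 : h ^ 7 = 1 := by rw [← h7]; exact pow_orderOf_eq_one h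
  have hpow5 : c ^ 5 = 1 := by rw [← hc5]; exact pow_orderOf_eq_one c
  set Δ : Finset GolayPt := Finset.univ.filter (fun w => w ∈ MulAction.orbit ↥U z) with hΔ
  have hmem : ∀ w, w ∈ Δ ↔ ∃ τ ∈ U, τ z = w := by
    intro w
    rw [hΔ, Finset.mem_filter]
    constructor
    · rintro ⟨-, ⟨τ, rfl⟩⟩
      exact ⟨τ, τ.2, rfl⟩
    · rintro ⟨τ, hτ, rfl⟩
      exact ⟨Finset.mem_univ _, ⟨⟨τ, hτ⟩, rfl⟩⟩
  have horb : MulAction.orbit ↥U z = (Δ : Finset GolayPt) := by
    ext w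
    rw [Finset.mem_coe, hΔ, Finset.mem_filter]
    simp
  rw [horb, Set.ncard_coe_finset]
  have hinv : ∀ σ ∈ U, ∀ w ∈ Δ, σ w ∈ Δ := by
    intro σ hσ w hw
    obtain ⟨τ, hτ, rfl⟩ := (hmem w).1 hw
    exact (hmem _).2 ⟨σ * τ, U.mul_mem hσ hτ, rfl⟩
  have hsub : Δ ⊆ Wf.erase y := by
    intro w hw
    obtain ⟨τ, hτ, rfl⟩ := (hmem w).1 hw
    obtain ⟨h1, h2⟩ := hU τ hτ
    rw [Finset.mem_erase, mem_Wf]
    have hz' := mem_Wf.1 hz
    refine ⟨?_, ne_none_of_InM22 h1 hz'.1, ne_zero_of_InM22 h1 hz'.2⟩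
    intro h3
    apply hzy
    apply τ.injective
    rw [h3, h2]
  have hle : Δ.card ≤ 21 := by
    have := Finset.card_le_card hsub
    rwa [Finset.card_erase_of_mem hy, card_Wf] at this
  have hpos : 0 < Δ.card := Finset.card_pos.2 ⟨z, (hmem z).2 ⟨1, U.one_mem, rfl⟩⟩
  have hd7 : 7 ∣ Δ.card := by
    apply dvd_card_of_free h hpow7 Δ (hinv h hh)
    intro w hw h1
    have h2 := Finset.mem_erase.1 (hsub hw)
    have h3 := mem_Wf.1 h2.2
    rcases hFh w (mem_Fx.2 h1) with h4 | h4 | h4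
    · exact h3.1 h4
    · exact h3.2 h4
    · exact h2.1 h4
  have hmod := card_modEq_fix c hpow5 Δ (hinv c hc)
  have hf : (Δ.filter fun a => c a = a).card ≤ 1 := by
    have hc2 := hU c hc
    have hy' := mem_Wf.1 hy
    have hsub2 : (Δ.filter fun a => c a = a) ⊆ Fx c \ {none, some 0, y} := by
      intro w hw
      rw [Finset.mem_filter] at hw
      have h2 := Finset.mem_erase.1 (hsub hw.1)
      have h3 := mem_Wf.1 h2.2
      rw [Finset.mem_sdiff, mem_Fx]
      refine ⟨hw.2, ?_⟩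
      simp only [Finset.mem_insert, Finset.mem_singleton, not_or]
      exact ⟨h3.1, h3.2, h2.1⟩
    have hsub3 : ({none, some 0, y} : Finset GolayPt) ⊆ Fx c := by
      intro w hw
      simp only [Finset.mem_insert, Finset.mem_singleton] at hw
      rw [mem_Fx]
      rcases hw with rfl | rfl | rfl
      · exact hc2.1.2.1
      · exact hc2.1.2.2
      · exact hc2.2
    have hcard3 : ({none, some 0, y} : Finset GolayPt).card = 3 := by
      rw [Finset.card_insert_of_notMem, Finset.card_insert_of_notMem, Finset.card_singleton]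
      · rw [Finset.mem_singleton]
        exact hy'.2.symm
      · simp only [Finset.mem_insert, Finset.mem_singleton, not_or]
        exact ⟨by decide, hy'.1.symm⟩
    have h5 := Finset.card_le_card hsub2
    rw [Finset.card_sdiff_of_subset hsub3, hcard3, hFc] at h5
    omega
  have hm : Δ.card % 5 = (Δ.filter fun a => c a = a).card % 5 := hmod
  obtain ⟨k, hk⟩ := hd7
  have hk3 : k ≤ 3 := by omega
  rw [hk] at hm ⊢
  interval_cases k <;> omega

/-- The case of a subgroup moving the squares. -/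
theorem big_case (hT : ∀ σ ∈ T, InM22 σ) (hg : g0 ∈ T) {c : Equiv.Perm GolayPt} (hcT : c ∈ T)
    (hc5 : orderOf c = 5) (hcN : c * g0 * c⁻¹ ∈ zpowers g0) {x : Equiv.Perm GolayPt} (hxT : x ∈ T)
    (hS : x • Sf ≠ Sf) (hn : ∃ n, Nat.card T = 55 * n ∧ n ≡ 1 [MOD 11]) (hdvd : Nat.card T ∣ 443520) :
    Nat.card T = 443520 := by
  classical
  have hcS := c_smul_Sf (hT c hcT) hcN
  have h7 := seven_dvd hT hg hcT hc5 hcS hxT hS
  obtain ⟨hh, hho⟩ := exists_prime_orderOf_dvd_card' 7 h7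
  set h : Equiv.Perm GolayPt := (hh : Equiv.Perm GolayPt) with hhdef
  have hhT : h ∈ T := hh.2
  have hho' : orderOf h = 7 := by rw [hhdef, Subgroup.orderOf_coe, hho]
  have hpow7 : h ^ 7 = 1 := by rw [← hho']; exact pow_orderOf_eq_one h
  have hh22 := hT h hhT
  have hFh3 : (Fx h).card = 3 := by
    have h1 := Fx_le_four hh22.1 (by norm_num : Nat.Prime 7) (by norm_num) hho'
    have h2 := Fx_modEq h hpow7
    have h3 : 24 % 7 = (Fx h).card % 7 := h2
    omega
  have hsub2 : ({none, some 0} : Finset GolayPt) ⊆ Fx h := by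
    intro w hw
    simp only [Finset.mem_insert, Finset.mem_singleton] at hw
    rw [mem_Fx]
    rcases hw with rfl | rfl
    · exact hh22.2.1
    · exact hh22.2.2
  have hcard1 : (Fx h \ {none, some 0}).card = 1 := by
    rw [Finset.card_sdiff_of_subset hsub2, hFh3]
    rfl
  obtain ⟨y, hy⟩ := Finset.card_eq_one.1 hcard1
  have hyFx : y ∈ Fx h \ {none, some 0} := by rw [hy]; exact Finset.mem_singleton_self y
  have hy1 := Finset.mem_sdiff.1 hyFx
  have hyW : y ∈ Wf := by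
    rw [mem_Wf]
    have := hy1.2
    simp only [Finset.mem_insert, Finset.mem_singleton, not_or] at this
    exact this
  have hFh : ∀ z ∈ Fx h, z = none ∨ z = some 0 ∨ z = y := by
    intro z hz
    by_cases h1 : z = none
    · exact Or.inl h1
    by_cases h2 : z = some 0
    · exact Or.inr (Or.inl h2)
    refine Or.inr (Or.inr ?_)
    have h3 : z ∈ Fx h \ {none, some 0} := by
      rw [Finset.mem_sdiff]
      refine ⟨hz, ?_⟩
      simp only [Finset.mem_insert, Finset.mem_singleton, not_or]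
      exact ⟨h1, h2⟩
    rw [hy] at h3
    exact Finset.mem_singleton.1 h3
  -- a conjugate of `c` fixing `y`
  have hpow5 : c ^ 5 = 1 := by rw [← hc5]; exact pow_orderOf_eq_one c
  have hfixS := card_modEq_fix c hpow5 Sf (by
    intro z hz
    rw [← hcS]
    exact Finset.smul_mem_smul_finset hz)
  have hne : (Sf.filter fun a => c a = a).Nonempty := by
    rw [← Finset.card_pos]
    have h3 : Sf.card % 5 = (Sf.filter fun a => c a = a).card % 5 := hfixS
    rw [card_Sf] at h3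
    omega
  obtain ⟨y', hy'⟩ := hne
  have hy'1 := Finset.mem_filter.1 hy'
  obtain ⟨τ, hτT, hτ⟩ := trans22 hT hg hxT hS y' (Finset.mem_union_left _ hy'1.1) y hyW
  set c' : Equiv.Perm GolayPt := τ * c * τ⁻¹ with hc'def
  have hc'T : c' ∈ T := T.mul_mem (T.mul_mem hτT hcT) (T.inv_mem hτT)
  have hc'o : orderOf c' = 5 := by
    have h1 := orderOf_injective (MulAut.conj τ).toMonoidHom (MulAut.conj τ).injective c
    rw [hc5] at h1
    exact h1
  have hc'y : c' y = y := by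
    rw [hc'def, ← hτ]
    simp [hy'1.2]
  have hc'22 := hT c' hc'T
  have hpow5' : c' ^ 5 = 1 := by rw [← hc'o]; exact pow_orderOf_eq_one c'
  have hFc : (Fx c').card = 4 := by
    have h1 := Fx_le_four hc'22.1 (by norm_num : Nat.Prime 5) (by norm_num) hc'o
    have h2 := Fx_modEq c' hpow5'
    have h3 : 24 % 5 = (Fx c').card % 5 := h2
    omega
  -- the stabiliser of `y`
  set U : Subgroup (Equiv.Perm GolayPt) := T ⊓ MulAction.stabilizer _ y with hUdef
  have hU : ∀ σ ∈ U, InM22 σ ∧ σ y = y := fun σ hσ => ⟨hT σ hσ.1, hσ.2⟩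
  have hTU : Nat.card U * 22 = Nat.card T := by
    have h1 := card_inf_stab_sub T y
    rw [orbit_Wf hT hg hxT hS hyW, Set.ncard_coe_finset, card_Wf] at h1
    exact h1
  -- another point
  obtain ⟨z, hz, hzy⟩ : ∃ z ∈ Wf, z ≠ y := by
    by_contra hcon
    push Not at hcon
    have : Wf ⊆ {y} := fun w hw => Finset.mem_singleton.2 (hcon w hw)
    have h1 := Finset.card_le_card this
    rw [card_Wf] at h1
    simp at h1
  have hUV : Nat.card ↥(U ⊓ MulAction.stabilizer _ z) * 21 = Nat.card U := by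
    have h1 := card_inf_stab_sub U z
    rw [orbit21 hU (⟨hhT, mem_Fx.1 hy1.1⟩ : h ∈ U) hho' hFh (⟨hc'T, hc'y⟩ : c' ∈ U) hc'o hFc hyW hz hzy] at h1
    exact h1
  have h5U : 5 ∣ Nat.card U := by
    rw [← hc'o]
    exact Subgroup.orderOf_dvd_natCard U (⟨hc'T, hc'y⟩ : c' ∈ U)
  have hV5 : 5 ∣ Nat.card ↥(U ⊓ MulAction.stabilizer _ z) := by
    rw [← hUV] at h5U
    exact (Nat.Coprime.dvd_of_dvd_mul_right (by norm_num : Nat.Coprime 5 21) h5U)
  obtain ⟨w, hw⟩ := hV5
  have hTw : Nat.card T = 2310 * w := by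
    rw [← hTU, ← hUV, hw]
    ring
  obtain ⟨n, hn1, hn2⟩ := hn
  have hn3 : n = 42 * w := by omega
  have hw192 : w ∣ 192 := by
    rw [hTw] at hdvd
    exact Nat.dvd_of_mul_dvd_mul_left (by norm_num : 0 < 2310) (by simpa using hdvd)
  have hmod : (42 * w) % 11 = 1 := by
    rw [← hn3]
    exact hn2
  have hcases : ∀ w ≤ 192, w ∣ 192 → (42 * w) % 11 = 1 → w = 16 ∨ w = 192 := by decide +kernel
  rcases hcases w (Nat.le_of_dvd (by norm_num) hw192) hw192 hmod with rfl | rfl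
  · exfalso
    have hT36 : Nat.card T = 36960 := by rw [hTw]
    have hsq : ¬ 7 ^ 2 ∣ Nat.card T := by
      rw [hT36]
      norm_num
    have hstable : ∀ v : Equiv.Perm GolayPt, InM22 v → (∀ w, h (v w) = v w ↔ h w = w) → Fx h ⊆ Fx v := by
      intro v hv hiff q hq
      rw [mem_Fx] at hq ⊢
      rcases hFh q (mem_Fx.2 hq) with h0 | h0 | h0
      · rw [h0]
        exact hv.2.1
      · rw [h0]
        exact hv.2.2
      · have h1 : h (v q) = v q := (hiff q).2 hq
        rcases hFh (v q) (mem_Fx.2 h1) with h2 | h2 | h2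
        · exact absurd h2 (ne_none_of_InM22 hv (by rw [h0]; exact (mem_Wf.1 hyW).1))
        · exact absurd h2 (ne_zero_of_InM22 hv (by rw [h0]; exact (mem_Wf.1 hyW).2))
        · rw [h2, h0]
    have hC : ∀ v : ↥T, Commute v hh → ∀ r : ℕ, r.Prime → orderOf v = r → r = 7 := by
      intro v hv r hr ho
      by_contra hrp
      have hcomm : Commute (v : Equiv.Perm GolayPt) h := by
        have := congrArg Subtype.val hv.eq
        exact this
      refine comm_prime (a := h) (v := v) (p := 7) (f := 3) (hT v v.2).1 hpow7 hFh3 ?_ hcomm hr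
        (by rw [Subgroup.orderOf_coe, ho]) hrp (Or.inr ⟨rfl, rfl⟩)
      apply hstable _ (hT v v.2)
      intro w
      have h1 : h ((v : Equiv.Perm GolayPt) w) = (v : Equiv.Perm GolayPt) (h w) := by
        have := congrArg (fun σ : Equiv.Perm GolayPt => σ w) hcomm.eq
        exact this.symm
      rw [h1]
      exact (v : Equiv.Perm GolayPt).injective.eq_iff
    have hI : ∀ u : ↥T, orderOf u = 2 → u * hh * u⁻¹ ≠ hh⁻¹ := by
      intro u hu hinv
      have hinv' : (u : Equiv.Perm GolayPt) * h * (u : Equiv.Perm GolayPt)⁻¹ = h⁻¹ := congrArg Subtype.val hinv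
      refine inv_bound (a := h) (u := u) (p := 7) (f := 3) (hT u u.2).1 (by rw [Subgroup.orderOf_coe, hu])
        hpow7 hFh3 ?_ hinv' (Or.inr ⟨rfl, rfl⟩)
      apply hstable _ (hT u u.2)
      intro w
      have h1 : h⁻¹ ((u : Equiv.Perm GolayPt) w) = (u : Equiv.Perm GolayPt) (h w) := by
        rw [← hinv']
        simp
      constructor
      · intro h2
        have h3 : h⁻¹ ((u : Equiv.Perm GolayPt) w) = (u : Equiv.Perm GolayPt) w := by
          rw [Equiv.Perm.inv_eq_iff_eq, h2]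
        rw [h3] at h1
        exact ((u : Equiv.Perm GolayPt).injective h1).symm
      · intro h2
        rw [h2] at h1
        rw [Equiv.Perm.inv_eq_iff_eq] at h1
        exact h1.symm
    obtain ⟨e, he1, he2, he3⟩ := norm_bound (p := 7) (by norm_num) hh hho hsq hC hI
    obtain ⟨n', hn'1, hn'2⟩ := sylow_count hh hho hsq
    rw [he3, hT36] at hn'1
    have he6 : e ∣ 6 := he1
    have hel : e ≤ 6 := Nat.le_of_dvd (by norm_num) he6
    have hodd : e % 2 = 1 := Nat.odd_iff.1 he2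
    have hm' : n' % 7 = 1 := hn'2
    interval_cases e <;> omega
  · rw [hTw]

/-- The stabiliser of the squares. -/
theorem stab_case (hT : ∀ σ ∈ T, InM22 σ) (hS : ∀ x ∈ T, x • Sf = Sf) : Nat.card T ∣ 660 := by
  set L : Subgroup ↥M24 := MulAction.stabilizer M24 Df ⊓ MulAction.stabilizer M24 (some 0 : GolayPt) ⊓
      MulAction.stabilizer M24 (none : GolayPt) with hL
  have hc : Nat.card L = 660 := card_flag2 Df_mem zero_mem_Df none_notMem_Df
  have hle : T ≤ L.map M24.subtype := by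
    intro x hx
    have hx22 := hT x hx
    refine ⟨⟨x, hx22.1⟩, ⟨⟨?_, hx22.2.2⟩, hx22.2.1⟩, rfl⟩
    have h1 : x • Df = Df := by
      rw [smul_Df hx22, hS x hx, Df_eq]
    exact h1
  rw [← hc, ← Subgroup.card_map_of_injective (K := L) M24.subtype_injective]
  exact Subgroup.card_dvd_of_le hle

/-- The main theorem when `T` contains `g0`. -/
theorem core0 (hT : ∀ σ ∈ T, InM22 σ) (hg : g0 ∈ T) :
    Nat.card T = 11 ∨ Nat.card T ∣ 660 ∨ Nat.card T = 443520 := by
  classical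
  have hdvd : Nat.card T ∣ 443520 := by
    rw [← card_G2]
    exact Subgroup.card_dvd_of_le (fun σ hσ => mem_G2.2 (hT σ hσ))
  set a : ↥T := ⟨g0, hg⟩ with ha
  have hao : orderOf a = 11 := by
    rw [ha, Subgroup.orderOf_mk, orderOf_g0]
  have hsq : ¬ 11 ^ 2 ∣ Nat.card T := by
    intro h
    have h1 := h.trans hdvd
    norm_num at h1
  have hFg : (Fx g0).card = 2 := by rw [Fx_g0]; rfl
  have hstable : ∀ v : Equiv.Perm GolayPt, InM22 v → Fx g0 ⊆ Fx v := by
    intro v hv w hw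
    rw [Fx_g0] at hw
    simp only [Finset.mem_insert, Finset.mem_singleton] at hw
    rw [mem_Fx]
    rcases hw with rfl | rfl
    · exact hv.2.1
    · exact hv.2.2
  have hC : ∀ v : ↥T, Commute v a → ∀ r : ℕ, r.Prime → orderOf v = r → r = 11 := by
    intro v hv r hr ho
    by_contra hrp
    have hcomm : Commute (v : Equiv.Perm GolayPt) g0 := by
      have := congrArg Subtype.val hv.eq
      exact this
    exact comm_prime (a := g0) (v := v) (p := 11) (f := 2) (hT v v.2).1 g0_pow11 hFg (hstable _ (hT v v.2))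
      hcomm hr (by rw [Subgroup.orderOf_coe, ho]) hrp (Or.inl ⟨rfl, rfl⟩)
  have hI : ∀ u : ↥T, orderOf u = 2 → u * a * u⁻¹ ≠ a⁻¹ := by
    intro u hu hinv
    have hinv' : (u : Equiv.Perm GolayPt) * g0 * (u : Equiv.Perm GolayPt)⁻¹ = g0⁻¹ := congrArg Subtype.val hinv
    exact inv_bound (a := g0) (u := u) (p := 11) (f := 2) (hT u u.2).1 (by rw [Subgroup.orderOf_coe, hu])
      g0_pow11 hFg (hstable _ (hT u u.2)) hinv' (Or.inl ⟨rfl, rfl⟩)
  obtain ⟨e, he1, he2, he3⟩ := norm_bound (p := 11) (by norm_num) a hao hsq hC hI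
  obtain ⟨n, hn1, hn2⟩ := sylow_count a hao hsq
  have he10 : e ∣ 10 := he1
  have hel : e ≤ 10 := Nat.le_of_dvd (by norm_num) he10
  have hodd : e % 2 = 1 := Nat.odd_iff.1 he2
  have hcase : e = 1 ∨ e = 5 := by
    interval_cases e <;> first | omega | (exfalso; revert he10; norm_num)
  rcases hcase with rfl | rfl
  · left
    have hCa := centralizer_eq_zpowers a hao hsq hC
    have hN : normalizer ((zpowers a : Subgroup ↥T) : Set ↥T) = zpowers a := by
      symm
      apply Subgroup.eq_of_le_of_card_ge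
      · exact Subgroup.le_normalizer
      · rw [he3, Nat.card_zpowers, hao]
    refine card_eq_of_self_norm a hao hsq hCa (by rw [hN, hCa]) ?_
    intro r hr hr11 k hk hd
    exact prime_power_ok hr hr11 hk (hd.trans hdvd)
  · right
    have h5 : 5 ∣ Nat.card (normalizer ((zpowers a : Subgroup ↥T) : Set ↥T)) := by
      rw [he3]
      exact Nat.dvd_mul_left _ _
    obtain ⟨c, hc⟩ := exists_prime_orderOf_dvd_card' 5 h5
    by_cases hall : ∀ x ∈ T, x • Sf = Sf
    · exact Or.inl (stab_case hT hall)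
    · right
      push Not at hall
      obtain ⟨x, hxT, hx⟩ := hall
      have hc1 : orderOf (((c : ↥T) : Equiv.Perm GolayPt)) = 5 := by
        rw [Subgroup.orderOf_coe, Subgroup.orderOf_coe, hc]
      have hc2 : ((c : ↥T) : Equiv.Perm GolayPt) * g0 * ((c : ↥T) : Equiv.Perm GolayPt)⁻¹ ∈ zpowers g0 := by
        have h1 := (mem_normalizer_iff.1 c.2 a).1 (mem_zpowers a)
        obtain ⟨i, hi⟩ := mem_zpowers_iff.1 h1
        have h2 : g0 ^ i = ((c : ↥T) : Equiv.Perm GolayPt) * g0 * ((c : ↥T) : Equiv.Perm GolayPt)⁻¹ := by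
          have := congrArg Subtype.val hi
          simpa using this
        rw [← h2]
        exact zpow_mem_zpowers g0 i
      refine big_case hT hg (c := ((c : ↥T) : Equiv.Perm GolayPt)) (c : ↥T).2 hc1 hc2 hxT hx ⟨n, ?_, hn2⟩ hdvd
      rw [hn1, he3]

/-- **Subgroups of order divisible by 11** of the two-point stabiliser. -/
theorem core (hT : ∀ σ ∈ T, InM22 σ) (h11 : 11 ∣ Nat.card T) :
    Nat.card T = 11 ∨ Nat.card T ∣ 660 ∨ Nat.card T = 443520 := by
  classical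
  obtain ⟨t, ht⟩ := exists_prime_orderOf_dvd_card' 11 h11
  have htG : (t : Equiv.Perm GolayPt) ∈ G2 := mem_G2.2 (hT t t.2)
  have hgG : g0 ∈ G2 := mem_G2.2 InM22_g0
  have hf : (Nat.card G2).factorization 11 = 1 := by
    rw [card_G2]
    have h1 : (443520 : ℕ) = 11 ^ 1 * 40320 := by norm_num
    rw [h1, Nat.factorization_mul (by norm_num) (by norm_num), Nat.Prime.factorization_pow (by norm_num)]
    have h2 : Nat.factorization 40320 11 = 0 := Nat.factorization_eq_zero_of_not_dvd (by norm_num)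
    simp [h2]
  let a1 : ↥G2 := ⟨t, htG⟩
  let a2 : ↥G2 := ⟨g0, hgG⟩
  have ha1 : orderOf a1 = 11 := by
    show orderOf (⟨t, htG⟩ : ↥G2) = 11
    rw [Subgroup.orderOf_mk, Subgroup.orderOf_coe, ht]
  have ha2 : orderOf a2 = 11 := by
    show orderOf (⟨g0, hgG⟩ : ↥G2) = 11
    rw [Subgroup.orderOf_mk, orderOf_g0]
  let P1 : Sylow 11 ↥G2 := Sylow.ofCard (zpowers a1) (by rw [Nat.card_zpowers, ha1, hf, pow_one])
  let P2 : Sylow 11 ↥G2 := Sylow.ofCard (zpowers a2) (by rw [Nat.card_zpowers, ha2, hf, pow_one])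
  obtain ⟨x, hx⟩ := MulAction.exists_smul_eq ↥G2 P2 P1
  have hP1 : (P1 : Subgroup ↥G2) = MulAut.conj x • (P2 : Subgroup ↥G2) := by
    rw [← hx]
    rfl
  have hmem : MulAut.conj x • a2 ∈ (P1 : Subgroup ↥G2) := by
    rw [hP1]
    exact Subgroup.smul_mem_pointwise_smul _ _ _ (mem_zpowers a2)
  obtain ⟨i, hi⟩ := mem_zpowers_iff.1 hmem
  set xp : Equiv.Perm GolayPt := (x : Equiv.Perm GolayPt) with hxp
  have hxG : xp ∈ G2 := x.2
  have hconj : xp * g0 * xp⁻¹ ∈ T := by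
    have h1 := congrArg Subtype.val hi
    have h2 : (t : Equiv.Perm GolayPt) ^ i = xp * g0 * xp⁻¹ := by
      simpa using h1
    rw [← h2]
    exact T.zpow_mem t.2 i
  let T' : Subgroup (Equiv.Perm GolayPt) := T.map (MulAut.conj xp⁻¹).toMonoidHom
  have hcard : Nat.card T' = Nat.card T :=
    Subgroup.card_map_of_injective (K := T) (MulAut.conj xp⁻¹).injective
  have hT' : ∀ σ ∈ T', InM22 σ := by
    rintro σ ⟨τ, hτ, rfl⟩
    rw [← mem_G2]
    show xp⁻¹ * τ * xp⁻¹⁻¹ ∈ G2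
    exact G2.mul_mem (G2.mul_mem (G2.inv_mem hxG) (mem_G2.2 (hT τ hτ))) (G2.inv_mem (G2.inv_mem hxG))
  have hg' : g0 ∈ T' := by
    refine ⟨xp * g0 * xp⁻¹, hconj, ?_⟩
    show xp⁻¹ * (xp * g0 * xp⁻¹) * xp⁻¹⁻¹ = g0
    group
  have := core0 hT' hg'
  rwa [hcard] at this

end T


end Cfsg.Agent.Lib.GS1.M22
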