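import Mathlib
import Cfsg.Agent.Lib.GS1.M22Core

/-!
# The affine group `23:11` in the stabiliser of a point of `M24`
-/

set_option autoImplicit false

namespace Cfsg.Agent.Lib.GS1.M22

open Cfsg Cfsg.Agent.Lib.Compute Cfsg.Agent.Lib.Golay Cfsg.Agent.Lib.M24 Subgroup
open scoped Pointwise

/-- Translations. -/
abbrev tr' (b : ZMod 23) : Equiv.Perm GolayPt := Equiv.optionCongr (Equiv.addRight b)

theorem tr'_none (b : ZMod 23) : tr' b none = none := rfl
theorem tr'_some (b x : ZMod 23) : tr' b (some x) = some (x + b) := rfl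

theorem tr'_add (b c : ZMod 23) : tr' b * tr' c = tr' (b + c) := by
  ext1 a
  cases a with
  | none => rfl
  | some x =>
    show some (x + c + b) = some (x + (b + c))
    congr 1
    ring

theorem tr'_zero : tr' 0 = 1 := by
  ext1 a
  cases a with
  | none => rfl
  | some x =>
    show some (x + 0) = some x
    rw [add_zero]

theorem tr'_pow (b : ZMod 23) (n : ℕ) : tr' b ^ n = tr' (n * b) := by
  induction n with
  | zero => simp [tr'_zero]
  | succ n ih =>
    rw [pow_succ, ih, tr'_add]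
    congr 1
    push_cast
    ring

theorem tr'_inv (b : ZMod 23) : (tr' b)⁻¹ = tr' (-b) := by
  rw [inv_eq_iff_mul_eq_one, tr'_add, add_neg_cancel, tr'_zero]

/-- The translation by one. -/
abbrev tau : Equiv.Perm GolayPt := tr' 1

theorem tau_pow23 : tau ^ 23 = 1 := by
  rw [tr'_pow]
  have : ((23 : ℕ) : ZMod 23) * 1 = 0 := by decide
  rw [this, tr'_zero]

instance fact23 : Fact (Nat.Prime 23) := ⟨by norm_num⟩

theorem tau_ne_one : tau ≠ 1 := by
  intro h
  have h1 := congrArg (fun σ : Equiv.Perm GolayPt => σ (some 0)) h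
  simp only [tr'_some, Equiv.Perm.one_apply] at h1
  revert h1
  decide

theorem orderOf_tau : orderOf tau = 23 := orderOf_eq_prime tau_pow23 tau_ne_one

/-- The code of a permutation. -/
def codeOf (σ : Equiv.Perm GolayPt) : ℕ → ℕ := fun i => idx (σ (pt i))

theorem codeOf_isCode (σ : Equiv.Perm GolayPt) : enc.IsCode σ (codeOf σ) := by
  intro a
  show idx (σ (pt (idx a))) = idx (σ a)
  rw [pt_idx]

theorem tau_mem : tau ∈ M24 := mem_M24_of_check (codeOf_isCode _) (by decide +kernel)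
theorem projInv_mem : projInv ∈ M24 := mem_M24_of_check (codeOf_isCode _) (by decide +kernel)

theorem g0_comm (k : ℕ) (b : ZMod 23) : g0 ^ k * tr' b = tr' (2 ^ k * b) * g0 ^ k := by
  ext1 a
  cases a with
  | none =>
    simp only [Equiv.Perm.mul_apply, tr'_none, g0_pow_none]
  | some x =>
    simp only [Equiv.Perm.mul_apply, tr'_some, g0_pow_some]
    congr 1
    ring

/-- The group of the maps `t ↦ u t + b`, `u` a square. -/
def AffS : Subgroup (Equiv.Perm GolayPt) where
  carrier := {σ | ∃ (b : ZMod 23) (k : ℕ), σ = tr' b * g0 ^ k}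
  mul_mem' := by
    rintro _ _ ⟨b, k, rfl⟩ ⟨b', k', rfl⟩
    refine ⟨b + 2 ^ k * b', k + k', ?_⟩
    rw [pow_add, ← tr'_add, mul_assoc, ← mul_assoc (g0 ^ k), g0_comm]
    simp only [mul_assoc]
  one_mem' := ⟨0, 0, by rw [tr'_zero, pow_zero, one_mul]⟩
  inv_mem' := by
    rintro _ ⟨b, k, rfl⟩
    refine ⟨2 ^ (10 * k) * (-b), 10 * k, ?_⟩
    have h1 : (g0 ^ k)⁻¹ = g0 ^ (10 * k) := by
      rw [inv_eq_iff_mul_eq_one, ← pow_add]
      have : k + 10 * k = 11 * k := by ring
      rw [this, pow_mul, g0_pow11, one_pow]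
    rw [mul_inv_rev, h1, tr'_inv, g0_comm]

theorem mem_AffS {σ : Equiv.Perm GolayPt} : σ ∈ AffS ↔ ∃ (b : ZMod 23) (k : ℕ), σ = tr' b * g0 ^ k := Iff.rfl

theorem card_AffS_le : Nat.card AffS ≤ 253 := by
  classical
  have hsub : (AffS : Set (Equiv.Perm GolayPt)) ⊆
      ((fun x : ZMod 23 × ℕ => tr' x.1 * g0 ^ x.2) '' ((Finset.univ ×ˢ Finset.range 11 : Finset (ZMod 23 × ℕ)) : Set (ZMod 23 × ℕ))) := by
    rintro _ ⟨b, k, rfl⟩
    refine ⟨(b, k % 11), ?_, ?_⟩
    · simp only [Finset.coe_product, Set.mem_prod, Finset.mem_coe, Finset.mem_univ, true_and, Finset.mem_range]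
      exact Nat.mod_lt _ (by norm_num)
    · simp only
      rw [← pow_eq_pow_mod k g0_pow11]
  have h0 : Nat.card AffS = (AffS : Set (Equiv.Perm GolayPt)).ncard := Nat.card_coe_set_eq _
  rw [h0]
  refine (Set.ncard_le_ncard hsub (Set.toFinite _)).trans ?_
  refine (Set.ncard_image_le (Finset.finite_toSet _)).trans ?_
  rw [Set.ncard_coe_finset, Finset.card_product, Finset.card_range]
  decide

/-- Multiplications by squares are powers of `g0`. -/
theorem sq_eq_pow {u : (ZMod 23)ˣ} (h : IsSquare u) : ∃ k : ℕ, Equiv.optionCongr (Units.mulLeft u) = g0 ^ k := by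
  obtain ⟨r, hr⟩ := h
  have key : ∀ x : ZMod 23, x ≠ 0 → ∃ k ∈ Finset.range 11, x * x = 2 ^ k := by decide
  obtain ⟨k, -, hk⟩ := key (r : ZMod 23) r.ne_zero
  refine ⟨k, ?_⟩
  ext1 a
  cases a with
  | none => rw [g0_pow_none]; rfl
  | some x =>
    rw [g0_pow_some]
    show some ((u : ZMod 23) * x) = some (2 ^ k * x)
    rw [hr, Units.val_mul, hk]

theorem isSquare_u2 : IsSquare u2 := by
  refine ⟨⟨5, 14, by decide, by decide⟩, ?_⟩
  apply Units.ext
  decide

/-- The multiplications by squares. -/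
abbrev SqS : Set (Equiv.Perm GolayPt) :=
  {g : Equiv.Perm GolayPt | ∃ u : (ZMod 23)ˣ, IsSquare u ∧ g = Equiv.optionCongr (Units.mulLeft u)}

/-- The affine group as generated in the statement. -/
noncomputable abbrev BgS : Subgroup (Equiv.Perm GolayPt) :=
  closure ({Equiv.optionCongr (Equiv.addRight (1 : ZMod 23))} ∪ SqS)

/-- The projective group as generated in the statement. -/
noncomputable abbrev LgS : Subgroup (Equiv.Perm GolayPt) :=
  closure ({Equiv.optionCongr (Equiv.addRight (1 : ZMod 23)), projInv} ∪ SqS)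

theorem tau_mem_BgS : tau ∈ BgS := subset_closure (Or.inl rfl)
theorem g0_mem_BgS : g0 ∈ BgS := subset_closure (Or.inr ⟨u2, isSquare_u2, rfl⟩)

theorem SqS_mem_M24 {g : Equiv.Perm GolayPt} (hg : g ∈ SqS) : g ∈ M24 := by
  obtain ⟨u, hu, rfl⟩ := hg
  obtain ⟨k, hk⟩ := sq_eq_pow hu
  rw [hk]
  exact M24.pow_mem g0_mem k

theorem BgS_le_AffS : BgS ≤ AffS := by
  rw [closure_le]
  rintro g (hg | hg)
  · rw [Set.mem_singleton_iff] at hg
    subst hg
    exact ⟨1, 0, by rw [pow_zero, mul_one]⟩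
  · obtain ⟨u, hu, rfl⟩ := hg
    obtain ⟨k, hk⟩ := sq_eq_pow hu
    exact ⟨0, k, by rw [hk, tr'_zero, one_mul]⟩

theorem BgS_le_M24 : BgS ≤ M24 := by
  rw [closure_le]
  rintro g (hg | hg)
  · rw [Set.mem_singleton_iff] at hg
    subst hg
    exact tau_mem
  · exact SqS_mem_M24 hg

theorem AffS_none {σ : Equiv.Perm GolayPt} (h : σ ∈ AffS) : σ none = none := by
  obtain ⟨b, k, rfl⟩ := h
  rw [Equiv.Perm.mul_apply, g0_pow_none, tr'_none]

theorem card_BgS : Nat.card BgS = 253 := by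
  apply le_antisymm
  · exact (Nat.card_le_card_of_injective _ (Subgroup.inclusion_injective BgS_le_AffS)).trans card_AffS_le
  · apply Nat.le_of_dvd Nat.card_pos
    have h1 : 23 ∣ Nat.card BgS := by
      rw [← orderOf_tau]
      exact Subgroup.orderOf_dvd_natCard _ tau_mem_BgS
    have h2 : 11 ∣ Nat.card BgS := by
      rw [← orderOf_g0]
      exact Subgroup.orderOf_dvd_natCard _ g0_mem_BgS
    exact Nat.Coprime.mul_dvd_of_dvd_of_dvd (by norm_num : Nat.Coprime 23 11) h1 h2

end Cfsg.Agent.Lib.GS1.M22
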