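import Mathlib
import Cfsg.Agent.Lib.GS1.M22Aff

/-!
# Maximality of `23:11` in the point stabiliser and of `PSL(2,23)` in `M24`
-/

set_option autoImplicit false

namespace Cfsg.Agent.Lib.GS1.M22

open Cfsg Cfsg.Agent.Lib.Compute Cfsg.Agent.Lib.Golay Cfsg.Agent.Lib.M24 Subgroup
open scoped Pointwise

/-- No involution inverts an element of prime order with few fixed points, if it fixes those. -/
theorem inv_bound' {a u : Equiv.Perm GolayPt} (hu : u ∈ M24) (ho : orderOf u = 2) {p f : ℕ} [hp : Fact p.Prime]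
    (hap : a ^ p = 1) (hF : (Fx a).card = f) (hsub : Fx a ⊆ Fx u) (hinv : u * a * u⁻¹ = a⁻¹)
    (hp2 : p ≠ 2) (hf0 : 0 < f) (harith : 24 - f < (8 - f) * p) : False := by
  classical
  have hle : f ≤ (Fx u).card := hF ▸ Finset.card_le_card hsub
  have hf8 : (Fx u).card = 8 := by
    rcases Fx_two hu ho with h | h
    · exact h
    · exfalso
      omega
  have hcard : (Fx u \ Fx a).card = 8 - f := by
    rw [Finset.card_sdiff_of_subset hsub, hF, hf8]
  have hcard2 : ((Finset.univ : Finset GolayPt) \ Fx a).card = 24 - f := by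
    rw [Finset.card_sdiff_of_subset (Finset.subset_univ _), hF]
    rfl
  have hpow : ∀ (k : ℕ) (z : GolayPt), z ∈ Fx u → u ((a ^ k) z) = (a⁻¹ ^ k) z := by
    intro k z hz
    have h1 : u * a ^ k * u⁻¹ = a⁻¹ ^ k := by rw [← conj_pow, hinv]
    have h2 := congrArg (fun σ : Equiv.Perm GolayPt => σ (u z)) h1
    have h3 : u⁻¹ (u z) = z := by simp
    simp only [Equiv.Perm.mul_apply, h3] at h2
    rw [h2, mem_Fx.1 hz]
  have key : ∀ z ∈ Fx u \ Fx a, ∀ z' ∈ Fx u \ Fx a, ∀ i j : ℕ, i ≤ j → j < p → (a ^ i) z = (a ^ j) z' → i = j ∧ z = z' := by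
    intro z hz z' hz' i j hij hj h
    obtain ⟨k, rfl⟩ := Nat.exists_eq_add_of_le hij
    rw [pow_add, Equiv.Perm.mul_apply] at h
    have h1 : z = (a ^ k) z' := (a ^ i).injective h
    have hzu := (Finset.mem_sdiff.1 hz).1
    have hzu' := (Finset.mem_sdiff.1 hz').1
    have h2 : z = (a⁻¹ ^ k) z' := by
      have h3 := congrArg u h1
      rw [mem_Fx.1 hzu, hpow k z' hzu'] at h3
      exact h3
    have h3 : (a ^ k) z = z' := by
      rw [h2, ← Equiv.Perm.mul_apply, inv_pow, mul_inv_cancel]
      rfl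
    have h4 : (a ^ (2 * k)) z' = z' := by
      rw [two_mul, pow_add, Equiv.Perm.mul_apply, ← h1, h3]
    by_cases hk : k = 0
    · subst hk
      refine ⟨rfl, ?_⟩
      rw [h1]
      rfl
    exfalso
    have hcop : Nat.Coprime (2 * k) p := by
      apply Nat.Coprime.mul_left
      · exact (Nat.coprime_primes Nat.prime_two hp.out).2 hp2.symm
      · rw [Nat.coprime_comm]
        exact (Nat.Prime.coprime_iff_not_dvd hp.out).2 (fun hd =>
          absurd (Nat.le_of_dvd (Nat.pos_of_ne_zero hk) hd) (by omega))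
    obtain ⟨m, -, hm⟩ := Nat.exists_mul_mod_eq_one_of_coprime hcop hp.out.one_lt
    have h5 : a = a ^ (2 * k * m) := by
      rw [pow_eq_pow_mod _ hap, hm, pow_one]
    have h6 : a z' = z' := by
      rw [h5, pow_mul]
      exact mem_Fx.1 (Fx_pow_subset (a ^ (2 * k)) m (mem_Fx.2 h4))
    exact (Finset.mem_sdiff.1 hz').2 (mem_Fx.2 h6)
  have hle2 : ((Fx u \ Fx a) ×ˢ Finset.range p).card ≤ ((Finset.univ : Finset GolayPt) \ Fx a).card := by
    apply Finset.card_le_card_of_injOn (fun x => (a ^ x.2) x.1)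
    · intro x hx
      rw [Finset.mem_coe, Finset.mem_sdiff, mem_Fx]
      refine ⟨Finset.mem_univ _, fun h => ?_⟩
      have hx' := (Finset.mem_product.1 hx).1
      apply (Finset.mem_sdiff.1 hx').2
      rw [mem_Fx]
      have h2 : (a ^ x.2) (a x.1) = (a ^ x.2) x.1 := by
        rw [← Equiv.Perm.mul_apply, ← pow_succ, pow_succ', Equiv.Perm.mul_apply]
        exact h
      exact (a ^ x.2).injective h2
    · rintro ⟨z, i⟩ hx ⟨z', j⟩ hy h
      simp only [Finset.coe_product, Set.mem_prod, Finset.mem_coe, Finset.mem_range] at hx hy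
      simp only at h
      rcases le_total i j with hij | hij
      · obtain ⟨h1, h2⟩ := key z hx.1 z' hy.1 i j hij hy.2 h
        rw [h1, h2]
      · obtain ⟨h1, h2⟩ := key z' hy.1 z hx.1 j i hij hx.2 h.symm
        rw [h1, h2]
  rw [Finset.card_product, Finset.card_range, hcard, hcard2] at hle2
  omega

theorem tau_pow_some (n : ℕ) (x : ZMod 23) : (tau ^ n) (some x) = some (x + n) := by
  rw [tr'_pow]
  show some (x + ((n : ZMod 23) * 1)) = some (x + n)
  rw [mul_one]

theorem Fx_tau : Fx tau = {none} := by decide +kernel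

theorem g0_tau : g0 * tau * g0⁻¹ = tau ^ 2 := by
  have h := g0_comm 1 1
  rw [pow_one] at h
  rw [h, tr'_pow]
  simp only [mul_inv_cancel_right]
  congr 1

theorem g0_inv_tau : g0⁻¹ * tau * g0 = tau ^ 12 := by
  have h := g0_comm 1 12
  rw [pow_one] at h
  rw [tr'_pow]
  have h2 : (2 : ZMod 23) ^ 1 * 12 = 1 := by decide
  rw [h2] at h
  have h3 : ((12 : ℕ) : ZMod 23) * 1 = 12 := by decide
  rw [h3]
  calc g0⁻¹ * tau * g0 = g0⁻¹ * (tau * g0) := by group
    _ = g0⁻¹ * (g0 * tr' 12) := by rw [h]
    _ = tr' 12 := by group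

/-- **Subgroups of the point stabiliser containing the affine group.** -/
theorem main_K {K : Subgroup (Equiv.Perm GolayPt)} (hK : K ≤ M24) (hKn : ∀ σ ∈ K, σ none = none)
    (hτ : tau ∈ K) (hg : g0 ∈ K) : Nat.card K = 253 ∨ Nat.card K = 10200960 := by
  classical
  set T : Subgroup (Equiv.Perm GolayPt) := K ⊓ MulAction.stabilizer _ (some 0 : GolayPt) with hTdef
  have hT : ∀ σ ∈ T, InM22 σ := fun σ hσ => ⟨hK hσ.1, hKn σ hσ.1, hσ.2⟩
  have hgT : g0 ∈ T := ⟨hg, InM22_g0.2.2⟩
  have horb : MulAction.orbit ↥K (some 0 : GolayPt) = ((Finset.univ.erase none : Finset GolayPt) : Set GolayPt) := by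
    ext w
    constructor
    · rintro ⟨σ, rfl⟩
      refine Finset.mem_coe.2 (Finset.mem_erase.2 ⟨?_, Finset.mem_univ _⟩)
      intro h1
      have h2 : (σ : Equiv.Perm GolayPt) (some 0) = (σ : Equiv.Perm GolayPt) none := by
        rw [hKn _ σ.2]
        exact h1
      exact absurd ((σ : Equiv.Perm GolayPt).injective h2) (by decide)
    · intro hw
      have hw' := Finset.mem_erase.1 (Finset.mem_coe.1 hw)
      cases w with
      | none => exact absurd rfl hw'.1
      | some x =>
        refine ⟨⟨tau ^ (ZMod.val x), K.pow_mem hτ _⟩, ?_⟩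
        show (tau ^ (ZMod.val x)) (some 0) = some x
        rw [tau_pow_some, zero_add]
        congr 1
        exact ZMod.natCast_zmod_val x
  have hcard : Nat.card T * 23 = Nat.card K := by
    have h1 := card_inf_stab_sub K (some 0 : GolayPt)
    rw [horb, Set.ncard_coe_finset, Finset.card_erase_of_mem (Finset.mem_univ _)] at h1
    exact h1
  have h11 : 11 ∣ Nat.card T := by
    rw [← orderOf_g0]
    exact Subgroup.orderOf_dvd_natCard T hgT
  rcases core hT h11 with h | h | h
  · left
    omega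
  swap
  · right
    omega
  left
  -- the Sylow count for 23
  set a : ↥K := ⟨tau, hτ⟩ with ha
  have hao : orderOf a = 23 := by
    rw [ha, Subgroup.orderOf_mk, orderOf_tau]
  have hsq : ¬ 23 ^ 2 ∣ Nat.card K := by
    intro h1
    rw [← hcard] at h1
    have h2 : 23 ∣ Nat.card T := by
      have h3 : 23 * 23 ∣ Nat.card T * 23 := by simpa [pow_two] using h1
      exact Nat.dvd_of_mul_dvd_mul_right (by norm_num) h3
    have h3 := h2.trans h
    norm_num at h3
  have hC : ∀ v : ↥K, Commute v a → ∀ r : ℕ, r.Prime → orderOf v = r → r = 23 := by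
    intro v hv r hr ho
    have hcomm : Commute (v : Equiv.Perm GolayPt) tau := by
      have := congrArg Subtype.val hv.eq
      exact this
    have hv1 : (v : Equiv.Perm GolayPt) (some 0) ≠ none := by
      intro h1
      have h2 : (v : Equiv.Perm GolayPt) (some 0) = (v : Equiv.Perm GolayPt) none := by
        rw [hKn _ v.2]
        exact h1
      exact absurd ((v : Equiv.Perm GolayPt).injective h2) (by decide)
    obtain ⟨c, hc⟩ := Option.ne_none_iff_exists'.1 hv1
    have hv2 : (v : Equiv.Perm GolayPt) = tr' c := by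
      ext1 b
      cases b with
      | none => rw [hKn _ v.2]; rfl
      | some x =>
        have h1 : (some x : GolayPt) = (tau ^ (ZMod.val x)) (some 0) := by
          rw [tau_pow_some, zero_add]
          congr 1
          exact (ZMod.natCast_zmod_val x).symm
        have h2 := congrArg (fun σ : Equiv.Perm GolayPt => σ (some 0)) (hcomm.pow_right (ZMod.val x)).eq
        simp only [Equiv.Perm.mul_apply] at h2
        have h4 : (tau ^ (ZMod.val x)) (some c) = some (c + x) := by
          rw [tau_pow_some, ZMod.natCast_zmod_val]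
        show (v : Equiv.Perm GolayPt) (some x) = some (x + c)
        calc (v : Equiv.Perm GolayPt) (some x) = (v : Equiv.Perm GolayPt) ((tau ^ (ZMod.val x)) (some 0)) := by rw [← h1]
          _ = (tau ^ (ZMod.val x)) ((v : Equiv.Perm GolayPt) (some 0)) := h2
          _ = some (c + x) := by rw [hc, h4]
          _ = some (x + c) := by rw [add_comm]
    have hpow : (v : Equiv.Perm GolayPt) ^ 23 = 1 := by
      rw [hv2, tr'_pow]
      have : ((23 : ℕ) : ZMod 23) * c = 0 := by
        have h0 : ((23 : ℕ) : ZMod 23) = 0 := by decide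
        rw [h0, zero_mul]
      rw [this, tr'_zero]
    have hd : r ∣ 23 := by
      rw [← ho, ← Subgroup.orderOf_coe]
      exact orderOf_dvd_of_pow_eq_one hpow
    exact (Nat.prime_dvd_prime_iff_eq hr (by norm_num)).1 hd
  have hI : ∀ u : ↥K, orderOf u = 2 → u * a * u⁻¹ ≠ a⁻¹ := by
    intro u hu hinv
    have hinv' : (u : Equiv.Perm GolayPt) * tau * (u : Equiv.Perm GolayPt)⁻¹ = tau⁻¹ := congrArg Subtype.val hinv
    refine inv_bound' (a := tau) (u := u) (p := 23) (f := 1) (hK u.2) (by rw [Subgroup.orderOf_coe, hu])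
      tau_pow23 (by rw [Fx_tau]; rfl) ?_ hinv' (by norm_num) (by norm_num) (by norm_num)
    rw [Fx_tau]
    intro z hz
    rw [Finset.mem_singleton] at hz
    rw [hz, mem_Fx]
    exact hKn _ u.2
  obtain ⟨e, he1, he2, he3⟩ := norm_bound (p := 23) (by norm_num) a hao hsq hC hI
  obtain ⟨n, hn1, hn2⟩ := sylow_count a hao hsq
  set b : ↥K := ⟨g0, hg⟩ with hb
  have hb1 : b * a * b⁻¹ = a ^ 2 := Subtype.ext g0_tau
  have hb2 : b⁻¹ * a * b = a ^ 12 := Subtype.ext g0_inv_tau
  have hbN : b ∈ normalizer ((zpowers a : Subgroup ↥K) : Set ↥K) := by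
    rw [mem_normalizer_iff]
    intro x
    constructor
    · intro hx
      obtain ⟨i, rfl⟩ := mem_zpowers_iff.1 hx
      rw [← conj_zpow, hb1]
      exact zpow_mem (pow_mem (mem_zpowers a) 2) i
    · intro hx
      obtain ⟨j, hj⟩ := mem_zpowers_iff.1 hx
      have h1 : x = b⁻¹ * a ^ j * b := by
        rw [hj]
        group
      have h2 : b⁻¹ * a ^ j * b = (b⁻¹ * a * b) ^ j := by
        have := conj_zpow (a := b⁻¹) (b := a) (i := j)
        simpa using this.symm
      rw [h1, h2, hb2]
      exact zpow_mem (pow_mem (mem_zpowers a) 12) j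
  have hbo : orderOf b = 11 := by
    rw [hb, Subgroup.orderOf_mk, orderOf_g0]
  have h11N : 11 ∣ Nat.card (normalizer ((zpowers a : Subgroup ↥K) : Set ↥K)) := by
    rw [← hbo]
    exact Subgroup.orderOf_dvd_natCard _ hbN
  rw [he3] at h11N hn1
  have h11e : 11 ∣ e := (Nat.Coprime.dvd_of_dvd_mul_left (by norm_num : Nat.Coprime 11 23) h11N)
  have he22 : e ∣ 22 := he1
  have hel : e ≤ 22 := Nat.le_of_dvd (by norm_num) he22
  have hodd : e % 2 = 1 := Nat.odd_iff.1 he2
  have he11 : e = 11 := by omega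
  subst he11
  have hTn : Nat.card T = 11 * n := by
    have : Nat.card T * 23 = 23 * 11 * n := by rw [hcard, hn1]
    have h3 : Nat.card T * 23 = 11 * n * 23 := by rw [this]; ring
    exact Nat.eq_of_mul_eq_mul_right (by norm_num) h3
  have hn60 : n ∣ 60 := by
    rw [hTn] at h
    exact Nat.dvd_of_mul_dvd_mul_left (by norm_num : 0 < 11) (by simpa using h)
  have hn1' : ∀ n ≤ 60, n ∣ 60 → n % 23 = 1 → n = 1 := by decide +kernel
  have hn3 := hn1' n (Nat.le_of_dvd (by norm_num) hn60) hn60 hn2
  rw [hn1, hn3]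

/-! ### The projective group -/

/-- The action of `GL(2, 23)` on the projective line. -/
noncomputable def rho : GL (Fin 2) (ZMod 23) →* Equiv.Perm GolayPt :=
  MulAction.toPermHom (GL (Fin 2) (ZMod 23)) (OnePoint (ZMod 23))

theorem rho_none (g : GL (Fin 2) (ZMod 23)) :
    rho g none = if g 1 0 = 0 then none else some (g 0 0 / g 1 0) :=
  OnePoint.smul_infty_eq_ite g

theorem rho_some (g : GL (Fin 2) (ZMod 23)) (x : ZMod 23) :
    rho g (some x) = if g 1 0 * x + g 1 1 = 0 then none else some ((g 0 0 * x + g 0 1) / (g 1 0 * x + g 1 1)) :=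
  OnePoint.smul_some_eq_ite

/-- A matrix as a group element. -/
noncomputable def mkM (a b c d : ZMod 23) (h : a * d - b * c ≠ 0) : GL (Fin 2) (ZMod 23) :=
  Matrix.GeneralLinearGroup.mkOfDetNeZero !![a, b; c, d] (by rwa [Matrix.det_fin_two_of])

theorem rho_mk_none (a b c d : ZMod 23) (h : a * d - b * c ≠ 0) :
    rho (mkM a b c d h) none = if c = 0 then none else some (a / c) :=
  rho_none _

theorem rho_mk_some (a b c d : ZMod 23) (h : a * d - b * c ≠ 0) (x : ZMod 23) :
    rho (mkM a b c d h) (some x) = if c * x + d = 0 then none else some ((a * x + b) / (c * x + d)) :=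
  rho_some _ _

theorem tau_rho : tau = rho (mkM 1 1 0 1 (by decide)) := by
  ext1 p
  cases p with
  | none => rw [rho_mk_none]; rfl
  | some x =>
    rw [rho_mk_some]
    revert x
    decide +kernel

theorem g0_rho : g0 = rho (mkM 2 0 0 1 (by decide)) := by
  ext1 p
  cases p with
  | none => rw [rho_mk_none]; rfl
  | some x =>
    rw [rho_mk_some]
    revert x
    decide +kernel

theorem projInv_rho : projInv = rho (mkM 0 22 1 0 (by decide)) := by
  ext1 p
  cases p with
  | none =>
    rw [rho_mk_none]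
    decide +kernel
  | some x =>
    rw [rho_mk_some]
    revert x
    decide +kernel

theorem card_range_rho_le : Nat.card rho.range ≤ 267168 := by
  have h1 : Nat.card rho.range ≤ Nat.card (GL (Fin 2) (ZMod 23)) :=
    Nat.card_le_card_of_surjective _ rho.rangeRestrict_surjective
  refine h1.trans (le_of_eq ?_)
  rw [Matrix.card_GL_field, ZMod.card, Fin.prod_univ_two]
  norm_num

theorem LgS_le_range : LgS ≤ rho.range := by
  rw [closure_le]
  rintro g (hg | hg)
  · rcases hg with hg | hg
    · rw [hg]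
      exact ⟨_, tau_rho.symm⟩
    · rw [Set.mem_singleton_iff] at hg
      rw [hg]
      exact ⟨_, projInv_rho.symm⟩
  · obtain ⟨u, hu, rfl⟩ := hg
    obtain ⟨k, hk⟩ := sq_eq_pow hu
    rw [hk]
    exact rho.range.pow_mem ⟨_, g0_rho.symm⟩ k

theorem LgS_le_M24 : LgS ≤ M24 := by
  rw [closure_le]
  rintro g (hg | hg)
  · rcases hg with hg | hg
    · rw [hg]
      exact tau_mem
    · rw [Set.mem_singleton_iff] at hg
      rw [hg]
      exact projInv_mem
  · exact SqS_mem_M24 hg

theorem tau_mem_LgS : tau ∈ LgS := subset_closure (Or.inl (Or.inl rfl))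
theorem projInv_mem_LgS : projInv ∈ LgS := subset_closure (Or.inl (Or.inr rfl))
theorem g0_mem_LgS : g0 ∈ LgS := subset_closure (Or.inr ⟨u2, isSquare_u2, rfl⟩)

theorem BgS_le_LgS : BgS ≤ LgS := by
  rw [closure_le]
  rintro g (hg | hg)
  · rw [Set.mem_singleton_iff] at hg
    subst hg
    exact tau_mem_LgS
  · exact subset_closure (Or.inr hg)

/-- Overgroups of `PSL(2,23)` are transitive. -/
theorem card_of_le_Lg {K : Subgroup (Equiv.Perm GolayPt)} (hL : LgS ≤ K) :
    Nat.card ↥(K ⊓ MulAction.stabilizer _ (none : GolayPt)) * 24 = Nat.card K := by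
  classical
  have h1 := card_inf_stab_sub K (none : GolayPt)
  have horb : MulAction.orbit ↥K (none : GolayPt) = ((Finset.univ : Finset GolayPt) : Set GolayPt) := by
    ext w
    simp only [Finset.coe_univ, Set.mem_univ, iff_true]
    cases w with
    | none => exact MulAction.mem_orbit_self _
    | some x =>
      refine ⟨⟨tau ^ (ZMod.val x) * projInv, K.mul_mem (K.pow_mem (hL tau_mem_LgS) _) (hL projInv_mem_LgS)⟩, ?_⟩
      show (tau ^ (ZMod.val x)) (projInv none) = some x
      have h0 : projInv none = some 0 := rfl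
      rw [h0, tau_pow_some, zero_add]
      congr 1
      exact ZMod.natCast_zmod_val x
  rw [horb, Set.ncard_coe_finset] at h1
  exact h1

/-- Overgroups of `PSL(2,23)` in `M24`. -/
theorem over_Lg {K : Subgroup (Equiv.Perm GolayPt)} (hK : K ≤ M24) (hL : LgS ≤ K) :
    Nat.card K = 6072 ∨ Nat.card K = 244823040 := by
  have h1 := card_of_le_Lg hL
  have h2 := main_K (K := K ⊓ MulAction.stabilizer _ (none : GolayPt)) (fun σ hσ => hK hσ.1) (fun σ hσ => hσ.2)
    ⟨hL tau_mem_LgS, rfl⟩ ⟨hL g0_mem_LgS, rfl⟩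
  rcases h2 with h2 | h2
  · left
    omega
  · right
    omega

theorem card_LgS : Nat.card LgS = 6072 := by
  rcases over_Lg LgS_le_M24 le_rfl with h | h
  · exact h
  · exfalso
    have h1 := Nat.card_le_card_of_injective _ (Subgroup.inclusion_injective LgS_le_range)
    have h2 := card_range_rho_le
    omega

end Cfsg.Agent.Lib.GS1.M22
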