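import Mathlib
import Cfsg.Agent.Lib.GS1.M22Core
import Cfsg.Agent.Lib.M24.OctA8
import Cfsg.Agent.Lib.M24.Flags
import Cfsg.Agent.Lib.M24.OctOct
import Cfsg.Agent.Lib.M24.M21PSL

/-!
# Subgroups of small index of `M24`: orbit analysis through a 2-subgroup fixing an octad
-/

set_option autoImplicit false

namespace Cfsg.Agent.Lib.GS1.M24I

open Cfsg Cfsg.Agent.Lib.Compute Cfsg.Agent.Lib.Golay Cfsg.Agent.Lib.M24 Subgroup
open scoped Pointwise

/-- The group of all permutations of the points. -/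
abbrev PG := Equiv.Perm GolayPt

/-- Stabiliser of a point. -/
abbrev Stb (a : GolayPt) : Subgroup PG := MulAction.stabilizer PG a

/-- Setwise stabiliser. -/
abbrev StS (o : Finset GolayPt) : Subgroup PG := MulAction.stabilizer PG o

theorem mem_Stb {a : GolayPt} {g : PG} : g ∈ Stb a ↔ g a = a := Iff.rfl

theorem mem_StS {o : Finset GolayPt} {g : PG} : g ∈ StS o ↔ g • o = o := Iff.rfl

/-- Membership in a setwise stabiliser, from the image of the points. -/
theorem apply_mem_of_StS {o : Finset GolayPt} {g : PG} (h : g ∈ StS o) {a : GolayPt} (ha : a ∈ o) :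
    g a ∈ o := by
  have h1 : g • o = o := h
  rw [← h1]
  exact Finset.smul_mem_smul_finset ha

theorem not_mem_of_StS {o : Finset GolayPt} {g : PG} (h : g ∈ StS o) {a : GolayPt} (ha : a ∉ o) :
    g a ∉ o := by
  intro h2
  have h1 : g • o = o := h
  rw [← h1] at h2
  exact ha ((Finset.smul_mem_smul_finset_iff g).1 h2)

theorem mem_StS_of_forall {o : Finset GolayPt} {g : PG} (h : ∀ a ∈ o, g a ∈ o) : g ∈ StS o := by
  classical
  show g • o = o
  apply Finset.eq_of_subset_of_card_le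
  · intro b hb
    obtain ⟨a, ha, rfl⟩ := Finset.mem_smul_finset.1 hb
    exact h a ha
  · rw [Finset.card_smul_finset]

/-- The orbit of a point, as a finite set. -/
noncomputable def Orb (T : Subgroup PG) (a : GolayPt) : Finset GolayPt := by
  classical
  exact Finset.univ.filter fun b => ∃ t ∈ T, t a = b

theorem mem_Orb {T : Subgroup PG} {a b : GolayPt} : b ∈ Orb T a ↔ ∃ t ∈ T, t a = b := by
  classical
  simp [Orb]

theorem self_mem_Orb (T : Subgroup PG) (a : GolayPt) : a ∈ Orb T a :=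
  mem_Orb.2 ⟨1, T.one_mem, rfl⟩

theorem Orb_apply {T : Subgroup PG} {a b : GolayPt} (h : b ∈ Orb T a) {t : PG} (ht : t ∈ T) :
    t b ∈ Orb T a := by
  obtain ⟨s, hs, rfl⟩ := mem_Orb.1 h
  exact mem_Orb.2 ⟨t * s, T.mul_mem ht hs, rfl⟩

theorem Orb_eq_of_mem {T : Subgroup PG} {a b : GolayPt} (h : b ∈ Orb T a) : Orb T b = Orb T a := by
  obtain ⟨s, hs, rfl⟩ := mem_Orb.1 h
  ext c
  constructor
  · intro hc
    obtain ⟨t, ht, rfl⟩ := mem_Orb.1 hc
    exact mem_Orb.2 ⟨t * s, T.mul_mem ht hs, rfl⟩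
  · intro hc
    obtain ⟨t, ht, rfl⟩ := mem_Orb.1 hc
    refine mem_Orb.2 ⟨t * s⁻¹, T.mul_mem ht (T.inv_mem hs), ?_⟩
    simp

/-- Orbit–stabiliser. -/
theorem Orb_card_mul (T : Subgroup PG) (a : GolayPt) :
    (Orb T a).card * Nat.card ↥(T ⊓ Stb a) = Nat.card T := by
  classical
  have h1 := Subgroup.card_mul_index (MulAction.stabilizer ↥T a)
  rw [MulAction.index_stabilizer] at h1
  have h2 : (MulAction.orbit ↥T a).ncard = (Orb T a).card := by
    rw [← Set.ncard_coe_finset]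
    congr 1
    ext b
    simp only [Finset.mem_coe, mem_Orb, MulAction.mem_orbit_iff]
    constructor
    · rintro ⟨t, rfl⟩
      exact ⟨t.1, t.2, rfl⟩
    · rintro ⟨t, ht, rfl⟩
      exact ⟨⟨t, ht⟩, rfl⟩
  have h3 : Nat.card ↥(MulAction.stabilizer ↥T a) = Nat.card ↥(T ⊓ Stb a) := by
    apply Nat.card_congr
    exact
      { toFun := fun s => ⟨s.1.1, s.1.2, s.2⟩
        invFun := fun s => ⟨⟨s.1, s.2.1⟩, s.2.2⟩
        left_inv := fun s => rfl
        right_inv := fun s => rfl }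
  rw [h2, h3] at h1
  rw [← h1, mul_comm]

theorem Orb_card_dvd (T : Subgroup PG) (a : GolayPt) : (Orb T a).card ∣ Nat.card T :=
  ⟨_, (Orb_card_mul T a).symm⟩

/-! ### Orders of stabilisers -/

theorem map_stab {W : Type*} [MulAction PG W] (w : W) :
    (MulAction.stabilizer M24 w).map M24.subtype = M24 ⊓ MulAction.stabilizer PG w := by
  ext g
  constructor
  · rintro ⟨x, hx, rfl⟩
    exact ⟨x.2, hx⟩
  · rintro ⟨h1, h2⟩
    exact ⟨⟨g, h1⟩, h2, rfl⟩

theorem card_inf_stab {W : Type*} [MulAction PG W] (w : W) :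
    Nat.card ↥(M24 ⊓ MulAction.stabilizer PG w) = Nat.card (MulAction.stabilizer M24 w) := by
  rw [← map_stab, Subgroup.card_map_of_injective M24.subtype_injective]

theorem card_Kfix_E (E : Finset GolayPt) (n : ℕ) (hk : E.card ≤ 5)
    (hn : n * (24).descFactorial E.card = 244823040) : Nat.card (Kfix E) = n := by
  classical
  let e : Fin E.card ≃ ↥E := E.equivFin.symm
  let x : Fin E.card ↪ GolayPt := e.toEmbedding.trans (Function.Embedding.subtype _)
  have h1 := card_stabilizer_embedding E.card hk x n hn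
  rw [← h1]
  apply Nat.card_congr
  refine
    { toFun := fun s => ⟨⟨s.1, s.2.1⟩, ?_⟩
      invFun := fun s => ⟨s.1.1, mem_Kfix.2 ⟨s.1.2, ?_⟩⟩
      left_inv := fun s => rfl
      right_inv := fun s => rfl }
  · rw [MulAction.mem_stabilizer_iff]
    refine Function.Embedding.ext fun i => ?_
    exact (mem_Kfix.1 s.2).2 _ (e i).2
  · intro q hq
    have h2 := s.2
    rw [MulAction.mem_stabilizer_iff] at h2
    have h3 := congrArg (fun f : Fin E.card ↪ GolayPt => f (e.symm ⟨q, hq⟩)) h2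
    have h4 : x (e.symm ⟨q, hq⟩) = q := by
      show ((e (e.symm ⟨q, hq⟩) : ↥E) : GolayPt) = q
      rw [Equiv.apply_symm_apply]
    have h5 : (s.1.1 : PG) (x (e.symm ⟨q, hq⟩)) = x (e.symm ⟨q, hq⟩) := h3
    rwa [h4] at h5

/-- Order of the stabiliser of an octad. -/
theorem card_St (o : Finset GolayPt) (ho : o ∈ octads) : Nat.card ↥(M24 ⊓ StS o) = 322560 := by
  rw [card_inf_stab, card_stabilizer_octad ho]

theorem orbit_in {o : Finset GolayPt} (ho : o ∈ octads) {x y : GolayPt} (hx : x ∈ o) (hy : y ∈ o) :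
    ∃ t ∈ M24 ⊓ StS o, t x = y := by
  obtain ⟨g, hg1, hg2⟩ := flag_in ho hx
  obtain ⟨k, hk1, hk2⟩ := flag_in ho hy
  refine ⟨((k⁻¹ * g : ↥M24) : PG), ⟨(k⁻¹ * g).2, ?_⟩, ?_⟩
  · show (k⁻¹ * g) • o = o
    rw [mul_smul, hg2, ← hk2, inv_smul_smul]
  · show (k.1)⁻¹ (g.1 x) = y
    rw [hg1, ← hk1]
    simp

theorem orbit_out {o : Finset GolayPt} (ho : o ∈ octads) {x y : GolayPt} (hx : x ∉ o) (hy : y ∉ o) :
    ∃ t ∈ M24 ⊓ StS o, t x = y := by
  obtain ⟨g, hg1, hg2⟩ := flag_out ho hx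
  obtain ⟨k, hk1, hk2⟩ := flag_out ho hy
  refine ⟨((k⁻¹ * g : ↥M24) : PG), ⟨(k⁻¹ * g).2, ?_⟩, ?_⟩
  · show (k⁻¹ * g) • o = o
    rw [mul_smul, hg2, ← hk2, inv_smul_smul]
  · show (k.1)⁻¹ (g.1 x) = y
    rw [hg1, ← hk1]
    simp

theorem card_compl_octad {o : Finset GolayPt} (ho : o ∈ octads) : (oᶜ).card = 16 := by
  rw [Finset.card_compl, octads_card ho]
  rfl

/-- The joint stabiliser of an octad and one of its points. -/
theorem card_St_in {o : Finset GolayPt} (ho : o ∈ octads) {x : GolayPt} (hx : x ∈ o) :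
    Nat.card ↥(M24 ⊓ StS o ⊓ Stb x) = 40320 := by
  have h1 := Orb_card_mul (M24 ⊓ StS o) x
  have h2 : Orb (M24 ⊓ StS o) x = o := by
    ext y
    rw [mem_Orb]
    constructor
    · rintro ⟨t, ht, rfl⟩
      exact apply_mem_of_StS ht.2 hx
    · intro hy
      exact orbit_in ho hx hy
  rw [h2, octads_card ho, card_St o ho] at h1
  exact Nat.eq_of_mul_eq_mul_left (by norm_num : 0 < 8) (h1.trans (by norm_num))

/-- The joint stabiliser of an octad and a point off it. -/
theorem card_St_out {o : Finset GolayPt} (ho : o ∈ octads) {x : GolayPt} (hx : x ∉ o) :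
    Nat.card ↥(M24 ⊓ StS o ⊓ Stb x) = 20160 := by
  have h1 := Orb_card_mul (M24 ⊓ StS o) x
  have h2 : Orb (M24 ⊓ StS o) x = oᶜ := by
    ext y
    rw [mem_Orb, Finset.mem_compl]
    constructor
    · rintro ⟨t, ht, rfl⟩
      exact not_mem_of_StS ht.2 hx
    · intro hy
      exact orbit_out ho hx hy
  rw [h2, card_compl_octad ho, card_St o ho] at h1
  exact Nat.eq_of_mul_eq_mul_left (by norm_num : 0 < 16) (h1.trans (by norm_num))

theorem Kfix_le_St {o : Finset GolayPt} {k : PG} (hk : k ∈ M24) (hf : ∀ q ∈ o, k q = q) : k ∈ StS o :=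
  mem_StS_of_forall fun a ha => by rw [hf a ha]; exact ha

/-- The joint stabiliser of an octad, one of its points and a point off it. -/
theorem card_St_in_out {o : Finset GolayPt} (ho : o ∈ octads) {x q : GolayPt} (hx : x ∈ o) (hq : q ∉ o) :
    Nat.card ↥(M24 ⊓ StS o ⊓ Stb x ⊓ Stb q) = 2520 := by
  have h1 := Orb_card_mul (M24 ⊓ StS o ⊓ Stb x) q
  have h2 : Orb (M24 ⊓ StS o ⊓ Stb x) q = oᶜ := by
    ext y
    rw [mem_Orb, Finset.mem_compl]
    constructor
    · rintro ⟨t, ht, rfl⟩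
      exact not_mem_of_StS ht.1.2 hq
    · intro hy
      obtain ⟨k, hk, hf, hky⟩ := exists_fix_octad ho hq hy
      exact ⟨k, ⟨⟨hk, Kfix_le_St hk hf⟩, hf x hx⟩, hky⟩
  rw [h2, card_compl_octad ho, card_St_in ho hx] at h1
  exact Nat.eq_of_mul_eq_mul_left (by norm_num : 0 < 16) (h1.trans (by norm_num))

/-! ### Two-groups -/

/-- A 2-subgroup of `M24` fixes an octad. -/
theorem exists_fixed_octad (Q : Subgroup PG) (hQ : Q ≤ M24) (k : ℕ) (hc : Nat.card Q = 2 ^ k) :
    ∃ o ∈ octads, Q ≤ StS o := by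
  classical
  haveI : Fact (Nat.Prime 2) := ⟨Nat.prime_two⟩
  have hp : IsPGroup 2 Q := IsPGroup.of_card hc
  let S : SubMulAction Q (Finset GolayPt) :=
    { carrier := octads
      smul_mem' := fun c x hx => smul_mem_octads (hQ c.2) hx }
  have hcard : Nat.card S = 759 := by
    have : Nat.card S = Set.ncard (octads : Set (Finset GolayPt)) := rfl
    rw [this, ncard_octads]
  haveI : Finite S := by
    apply Nat.finite_of_card_ne_zero
    rw [hcard]
    norm_num
  have h := hp.nonempty_fixed_point_of_prime_not_dvd_card S (by rw [hcard]; norm_num)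
  obtain ⟨⟨o, ho⟩, hfix⟩ := h
  refine ⟨o, ho, fun g hg => ?_⟩
  have := hfix ⟨g, hg⟩
  exact congrArg Subtype.val this


/-- A divisor of a power of two dividing `2 ^ m * c` with `c` odd is at most `2 ^ m`. -/
theorem le_two_pow {n k m c : ℕ} (h1 : n ∣ 2 ^ k) (h2 : n ∣ 2 ^ m * c) (hc : Odd c) : n ≤ 2 ^ m := by
  obtain ⟨j, -, rfl⟩ := (Nat.dvd_prime_pow Nat.prime_two).1 h1
  have h3 : Nat.Coprime (2 ^ j) c := Nat.Coprime.pow_left j (Nat.coprime_two_left.2 hc)
  have h4 : 2 ^ j ∣ 2 ^ m := h3.dvd_of_dvd_mul_right h2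
  exact Nat.le_of_dvd (by positivity) h4

/-- A subgroup of a given group: its order divides the order. -/
theorem card_dvd_of_le {A B : Subgroup PG} (h : A ≤ B) : Nat.card A ∣ Nat.card B :=
  Subgroup.card_dvd_of_le h

/-- A 2-group of order 128 fixing an octad and one of its points is transitive off the octad. -/
theorem orbit_compl {Q : Subgroup PG} (hQ : Q ≤ M24) {X : Finset GolayPt} (hX : X ∈ octads)
    (hQX : Q ≤ StS X) {x : GolayPt} (hxX : x ∈ X) (hx : ∀ h ∈ Q, h x = x) (hc : Nat.card Q = 128)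
    {a b : GolayPt} (ha : a ∉ X) (hb : b ∉ X) : ∃ h ∈ Q, h a = b := by
  classical
  have h1 := Orb_card_mul Q a
  have h2 : Q ⊓ Stb a ≤ M24 ⊓ StS X ⊓ Stb x ⊓ Stb a := by
    intro g hg
    exact ⟨⟨⟨hQ hg.1, hQX hg.1⟩, hx g hg.1⟩, hg.2⟩
  have h3 := card_dvd_of_le h2
  rw [card_St_in_out hX hxX ha] at h3
  have h4 : Nat.card ↥(Q ⊓ Stb a) ∣ 2 ^ 7 := by
    rw [show (2 : ℕ) ^ 7 = Nat.card Q by rw [hc]; norm_num]
    exact card_dvd_of_le inf_le_left
  have h5 : Nat.card ↥(Q ⊓ Stb a) ≤ 2 ^ 3 :=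
    le_two_pow h4 (show _ ∣ 2 ^ 3 * 315 by simpa using h3) (by decide)
  have h6 : Orb Q a ⊆ Xᶜ := by
    intro y hy
    obtain ⟨t, ht, rfl⟩ := mem_Orb.1 hy
    rw [Finset.mem_compl]
    exact not_mem_of_StS (hQX ht) ha
  have h7 : (Orb Q a).card ≥ 16 := by
    rw [hc] at h1
    by_contra hlt
    have h8 : (Orb Q a).card ≤ 15 := by omega
    have h9 : (Orb Q a).card * Nat.card ↥(Q ⊓ Stb a) ≤ 15 * 8 := Nat.mul_le_mul h8 (by simpa using h5)
    omega
  have h8 : Orb Q a = Xᶜ := Finset.eq_of_subset_of_card_le h6 (by rw [card_compl_octad hX]; exact h7)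
  have h9 : b ∈ Orb Q a := by rw [h8]; exact Finset.mem_compl.2 hb
  exact mem_Orb.1 h9

/-- A subgroup of `M24` fixing a point `x`, of order divisible by 128, has a subgroup of order 128
fixing an octad through `x`, hence transitive off that octad. -/
theorem exists_octad_of_128 {T : Subgroup PG} (hT : T ≤ M24) {x : GolayPt} (hx : ∀ t ∈ T, t x = x)
    (h128 : 128 ∣ Nat.card T) :
    ∃ X ∈ octads, x ∈ X ∧ ∀ a b, a ∉ X → b ∉ X → ∃ t ∈ T, t a = b := by
  classical
  obtain ⟨K, hK⟩ := Sylow.exists_subgroup_card_pow_prime (G := ↥T) 2 (n := 7) (by simpa using h128)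
  have hinj := T.subtype_injective
  let Q : Subgroup PG := K.map T.subtype
  have hQc : Nat.card Q = 128 := by
    rw [Subgroup.card_map_of_injective hinj, hK]
    norm_num
  have hQT : Q ≤ T := by
    rintro _ ⟨y, -, rfl⟩
    exact y.2
  obtain ⟨X, hX, hQX⟩ := exists_fixed_octad Q (hQT.trans hT) 7 (by rw [hQc]; norm_num)
  have hxX : x ∈ X := by
    by_contra hxX
    have h2 : Q ≤ M24 ⊓ StS X ⊓ Stb x := fun g hg => ⟨⟨hT (hQT hg), hQX hg⟩, hx g (hQT hg)⟩
    have h3 := card_dvd_of_le h2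
    rw [hQc, card_St_out hX hxX] at h3
    revert h3
    decide
  refine ⟨X, hX, hxX, fun a b ha hb => ?_⟩
  obtain ⟨h, hh, e⟩ := orbit_compl (hQT.trans hT) hX hQX hxX (fun h hh => hx h (hQT hh)) hQc ha hb
  exact ⟨h, hQT hh, e⟩

/-! ### The analysis of the big orbit -/

section Big

variable {T : Subgroup PG} {x q : GolayPt} {X : Finset GolayPt}

/-- The points of the octad (other than `x`) off the big orbit. -/
noncomputable def RestR (T : Subgroup PG) (x q : GolayPt) (X : Finset GolayPt) : Finset GolayPt := by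
  classical
  exact (X.erase x) \ Orb T q

theorem mem_RestR {a : GolayPt} : a ∈ RestR T x q X ↔ a ∈ X ∧ a ≠ x ∧ a ∉ Orb T q := by
  classical
  simp only [RestR, Finset.mem_sdiff, Finset.mem_erase]
  tauto

theorem RestR_inv (hx : ∀ t ∈ T, t x = x) (hX : X ∈ octads) (hq : q ∉ X)
    (htr : ∀ a b, a ∉ X → b ∉ X → ∃ t ∈ T, t a = b) {t : PG} (ht : t ∈ T) {a : GolayPt}
    (ha : a ∈ RestR T x q X) : t a ∈ RestR T x q X := by
  classical
  obtain ⟨h1, h2, h3⟩ := mem_RestR.1 ha
  have h4 : ∀ b, b ∉ X → b ∈ Orb T q := fun b hb => by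
    obtain ⟨s, hs, e⟩ := htr q b hq hb
    exact mem_Orb.2 ⟨s, hs, e⟩
  have h5 : t a ∉ Orb T q := by
    intro h6
    apply h3
    have h7 := Orb_apply h6 (T.inv_mem ht)
    simpa using h7
  refine mem_RestR.2 ⟨?_, ?_, h5⟩
  · by_contra h6
    exact h5 (h4 _ h6)
  · intro h6
    apply h2
    have h7 := hx t ht
    exact t.injective (h6.trans h7.symm)

/-- Sizes. -/
theorem card_Orb_add_RestR (hx : ∀ t ∈ T, t x = x) (hX : X ∈ octads) (hxX : x ∈ X) (hq : q ∉ X)
    (htr : ∀ a b, a ∉ X → b ∉ X → ∃ t ∈ T, t a = b) : (Orb T q).card + (RestR T x q X).card = 23 := by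
  classical
  have hxO : x ∉ Orb T q := by
    intro h
    obtain ⟨t, ht, e⟩ := mem_Orb.1 h
    apply_fun t⁻¹ at e
    have h2 : t⁻¹ x = x := hx _ (T.inv_mem ht)
    rw [h2] at e
    simp at e
    rw [e] at hq
    exact hq hxX
  have h4 : ∀ b, b ∉ X → b ∈ Orb T q := fun b hb => by
    obtain ⟨s, hs, e⟩ := htr q b hq hb
    exact mem_Orb.2 ⟨s, hs, e⟩
  have h5 : Disjoint (Orb T q) (RestR T x q X) := by
    rw [Finset.disjoint_left]
    intro a ha hb
    exact (mem_RestR.1 hb).2.2 ha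
  have h6 : Orb T q ∪ RestR T x q X = Finset.univ.erase x := by
    ext a
    simp only [Finset.mem_union, Finset.mem_erase, Finset.mem_univ, and_true, mem_RestR]
    constructor
    · rintro (h | ⟨-, h, -⟩)
      · rintro rfl
        exact hxO h
      · exact h
    · intro h
      by_cases h7 : a ∈ Orb T q
      · exact Or.inl h7
      · right
        refine ⟨?_, h, h7⟩
        by_contra h8
        exact h7 (h4 _ h8)
  rw [← Finset.card_union_of_disjoint h5, h6, Finset.card_erase_of_mem (Finset.mem_univ _)]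
  rfl

/-- Five points of the octad off the big orbit are impossible. -/
theorem RestR_ne_five (hT : T ≤ M24) (hx : ∀ t ∈ T, t x = x) (hX : X ∈ octads) (hxX : x ∈ X) (hq : q ∉ X)
    (htr : ∀ a b, a ∉ X → b ∉ X → ∃ t ∈ T, t a = b) : (RestR T x q X).card ≠ 5 := by
  classical
  intro h5
  have h1 := card_Orb_add_RestR hx hX hxX hq htr
  have hsub : RestR T x q X ⊆ X := fun a ha => (mem_RestR.1 ha).1
  have hst : ∀ t ∈ T, t ∈ StS X := by
    intro t ht
    have h2 : t • X ∈ octads := smul_mem_octads (hT ht) hX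
    have h3 : RestR T x q X ⊆ t • X := by
      intro a ha
      have h4 := RestR_inv hx hX hq htr (T.inv_mem ht) ha
      have h5 : t⁻¹ a ∈ X := hsub h4
      rw [Finset.mem_smul_finset]
      exact ⟨_, h5, by simp⟩
    exact octads_unique h2 hX h5 h3 hsub
  -- a point of the octad in the big orbit
  have h2 : ∃ e ∈ X, e ∈ Orb T q := by
    have h3 : (X.erase x \ RestR T x q X).card = 2 := by
      rw [Finset.card_sdiff_of_subset]
      · rw [Finset.card_erase_of_mem hxX, octads_card hX, h5]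
      · intro a ha
        exact Finset.mem_erase.2 ⟨(mem_RestR.1 ha).2.1, (mem_RestR.1 ha).1⟩
    obtain ⟨e, he⟩ : (X.erase x \ RestR T x q X).Nonempty := by
      rw [← Finset.card_pos, h3]
      norm_num
    obtain ⟨h4, h6⟩ := Finset.mem_sdiff.1 he
    obtain ⟨h7, h8⟩ := Finset.mem_erase.1 h4
    refine ⟨e, h8, ?_⟩
    by_contra h9
    exact h6 (mem_RestR.2 ⟨h8, h7, h9⟩)
  obtain ⟨e, heX, heO⟩ := h2
  obtain ⟨t, ht, rfl⟩ := mem_Orb.1 heO
  exact not_mem_of_StS (hst t ht) hq heX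

/-- The possible sizes of the rest. -/
theorem RestR_cases (hT : T ≤ M24) (hx : ∀ t ∈ T, t x = x) (hX : X ∈ octads) (hxX : x ∈ X) (hq : q ∉ X)
    (htr : ∀ a b, a ∉ X → b ∉ X → ∃ t ∈ T, t a = b)
    (h17 : ¬ 17 ∣ Nat.card T) (h19 : ¬ 19 ∣ Nat.card T) (h11 : ¬ 11 ∣ Nat.card T) (h23 : ¬ 23 ∣ Nat.card T) :
    (RestR T x q X).card = 7 ∨ (RestR T x q X).card = 3 ∨ (RestR T x q X).card = 2 := by
  classical
  have h1 := card_Orb_add_RestR hx hX hxX hq htr
  have h2 := RestR_ne_five hT hx hX hxX hq htr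
  have h3 := Orb_card_dvd T q
  have h4 : (RestR T x q X).card ≤ 7 := by
    have h5 : RestR T x q X ⊆ X.erase x := fun a ha =>
      Finset.mem_erase.2 ⟨(mem_RestR.1 ha).2.1, (mem_RestR.1 ha).1⟩
    have h6 := Finset.card_le_card h5
    rw [Finset.card_erase_of_mem hxX, octads_card hX] at h6
    exact h6
  generalize hr : (RestR T x q X).card = r at *
  have hO : (Orb T q).card = 23 - r := by omega
  rw [hO] at h3
  interval_cases r
  · exact absurd h3 (by simpa using h23)
  · exact absurd ((show 11 ∣ 22 by norm_num).trans h3) (by simpa using h11)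
  · simp
  · simp
  · exact absurd h3 (by simpa using h19)
  · exact absurd rfl h2
  · exact absurd h3 (by simpa using h17)
  · simp

end Big

/-- The group acting on an invariant set: order divides kernel times factorial. -/
theorem card_dvd_fix_mul {T : Subgroup PG} {R : Finset GolayPt} (hR : ∀ t ∈ T, ∀ a ∈ R, t a ∈ R) :
    Nat.card T ∣ Nat.card ↥(T ⊓ fixingSubgroup PG (R : Set GolayPt)) * (R.card).factorial := by
  classical
  let S : SubMulAction ↥T GolayPt :=
    { carrier := (R : Set GolayPt)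
      smul_mem' := fun c a ha => hR c.1 c.2 a ha }
  let φ : ↥T →* Equiv.Perm ↥S := MulAction.toPermHom ↥T ↥S
  have h1 := Subgroup.card_mul_index φ.ker
  rw [Subgroup.index_ker] at h1
  have h2 : Nat.card φ.ker = Nat.card ↥(T ⊓ fixingSubgroup PG (R : Set GolayPt)) := by
    apply Nat.card_congr
    refine
      { toFun := fun s => ⟨s.1.1, s.1.2, ?_⟩
        invFun := fun s => ⟨⟨s.1, s.2.1⟩, ?_⟩
        left_inv := fun s => rfl
        right_inv := fun s => rfl }
    · show (s.1.1 : PG) ∈ fixingSubgroup PG (R : Set GolayPt)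
      rw [mem_fixingSubgroup_iff]
      intro a ha
      have h3 : φ s.1 = 1 := s.2
      have h4 := congrArg (fun f : Equiv.Perm ↥S => ((f ⟨a, ha⟩ : ↥S) : GolayPt)) h3
      exact h4
    · rw [MonoidHom.mem_ker]
      refine Equiv.ext fun a => Subtype.ext ?_
      have h3 := (mem_fixingSubgroup_iff PG).1 s.2.2 a.1 a.2
      exact h3
  have h3 : Nat.card φ.range ∣ (R.card).factorial := by
    have h4 : Nat.card (Equiv.Perm ↥S) = (R.card).factorial := by
      rw [Nat.card_perm]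
      congr 1
      have : Nat.card ↥S = Nat.card ↥(R : Set GolayPt) := rfl
      rw [this]
      simp
    rw [← h4]
    exact Subgroup.card_subgroup_dvd_card _
  rw [← h1, h2]
  exact Nat.mul_dvd_mul_left _ h3

/-- A subgroup fixing `x` and an invariant set `R` (not containing `x`) pointwise lies in `Kfix`. -/
theorem inf_fix_le_Kfix {T : Subgroup PG} (hT : T ≤ M24) {x : GolayPt} (hx : ∀ t ∈ T, t x = x)
    (R : Finset GolayPt) : T ⊓ fixingSubgroup PG (R : Set GolayPt) ≤ Kfix (insert x R) := by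
  intro g hg
  rw [mem_Kfix]
  refine ⟨hT hg.1, fun a ha => ?_⟩
  rcases Finset.mem_insert.1 ha with rfl | ha
  · exact hx g hg.1
  · exact (mem_fixingSubgroup_iff PG).1 hg.2 a ha

/-- Order bound from an invariant set: `#T` divides `n * r!`. -/
theorem card_dvd_of_inv {T : Subgroup PG} (hT : T ≤ M24) {x : GolayPt} (hx : ∀ t ∈ T, t x = x)
    {R : Finset GolayPt} (hR : ∀ t ∈ T, ∀ a ∈ R, t a ∈ R) (hxR : x ∉ R) {n : ℕ} (hk : R.card + 1 ≤ 5)
    (hn : n * (24).descFactorial (R.card + 1) = 244823040) :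
    Nat.card ↥(T ⊓ fixingSubgroup PG (R : Set GolayPt)) ∣ n ∧
    Nat.card T ∣ Nat.card ↥(T ⊓ fixingSubgroup PG (R : Set GolayPt)) * (R.card).factorial := by
  refine ⟨?_, card_dvd_fix_mul hR⟩
  have h1 := Subgroup.card_dvd_of_le (inf_fix_le_Kfix hT hx R)
  rwa [card_Kfix_E (insert x R) n (by rw [Finset.card_insert_of_notMem hxR]; exact hk)
    (by rw [Finset.card_insert_of_notMem hxR]; exact hn)] at h1

/-- The subgroups of order 40320 of a point stabiliser: the main step. -/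
theorem main_40320 {T : Subgroup PG} (hT : T ≤ M24) {x : GolayPt} (hx : ∀ t ∈ T, t x = x)
    (hc : Nat.card T = 40320) :
    (∃ s : Finset GolayPt, s.card = 2 ∧ x ∉ s ∧ T ≤ StS s) ∨ ∃ o ∈ octads, x ∈ o ∧ T ≤ StS o := by
  classical
  obtain ⟨X, hX, hxX, htr⟩ := exists_octad_of_128 hT hx (by rw [hc]; norm_num)
  obtain ⟨q, hq⟩ := exists_not_mem_octad hX
  have hinv : ∀ t ∈ T, ∀ a ∈ RestR T x q X, t a ∈ RestR T x q X := fun t ht a ha =>
    RestR_inv hx hX hq htr ht ha
  have hxR : x ∉ RestR T x q X := fun h => (mem_RestR.1 h).2.1 rfl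
  rcases RestR_cases hT hx hX hxX hq htr (by rw [hc]; norm_num) (by rw [hc]; norm_num)
    (by rw [hc]; norm_num) (by rw [hc]; norm_num) with h | h | h
  · -- the octad
    right
    refine ⟨X, hX, hxX, fun t ht => ?_⟩
    have h1 : RestR T x q X = X.erase x := by
      apply Finset.eq_of_subset_of_card_le
      · exact fun a ha => Finset.mem_erase.2 ⟨(mem_RestR.1 ha).2.1, (mem_RestR.1 ha).1⟩
      · rw [h, Finset.card_erase_of_mem hxX, octads_card hX]
    apply mem_StS_of_forall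
    intro a ha
    by_cases hax : a = x
    · rw [hax, hx t ht]
      exact hxX
    · have h2 : a ∈ RestR T x q X := by
        rw [h1]
        exact Finset.mem_erase.2 ⟨hax, ha⟩
      exact (mem_RestR.1 (hinv t ht a h2)).1
  · exfalso
    obtain ⟨h1, h2⟩ := card_dvd_of_inv hT hx hinv hxR (n := 960) (by rw [h]; norm_num)
      (by rw [h]; decide)
    rw [h, hc] at h2
    have h3 := Nat.le_of_dvd (by norm_num) h1
    have h4 : 40320 ≤ Nat.card ↥(T ⊓ fixingSubgroup PG (RestR T x q X : Set GolayPt)) * 6 :=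
      Nat.le_of_dvd (Nat.mul_pos Nat.card_pos (by norm_num)) h2
    omega
  · left
    refine ⟨RestR T x q X, h, hxR, fun t ht => mem_StS_of_forall fun a ha => hinv t ht a ha⟩

/-- The joint stabiliser of a pair and a further point has order at most 40320. -/
theorem card_pair_le {s : Finset GolayPt} (hs : s.card = 2) {x : GolayPt} (hx : x ∉ s) :
    Nat.card ↥(M24 ⊓ StS s ⊓ Stb x) ∣ 40320 := by
  have hinv : ∀ t ∈ M24 ⊓ StS s ⊓ Stb x, ∀ a ∈ s, t a ∈ s := fun t ht a ha =>
    apply_mem_of_StS ht.1.2 ha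
  obtain ⟨h1, h2⟩ := card_dvd_of_inv (T := M24 ⊓ StS s ⊓ Stb x) (fun g hg => hg.1.1) (x := x)
    (fun t ht => ht.2) hinv hx (n := 20160) (by rw [hs]; norm_num) (by rw [hs]; decide)
  rw [hs] at h2
  exact h2.trans (Nat.mul_dvd_mul_right h1 _)

end Cfsg.Agent.Lib.GS1.M24I
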