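import Mathlib
import Cfsg.Agent.Lib.GS1.M24Idx
import Cfsg.Agent.Lib.Classical.Transvection

/-!
# Subgroups of small index of `M24`: transitive case, blocks
-/

set_option autoImplicit false

namespace Cfsg.Agent.Lib.GS1.M24I

open Cfsg Cfsg.Agent.Lib.Compute Cfsg.Agent.Lib.Golay Cfsg.Agent.Lib.M24 Subgroup
open Cfsg.Agent.Lib.GS1.M22
open scoped Pointwise

/-- A subgroup of order divisible by 1024 has a subgroup of order 1024 fixing an octad,
transitive on it, and with point stabilisers transitive off the octad. -/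
theorem sylow_data {A : Subgroup PG} (hA : A ≤ M24) (h : 1024 ∣ Nat.card A) :
    ∃ P ≤ A, ∃ X ∈ octads, P ≤ StS X ∧ Nat.card P = 1024 ∧ (∀ a ∈ X, ∀ b ∈ X, ∃ g ∈ P, g a = b) ∧
      ∀ x ∈ X, ∀ a b, a ∉ X → b ∉ X → ∃ g ∈ P, g x = x ∧ g a = b := by
  classical
  obtain ⟨K, hK⟩ := Sylow.exists_subgroup_card_pow_prime (G := ↥A) 2 (n := 10) (by simpa using h)
  have hinj := A.subtype_injective
  let P : Subgroup PG := K.map A.subtype
  have hPc : Nat.card P = 1024 := by
    rw [Subgroup.card_map_of_injective hinj, hK]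
    norm_num
  have hPA : P ≤ A := by
    rintro _ ⟨y, -, rfl⟩
    exact y.2
  have hPM : P ≤ M24 := hPA.trans hA
  obtain ⟨X, hX, hPX⟩ := exists_fixed_octad P hPM 10 (by rw [hPc]; norm_num)
  have hstab : ∀ y ∈ X, (Orb P y = X ∧ Nat.card ↥(P ⊓ Stb y) = 128) := by
    intro y hy
    have h1 := Orb_card_mul P y
    have h2 : P ⊓ Stb y ≤ M24 ⊓ StS X ⊓ Stb y := fun g hg => ⟨⟨hPM hg.1, hPX hg.1⟩, hg.2⟩
    have h3 := card_dvd_of_le h2
    rw [card_St_in hX hy] at h3
    have h4 : Nat.card ↥(P ⊓ Stb y) ∣ 2 ^ 10 := by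
      rw [show (2 : ℕ) ^ 10 = Nat.card P by rw [hPc]; norm_num]
      exact card_dvd_of_le inf_le_left
    have h5 : Nat.card ↥(P ⊓ Stb y) ≤ 2 ^ 7 :=
      le_two_pow h4 (show _ ∣ 2 ^ 7 * 315 by simpa using h3) (by decide)
    have h6 : Orb P y ⊆ X := by
      intro z hz
      obtain ⟨t, ht, rfl⟩ := mem_Orb.1 hz
      exact apply_mem_of_StS (hPX ht) hy
    have h7 := Finset.card_le_card h6
    rw [octads_card hX] at h7
    rw [hPc] at h1
    have h8 : 8 ≤ (Orb P y).card := by
      by_contra hlt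
      have h9 : (Orb P y).card ≤ 7 := by omega
      have h10 : (Orb P y).card * Nat.card ↥(P ⊓ Stb y) ≤ 7 * 128 :=
        Nat.mul_le_mul h9 (by simpa using h5)
      omega
    have h9 : Orb P y = X := Finset.eq_of_subset_of_card_le h6 (by rw [octads_card hX]; exact h8)
    refine ⟨h9, ?_⟩
    rw [h9, octads_card hX] at h1
    exact Nat.eq_of_mul_eq_mul_left (by norm_num : 0 < 8) (h1.trans (by norm_num))
  refine ⟨P, hPA, X, hX, hPX, hPc, fun a ha b hb => ?_, fun x hx a b ha hb => ?_⟩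
  · have h1 : b ∈ Orb P a := by
      rw [(hstab a ha).1]
      exact hb
    exact mem_Orb.1 h1
  · obtain ⟨g, hg, e⟩ := orbit_compl (Q := P ⊓ Stb x) (inf_le_left.trans hPM) hX (inf_le_left.trans hPX)
      hx (fun h hh => hh.2) (hstab x hx).2 ha hb
    exact ⟨g, hg.1, hg.2, e⟩

/-- A subgroup not fixing the octad is transitive. -/
theorem trans_of_not_le {A P : Subgroup PG} {X : Finset GolayPt} (hPA : P ≤ A)
    (h1 : ∀ a ∈ X, ∀ b ∈ X, ∃ g ∈ P, g a = b)
    (h2 : ∀ x ∈ X, ∀ a b, a ∉ X → b ∉ X → ∃ g ∈ P, g x = x ∧ g a = b)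
    (hX : X.Nonempty) (hne : ¬ A ≤ StS X) (a b : GolayPt) : ∃ g ∈ A, g a = b := by
  classical
  -- a point of the octad moved off the octad
  obtain ⟨y, z, hy, hz, t, ht, e⟩ : ∃ y z, y ∈ X ∧ z ∉ X ∧ ∃ t ∈ A, t y = z := by
    obtain ⟨t, ht, hnt⟩ := SetLike.not_le_iff_exists.1 hne
    have h3 : ¬ ∀ u ∈ X, t u ∈ X := fun h => hnt (mem_StS_of_forall h)
    push Not at h3
    obtain ⟨u, hu, hu2⟩ := h3
    exact ⟨u, t u, hu, hu2, t, ht, rfl⟩
  have hall : ∀ c, c ∈ Orb A y := by
    intro c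
    by_cases hc : c ∈ X
    · obtain ⟨g, hg, rfl⟩ := h1 y hy c hc
      exact mem_Orb.2 ⟨g, hPA hg, rfl⟩
    · obtain ⟨g, hg, -, e2⟩ := h2 y hy z c hz hc
      refine mem_Orb.2 ⟨g * t, A.mul_mem (hPA hg) ht, ?_⟩
      show g (t y) = c
      rw [e, e2]
  have h3 : b ∈ Orb A a := by
    rw [Orb_eq_of_mem (hall a)]
    exact hall b
  exact mem_Orb.1 h3

/-- Fixed points of an element of order five. -/
theorem card_Fx_five {e : PG} (he : e ∈ M24) (ho : orderOf e = 5) : (Fx e).card = 4 := by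
  haveI : Fact (Nat.Prime 5) := ⟨by norm_num⟩
  have h1 := Fx_le_four he (r := 5) (by norm_num) (by norm_num) ho
  have h2 := Fx_modEq e (p := 5) (by rw [← ho]; exact pow_orderOf_eq_one e)
  have h3 : (Fx e).card % 5 = 24 % 5 := h2.symm
  omega

/-- An invariant octad contains exactly three fixed points of an element of order five. -/
theorem three_le_octad_fix {e : PG} (ho : orderOf e = 5) {Y : Finset GolayPt} (hY : Y ∈ octads)
    (hinv : e ∈ StS Y) : 3 ≤ (Y ∩ Fx e).card := by
  classical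
  haveI : Fact (Nat.Prime 5) := ⟨by norm_num⟩
  have h1 := card_modEq_fix e (p := 5) (by rw [← ho]; exact pow_orderOf_eq_one e) Y
    (fun a ha => apply_mem_of_StS hinv ha)
  rw [octads_card hY] at h1
  have h2 : (Y.filter fun a => e a = a) = Y ∩ Fx e := by
    ext a
    simp [mem_Fx]
  rw [h2] at h1
  have h3 : (Y ∩ Fx e).card % 5 = 8 % 5 := h1.symm
  omega

/-- The block argument: a transitive group whose point stabilisers (for a point on `X`) fix `X`,
containing a 2-group transitive on `X` and fixing it, has no element of order five fixing the point. -/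
theorem block_false {A P : Subgroup PG} (hA : A ≤ M24) (hPA : P ≤ A) {X : Finset GolayPt}
    (hX : X ∈ octads) (hPX : P ≤ StS X) (h1 : ∀ a ∈ X, ∀ b ∈ X, ∃ g ∈ P, g a = b)
    (htr : ∀ a b, ∃ g ∈ A, g a = b) {x : GolayPt} (hxX : x ∈ X)
    (hT : ∀ t ∈ A, t x = x → t ∈ StS X) (h5 : 5 ∣ Nat.card ↥(A ⊓ Stb x)) : False := by
  classical
  haveI : Fact (Nat.Prime 5) := ⟨by norm_num⟩
  have hblock : ∀ g ∈ A, ∀ u ∈ X, g u ∈ X → g ∈ StS X := by
    intro g hg u hu hgu
    obtain ⟨p1, hp1, e1⟩ := h1 x hxX u hu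
    obtain ⟨p2, hp2, e2⟩ := h1 (g u) hgu x hxX
    have h2 : p2 * g * p1 ∈ StS X := by
      apply hT _ (A.mul_mem (A.mul_mem (hPA hp2) hg) (hPA hp1))
      show p2 (g (p1 x)) = x
      rw [e1, e2]
    have h3 : g = p2⁻¹ * (p2 * g * p1) * p1⁻¹ := by group
    rw [h3]
    exact (StS X).mul_mem ((StS X).mul_mem ((StS X).inv_mem (hPX hp2)) h2) ((StS X).inv_mem (hPX hp1))
  obtain ⟨e, he⟩ := exists_prime_orderOf_dvd_card' 5 h5
  have heA : (e : PG) ∈ A := e.2.1
  have hex : (e : PG) x = x := e.2.2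
  have heM : (e : PG) ∈ M24 := hA heA
  have ho : orderOf (e : PG) = 5 := by
    rw [← Subgroup.orderOf_coe] at he
    exact he
  have hF := card_Fx_five heM ho
  have heX : (e : PG) ∈ StS X := hT _ heA hex
  have h3 := three_le_octad_fix ho hX heX
  -- a fixed point off the octad
  have h4 : ∃ v, v ∉ X ∧ (e : PG) v = v := by
    by_contra hcon
    push Not at hcon
    have h5 : Fx (e : PG) ⊆ X := by
      intro a ha
      by_contra hna
      exact hcon a hna (mem_Fx.1 ha)
    have h6 : X ∩ Fx (e : PG) = Fx (e : PG) := Finset.inter_eq_right.2 h5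
    have h7 : (X.filter fun a => (e : PG) a = a) = Fx (e : PG) := by
      rw [← h6]
      ext a
      simp [mem_Fx]
    have h8 := card_modEq_fix (e : PG) (p := 5) (by rw [← ho]; exact pow_orderOf_eq_one _) X
      (fun a ha => apply_mem_of_StS heX ha)
    rw [octads_card hX, h7, hF] at h8
    revert h8
    decide
  obtain ⟨v, hvX, hev⟩ := h4
  obtain ⟨g, hg, hgx⟩ := htr x v
  -- the translate of the octad
  let Y : Finset GolayPt := g • X
  have hY : Y ∈ octads := smul_mem_octads (hA hg) hX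
  have heY : (e : PG) ∈ StS Y := by
    have h6 : g⁻¹ * (e : PG) * g ∈ StS X := by
      apply hT _ (A.mul_mem (A.mul_mem (A.inv_mem hg) heA) hg)
      show g⁻¹ ((e : PG) (g x)) = x
      rw [hgx, hev, ← hgx]
      simp
    have h7 : (g⁻¹ * (e : PG) * g) • X = X := h6
    show (e : PG) • (g • X) = g • X
    rw [← mul_smul]
    have h8 : (e : PG) * g = g * (g⁻¹ * (e : PG) * g) := by group
    rw [h8, mul_smul, h7]
  have h5' := three_le_octad_fix ho hY heY
  have hdisj : Disjoint X Y := by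
    rw [Finset.disjoint_left]
    intro a ha hb
    obtain ⟨u, hu, rfl⟩ := Finset.mem_smul_finset.1 hb
    have h6 := hblock g hg u hu ha
    have h7 : g x ∈ X := apply_mem_of_StS h6 hxX
    rw [hgx] at h7
    exact hvX h7
  have h6 : (X ∩ Fx (e : PG)).card + (Y ∩ Fx (e : PG)).card ≤ (Fx (e : PG)).card := by
    rw [← Finset.card_union_of_disjoint]
    · apply Finset.card_le_card
      intro a ha
      rcases Finset.mem_union.1 ha with h | h <;> exact (Finset.mem_inter.1 h).2
    · exact Finset.disjoint_of_subset_left Finset.inter_subset_left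
        (Finset.disjoint_of_subset_right Finset.inter_subset_left hdisj)
  omega

/-- A proper subgroup of a simple group has factorial of its index divisible by the order. -/
theorem dvd_factorial_index {G : Type*} [Group G] [Finite G] [IsSimpleGroup G] (K : Subgroup G)
    (hK : K ≠ ⊤) : Nat.card G ∣ K.index.factorial := by
  classical
  let f : G →* Equiv.Perm (G ⧸ K) := MulAction.toPermHom G (G ⧸ K)
  have hker : f.ker = ⊥ := by
    rcases IsSimpleGroup.eq_bot_or_eq_top_of_normal f.ker inferInstance with h | h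
    · exact h
    · exfalso
      apply hK
      rw [eq_top_iff]
      intro g _
      have h1 : g ∈ f.ker := by rw [h]; trivial
      have h2 : f g = 1 := h1
      have h3 : g • (QuotientGroup.mk 1 : G ⧸ K) = QuotientGroup.mk 1 := by
        have := congrArg (fun e : Equiv.Perm (G ⧸ K) => e (QuotientGroup.mk 1)) h2
        exact this
      have h4 : (QuotientGroup.mk g : G ⧸ K) = QuotientGroup.mk 1 := by
        rw [← h3, MulAction.Quotient.smul_mk]
        simp
      have h5 := QuotientGroup.eq.1 h4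
      simpa using K.inv_mem h5
  have hinj : Function.Injective f := (MonoidHom.ker_eq_bot_iff f).1 hker
  have h1 : Nat.card G ∣ Nat.card (Equiv.Perm (G ⧸ K)) := by
    have h2 := Subgroup.card_subgroup_dvd_card f.range
    have h3 : Nat.card f.range = Nat.card G := Nat.card_congr (MonoidHom.ofInjective hinj).toEquiv.symm
    rwa [h3] at h2
  rw [Nat.card_perm] at h1
  exact h1

/-- Three-point stabilisers are simple. -/
theorem simple_stab3 {p q r : GolayPt} (hpq : p ≠ q) (hpr : p ≠ r) (hqr : q ≠ r) :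
    IsSimpleGroup ↥(MulAction.stabilizer M24 p ⊓ MulAction.stabilizer M24 q ⊓
      MulAction.stabilizer M24 r) := by
  obtain ⟨e⟩ := Cfsg.Agent.Lib.M24.M21PSL.exists_iso hpq hpr hqr
  haveI : IsSimpleGroup (Matrix.ProjectiveSpecialLinearGroup (Fin 3) Cfsg.Agent.Lib.Classical.FF4.F4) :=
    Cfsg.Agent.Lib.Classical.PSL_isSimple (by simp)
  exact e.isSimpleGroup

/-- No subgroup of index three in a three-point stabiliser. -/
theorem no_6720 {K : Subgroup PG} {p q r : GolayPt} (hpq : p ≠ q) (hpr : p ≠ r) (hqr : q ≠ r)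
    (hK : K ≤ M24) (h1 : ∀ k ∈ K, k p = p) (h2 : ∀ k ∈ K, k q = q) (h3 : ∀ k ∈ K, k r = r)
    (hc : Nat.card K = 6720) : False := by
  classical
  let M : Subgroup ↥M24 := MulAction.stabilizer M24 p ⊓ MulAction.stabilizer M24 q ⊓ MulAction.stabilizer M24 r
  haveI : IsSimpleGroup ↥M := simple_stab3 hpq hpr hqr
  have hM : Nat.card M = 20160 := Cfsg.Agent.Lib.M24.M21PSL.card_stab3 hpq hpr hqr
  let f : ↥M →* PG := M24.subtype.comp M.subtype
  have hf : Function.Injective f := by
    intro a b hab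
    apply Subtype.ext
    apply Subtype.ext
    exact hab
  let K' : Subgroup ↥M := K.comap f
  have hmap : K'.map f = K := by
    apply Subgroup.map_comap_eq_self
    intro k hk
    exact ⟨⟨⟨k, hK hk⟩, ⟨⟨h1 k hk, h2 k hk⟩, h3 k hk⟩⟩, rfl⟩
  have hc' : Nat.card K' = 6720 := by
    have h5 : Nat.card (K'.map f) = Nat.card K' := Subgroup.card_map_of_injective hf
    rw [hmap, hc] at h5
    exact h5.symm
  have hi := K'.card_mul_index
  rw [hM, hc'] at hi
  have hidx : K'.index = 3 := by omega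
  have hne : K' ≠ ⊤ := by
    intro h
    rw [h, Subgroup.index_top] at hidx
    omega
  have h4 := dvd_factorial_index K' hne
  rw [hM, hidx] at h4
  revert h4
  decide

/-- The pointwise stabiliser of three points is transitive on the rest. -/
theorem Kfix_trans {D : Finset GolayPt} {n m : ℕ} (hD : D.card + 1 ≤ 5)
    (hn : n * (24).descFactorial D.card = 244823040)
    (hm : m * (24).descFactorial (D.card + 1) = 244823040) (hpos : 0 < m)
    (hnm : n = (24 - D.card) * m) {u v : GolayPt} (hu : u ∉ D) (hv : v ∉ D) :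
    ∃ k ∈ M24, (∀ d ∈ D, k d = d) ∧ k u = v := by
  classical
  have h1 := Orb_card_mul (Kfix D) u
  have h2 : Kfix D ⊓ Stb u = Kfix (insert u D) := by
    ext g
    rw [Subgroup.mem_inf, mem_Kfix, mem_Kfix, mem_Stb]
    constructor
    · rintro ⟨⟨h3, h4⟩, h5⟩
      refine ⟨h3, fun a ha => ?_⟩
      rcases Finset.mem_insert.1 ha with rfl | ha
      · exact h5
      · exact h4 a ha
    · rintro ⟨h3, h4⟩
      exact ⟨⟨h3, fun a ha => h4 a (Finset.mem_insert_of_mem ha)⟩, h4 u (Finset.mem_insert_self _ _)⟩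
  rw [h2, card_Kfix_E D n (by omega) hn,
    card_Kfix_E (insert u D) m (by rw [Finset.card_insert_of_notMem hu]; exact hD)
      (by rw [Finset.card_insert_of_notMem hu]; exact hm), hnm] at h1
  have h3 : (Orb (Kfix D) u).card = 24 - D.card := Nat.eq_of_mul_eq_mul_right hpos h1
  have h4 : Orb (Kfix D) u ⊆ Dᶜ := by
    intro a ha
    obtain ⟨t, ht, rfl⟩ := mem_Orb.1 ha
    rw [Finset.mem_compl]
    intro h5
    have h6 := (mem_Kfix.1 ht).2
    have h7 := h6 _ h5
    have h8 : t u = u := by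
      by_contra hne
      have := t.injective h7
      exact hne this
    rw [h8] at h5
    exact hu h5
  have h5 : Orb (Kfix D) u = Dᶜ := by
    apply Finset.eq_of_subset_of_card_le h4
    rw [h3, Finset.card_compl]
    exact le_of_eq (by rfl)
  have h6 : v ∈ Orb (Kfix D) u := by
    rw [h5]
    exact Finset.mem_compl.2 hv
  obtain ⟨k, hk, e⟩ := mem_Orb.1 h6
  exact ⟨k, (mem_Kfix.1 hk).1, (mem_Kfix.1 hk).2, e⟩

/-- The block property of a small invariant set containing a point, if the pointwise stabiliser of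
the set lies in the group. -/
theorem block_small {A : Subgroup PG} {D : Finset GolayPt} {x : GolayPt} (hxD : x ∈ D)
    (htr : ∀ a b, ∃ g ∈ A, g a = b) (hT : ∀ t ∈ A, t x = x → t ∈ StS D)
    (hK : ∀ k ∈ M24, (∀ d ∈ D, k d = d) → k ∈ A)
    (hmove : ∀ u v, u ∉ D → v ∉ D → ∃ k ∈ M24, (∀ d ∈ D, k d = d) ∧ k u = v)
    (hsmall : D.card < (Dᶜ).card) {g : PG} (hg : g ∈ A) {u : GolayPt} (hu : u ∈ D) (hgu : g u ∈ D) :
    g ∈ StS D := by
  classical
  -- the case `u = x`
  have key : ∀ h ∈ A, h x ∈ D → h ∈ StS D := by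
    intro h hh hp
    apply mem_StS_of_forall
    intro a ha
    by_contra hna
    -- `h a` off `D` is moved everywhere off `D`, staying in `h • D`
    have hall : ∀ v, v ∉ D → v ∈ h • D := by
      intro v hv
      obtain ⟨k, hk, hkf, e⟩ := hmove _ v hna hv
      have h3 : h⁻¹ * k * h ∈ StS D := by
        apply hT _ (A.mul_mem (A.mul_mem (A.inv_mem hh) (hK k hk hkf)) hh)
        show h⁻¹ (k (h x)) = x
        rw [hkf _ hp]
        simp
      have h4 : (h⁻¹ * k * h) a ∈ D := apply_mem_of_StS h3 ha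
      rw [Finset.mem_smul_finset]
      refine ⟨_, h4, ?_⟩
      show h (h⁻¹ (k (h a))) = v
      simp [e]
    have h5 : Dᶜ ⊆ h • D := fun v hv => hall v (Finset.mem_compl.1 hv)
    have h6 := Finset.card_le_card h5
    rw [Finset.card_smul_finset] at h6
    omega
  obtain ⟨h0, hh0, e0⟩ := htr x u
  have h1 : h0 ∈ StS D := key h0 hh0 (by rw [e0]; exact hu)
  have h2 : g * h0 ∈ StS D := key _ (A.mul_mem hg hh0) (by
    show g (h0 x) ∈ D
    rw [e0]
    exact hgu)
  have h3 : g = (g * h0) * h0⁻¹ := by group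
  rw [h3]
  exact (StS D).mul_mem h2 ((StS D).inv_mem h1)

end Cfsg.Agent.Lib.GS1.M24I
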