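import Mathlib
import Cfsg.Agent.Lib.GS1.M24Idx2

/-!
# Subgroups of small index of `M24`: the final cases
-/

set_option autoImplicit false

namespace Cfsg.Agent.Lib.GS1.M24I

open Cfsg Cfsg.Agent.Lib.Compute Cfsg.Agent.Lib.Golay Cfsg.Agent.Lib.M24 Subgroup
open Cfsg.Agent.Lib.GS1.M22
open scoped Pointwise

/-- Transitivity gives the order of point stabilisers. -/
theorem card_T_of_trans {A : Subgroup PG} (htr : ∀ a b, ∃ g ∈ A, g a = b) (x : GolayPt) :
    24 * Nat.card ↥(A ⊓ Stb x) = Nat.card A := by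
  classical
  have h1 := Orb_card_mul A x
  have h2 : Orb A x = Finset.univ := by
    ext y
    simp only [Finset.mem_univ, iff_true]
    exact mem_Orb.2 (htr x y)
  rw [h2] at h1
  exact h1

/-- The data of the transitive case. -/
theorem trans_data {A : Subgroup PG} (hA : A ≤ M24) (h1024 : 1024 ∣ Nat.card A) :
    ∃ P ≤ A, ∃ X ∈ octads, P ≤ StS X ∧ Nat.card P = 1024 ∧ (∀ a ∈ X, ∀ b ∈ X, ∃ g ∈ P, g a = b) ∧
      ∃ x ∈ X, ∃ q, q ∉ X ∧ (∀ a b, a ∉ X → b ∉ X → ∃ t ∈ A ⊓ Stb x, t a = b) ∧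
        (A ≤ StS X ∨ ∀ a b, ∃ g ∈ A, g a = b) := by
  classical
  obtain ⟨P, hPA, X, hX, hPX, hPc, h1, h2⟩ := sylow_data hA h1024
  have hne : X.Nonempty := by
    rw [← Finset.card_pos, octads_card hX]
    norm_num
  obtain ⟨x, hx⟩ := hne
  obtain ⟨q, hq⟩ := exists_not_mem_octad hX
  refine ⟨P, hPA, X, hX, hPX, hPc, h1, x, hx, q, hq, fun a b ha hb => ?_, ?_⟩
  · obtain ⟨g, hg, e1, e2⟩ := h2 x hx a b ha hb
    exact ⟨g, ⟨hPA hg, e1⟩, e2⟩
  · by_cases hle : A ≤ StS X
    · exact Or.inl hle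
    · exact Or.inr (trans_of_not_le hPA h1 h2 ⟨x, hx⟩ hle)

/-- When the rest is all of the octad minus the point, the group fixes the octad. -/
theorem le_StS_of_seven {T : Subgroup PG} {x q : GolayPt} {X : Finset GolayPt}
    (hx : ∀ t ∈ T, t x = x) (hX : X ∈ octads) (hxX : x ∈ X) (hq : q ∉ X)
    (htr : ∀ a b, a ∉ X → b ∉ X → ∃ t ∈ T, t a = b)
    (h : (RestR T x q X).card = 7) : T ≤ StS X := by
  classical
  intro t ht
  have h1 : RestR T x q X = X.erase x := by
    apply Finset.eq_of_subset_of_card_le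
    · exact fun a ha => Finset.mem_erase.2 ⟨(mem_RestR.1 ha).2.1, (mem_RestR.1 ha).1⟩
    · rw [h, Finset.card_erase_of_mem hxX, octads_card hX]
  apply mem_StS_of_forall
  intro a ha
  by_cases hax : a = x
  · rw [hax, hx t ht]
    exact hxX
  · have h2 : a ∈ RestR T x q X := by
      rw [h1]
      exact Finset.mem_erase.2 ⟨hax, ha⟩
    exact (mem_RestR.1 (RestR_inv hx hX hq htr ht h2)).1

/-- No large group with a rest of size three. -/
theorem card_le_of_three {T : Subgroup PG} (hT : T ≤ M24) {x q : GolayPt} {X : Finset GolayPt}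
    (hx : ∀ t ∈ T, t x = x) (hX : X ∈ octads) (hq : q ∉ X)
    (htr : ∀ a b, a ∉ X → b ∉ X → ∃ t ∈ T, t a = b) (h : (RestR T x q X).card = 3) :
    Nat.card T ≤ 5760 := by
  have hinv : ∀ t ∈ T, ∀ a ∈ RestR T x q X, t a ∈ RestR T x q X := fun t ht a ha =>
    RestR_inv hx hX hq htr ht ha
  have hxR : x ∉ RestR T x q X := fun h => (mem_RestR.1 h).2.1 rfl
  obtain ⟨h1, h2⟩ := card_dvd_of_inv hT hx hinv hxR (n := 960) (by rw [h]; norm_num) (by rw [h]; decide)
  rw [h] at h2
  have h3 := Nat.le_of_dvd (by norm_num) h1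
  have h4 : Nat.card T ≤ Nat.card ↥(T ⊓ fixingSubgroup PG (RestR T x q X : Set GolayPt)) * 6 :=
    Nat.le_of_dvd (Nat.mul_pos Nat.card_pos (by norm_num)) h2
  omega

/-- The subgroup of index 253 does not exist. -/
theorem no_253 {A : Subgroup PG} (hA : A ≤ M24) (hc : Nat.card A = 967680) : False := by
  classical
  obtain ⟨P, hPA, X, hX, hPX, hPc, h1, x, hxX, q, hq, htr', hcase⟩ :=
    trans_data hA (by rw [hc]; norm_num)
  rcases hcase with hle | htr
  · have h2 : A ≤ M24 ⊓ StS X := le_inf hA hle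
    have h3 := Subgroup.card_dvd_of_le h2
    rw [hc, card_St X hX] at h3
    revert h3
    decide
  have hT := card_T_of_trans htr x
  rw [hc] at hT
  have hTc : Nat.card ↥(A ⊓ Stb x) = 40320 := by omega
  have hTM : A ⊓ Stb x ≤ M24 := inf_le_left.trans hA
  have hfx : ∀ t ∈ A ⊓ Stb x, t x = x := fun t ht => ht.2
  rcases RestR_cases hTM hfx hX hxX hq htr' (by rw [hTc]; norm_num) (by rw [hTc]; norm_num)
    (by rw [hTc]; norm_num) (by rw [hTc]; norm_num) with h | h | h
  · have h2 := le_StS_of_seven hfx hX hxX hq htr' h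
    exact block_false hA hPA hX hPX h1 htr hxX (fun t ht e => h2 ⟨ht, e⟩) (by rw [hTc]; norm_num)
  · have h2 := card_le_of_three hTM hfx hX hq htr' h
    omega
  · -- the pair
    have hinv : ∀ t ∈ A ⊓ Stb x, ∀ a ∈ RestR (A ⊓ Stb x) x q X, t a ∈ RestR (A ⊓ Stb x) x q X :=
      fun t ht a ha => RestR_inv hfx hX hq htr' ht ha
    have hxR : x ∉ RestR (A ⊓ Stb x) x q X := fun h => (mem_RestR.1 h).2.1 rfl
    set R := RestR (A ⊓ Stb x) x q X with hRdef
    obtain ⟨h2, h3⟩ := card_dvd_of_inv hTM hfx hinv hxR (n := 20160) (by rw [h]; norm_num)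
      (by rw [h]; decide)
    rw [h, hTc] at h3
    have h4 := Nat.le_of_dvd (by norm_num) h2
    have h5 : 40320 ≤ Nat.card ↥((A ⊓ Stb x) ⊓ fixingSubgroup PG (R : Set GolayPt)) * 2 :=
      Nat.le_of_dvd (Nat.mul_pos Nat.card_pos (by norm_num)) h3
    have h6 : Nat.card ↥((A ⊓ Stb x) ⊓ fixingSubgroup PG (R : Set GolayPt)) = 20160 := by omega
    let D : Finset GolayPt := insert x R
    have hD : D.card = 3 := by
      show (insert x R).card = 3
      rw [Finset.card_insert_of_notMem hxR, h]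
    have h7 : (A ⊓ Stb x) ⊓ fixingSubgroup PG (R : Set GolayPt) = Kfix D := by
      apply Subgroup.eq_of_le_of_card_ge (inf_fix_le_Kfix hTM hfx R)
      rw [h6, card_Kfix_E D 20160 (by omega) (by rw [hD]; decide)]
    have hK : ∀ k ∈ M24, (∀ d ∈ D, k d = d) → k ∈ A := by
      intro k hk hf
      have h8 : k ∈ Kfix D := mem_Kfix.2 ⟨hk, hf⟩
      rw [← h7] at h8
      exact h8.1.1
    have hTD : ∀ t ∈ A, t x = x → t ∈ StS D := by
      intro t ht e
      apply mem_StS_of_forall
      intro a ha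
      rcases Finset.mem_insert.1 ha with rfl | ha
      · rw [e]
        exact Finset.mem_insert_self _ _
      · exact Finset.mem_insert_of_mem (hinv t ⟨ht, e⟩ a ha)
    have hxD : x ∈ D := Finset.mem_insert_self _ _
    have hmove : ∀ u v, u ∉ D → v ∉ D → ∃ k ∈ M24, (∀ d ∈ D, k d = d) ∧ k u = v := by
      intro u v hu hv
      exact Kfix_trans (D := D) (n := 20160) (m := 960) (by rw [hD]; norm_num) (by rw [hD]; decide)
        (by rw [hD]; decide) (by norm_num) (by rw [hD]) hu hv
    have hsmall : D.card < (Dᶜ).card := by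
      rw [Finset.card_compl, hD]
      decide
    have hDX : D ⊆ X := by
      intro a ha
      rcases Finset.mem_insert.1 ha with rfl | ha
      · exact hxX
      · exact (mem_RestR.1 ha).1
    -- the 2-group is transitive on `D`
    let Q : Subgroup PG := P ⊓ StS D
    have h8 : Orb Q x = D := by
      ext a
      rw [mem_Orb]
      constructor
      · rintro ⟨t, ht, rfl⟩
        exact apply_mem_of_StS ht.2 hxD
      · intro ha
        obtain ⟨g, hg, e⟩ := h1 x hxX a (hDX ha)
        refine ⟨g, ⟨hg, ?_⟩, e⟩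
        exact block_small hxD htr hTD hK hmove hsmall (hPA hg) hxD (by rw [e]; exact ha)
    have h9 := Orb_card_dvd Q x
    rw [h8, hD] at h9
    have h10 : Nat.card Q ∣ 1024 := by
      rw [← hPc]
      exact Subgroup.card_dvd_of_le inf_le_left
    have h11 := h9.trans h10
    revert h11
    decide

/-- The subgroups of index 759. -/
theorem eq_759 {A : Subgroup PG} (hA : A ≤ M24) (hc : Nat.card A = 322560) :
    ∃ X ∈ octads, A ≤ StS X := by
  classical
  obtain ⟨P, hPA, X, hX, hPX, hPc, h1, x, hxX, q, hq, htr', hcase⟩ :=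
    trans_data hA (by rw [hc]; norm_num)
  rcases hcase with hle | htr
  · exact ⟨X, hX, hle⟩
  exfalso
  have hT := card_T_of_trans htr x
  rw [hc] at hT
  have hTc : Nat.card ↥(A ⊓ Stb x) = 13440 := by omega
  have hTM : A ⊓ Stb x ≤ M24 := inf_le_left.trans hA
  have hfx : ∀ t ∈ A ⊓ Stb x, t x = x := fun t ht => ht.2
  rcases RestR_cases hTM hfx hX hxX hq htr' (by rw [hTc]; norm_num) (by rw [hTc]; norm_num)
    (by rw [hTc]; norm_num) (by rw [hTc]; norm_num) with h | h | h
  · have h2 := le_StS_of_seven hfx hX hxX hq htr' h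
    exact block_false hA hPA hX hPX h1 htr hxX (fun t ht e => h2 ⟨ht, e⟩) (by rw [hTc]; norm_num)
  · have h2 := card_le_of_three hTM hfx hX hq htr' h
    omega
  · have hinv : ∀ t ∈ A ⊓ Stb x, ∀ a ∈ RestR (A ⊓ Stb x) x q X, t a ∈ RestR (A ⊓ Stb x) x q X :=
      fun t ht a ha => RestR_inv hfx hX hq htr' ht ha
    have hxR : x ∉ RestR (A ⊓ Stb x) x q X := fun h => (mem_RestR.1 h).2.1 rfl
    set R := RestR (A ⊓ Stb x) x q X with hRdef
    obtain ⟨h2, h3⟩ := card_dvd_of_inv hTM hfx hinv hxR (n := 20160) (by rw [h]; norm_num)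
      (by rw [h]; decide)
    rw [h, hTc] at h3
    have h4 := Nat.le_of_dvd (by norm_num) h2
    set K := (A ⊓ Stb x) ⊓ fixingSubgroup PG (R : Set GolayPt) with hKdef
    have h5 : 13440 ≤ Nat.card K * 2 :=
      Nat.le_of_dvd (Nat.mul_pos Nat.card_pos (by norm_num)) h3
    have h6 : Nat.card K ∣ 13440 := by
      rw [← hTc]
      exact Subgroup.card_dvd_of_le inf_le_left
    have h7 : Nat.card K = 6720 := by
      have h8 : Nat.card K ≤ 13440 := Nat.le_of_dvd (by norm_num) h6
      have h9 : Nat.card K ≠ 13440 := by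
        intro h10
        rw [h10] at h2
        revert h2
        decide
      obtain ⟨m, hm⟩ := h6
      have hm1 : m = 1 ∨ m = 2 := by
        have hm2 : m ≤ 2 := by
          by_contra hlt
          have hm3 : 3 ≤ m := by omega
          have : Nat.card K * 3 ≤ Nat.card K * m := Nat.mul_le_mul_left _ hm3
          omega
        have hm0 : m ≠ 0 := by
          rintro rfl
          omega
        omega
      rcases hm1 with rfl | rfl <;> omega
    obtain ⟨a, b, hab, hR⟩ := Finset.card_eq_two.1 h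
    have hxa : x ≠ a := fun e => hxR (by rw [hR, e]; simp)
    have hxb : x ≠ b := fun e => hxR (by rw [hR, e]; simp)
    refine no_6720 hxa hxb hab (K := K) ((inf_le_left.trans inf_le_left).trans hA) ?_ ?_ ?_ h7
    · exact fun k hk => hk.1.2
    · intro k hk
      exact (mem_fixingSubgroup_iff PG).1 hk.2 a (by rw [hR]; simp)
    · intro k hk
      exact (mem_fixingSubgroup_iff PG).1 hk.2 b (by rw [hR]; simp)

end Cfsg.Agent.Lib.GS1.M24I
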