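import Mathlib
import Cfsg.Agent.Lib.GS1.M24Idx3

/-!
# Subgroups of small index of `M24`: sextets and pairs
-/

set_option autoImplicit false

namespace Cfsg.Agent.Lib.GS1.M24I

open Cfsg Cfsg.Agent.Lib.Compute Cfsg.Agent.Lib.Golay Cfsg.Agent.Lib.M24 Subgroup
open Cfsg.Agent.Lib.GS1.M22
open scoped Pointwise

/-- A transitive group containing the pointwise stabiliser of a tetrad and with point stabilisers
fixing the tetrad permutes a sextet. -/
theorem sextet_block {A : Subgroup PG} (hA : A ≤ M24) (htr : ∀ a b, ∃ g ∈ A, g a = b)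
    {D : Finset GolayPt} {x : GolayPt} (hD : D.card = 4) (hxD : x ∈ D)
    (hT : ∀ t ∈ A, t x = x → t ∈ StS D) (hK : ∀ k ∈ M24, (∀ d ∈ D, k d = d) → k ∈ A) :
    ∃ S ∈ sextets, ∀ g : ↥M24, (g : PG) ∈ A → g • S = S := by
  classical
  have hmove : ∀ u v, u ∉ D → v ∉ D → ∃ k ∈ M24, (∀ d ∈ D, k d = d) ∧ k u = v := by
    intro u v hu hv
    exact Kfix_trans (D := D) (n := 960) (m := 48) (by omega) (by rw [hD]; decide)
      (by rw [hD]; decide) (by norm_num) (by rw [hD]) hu hv
  have hsmall : D.card < (Dᶜ).card := by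
    rw [Finset.card_compl, hD]
    decide
  have hblock : ∀ g ∈ A, ∀ u ∈ D, g u ∈ D → g ∈ StS D := fun g hg u hu h =>
    block_small hxD htr hT hK hmove hsmall hg hu h
  let S : Finset (Finset GolayPt) := Finset.univ.filter (fun t => ∃ g ∈ A, g • D = t)
  have mem_S : ∀ t, t ∈ S ↔ ∃ g ∈ A, g • D = t := by
    intro t
    simp [S]
  have hmeet : ∀ g ∈ A, ∀ h ∈ A, ∀ a, a ∈ g • D → a ∈ h • D → g • D = h • D := by
    intro g hg h hh a ha hb
    obtain ⟨u, hu, rfl⟩ := Finset.mem_smul_finset.1 ha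
    obtain ⟨v, hv, e⟩ := Finset.mem_smul_finset.1 hb
    have h1 : h⁻¹ * g ∈ StS D := by
      apply hblock _ (A.mul_mem (A.inv_mem hh) hg) u hu
      show h⁻¹ (g u) ∈ D
      have h2 : g u = h v := e.symm
      rw [h2]
      simpa using hv
    have h2 : (h⁻¹ * g) • D = D := h1
    rw [mul_smul] at h2
    calc g • D = h • (h⁻¹ • (g • D)) := (smul_inv_smul h _).symm
      _ = h • D := by rw [h2]
  have hpair : ∀ g ∈ A, g • D ≠ D → D ∪ g • D ∈ octads := by
    intro g hg hne
    have hzD : g x ∉ D := fun h => hne (hblock g hg x hxD h)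
    obtain ⟨O, hO, hE⟩ := octads_exists (insert (g x) D) (by rw [Finset.card_insert_of_notMem hzD, hD])
    have hDO : D ⊆ O := (Finset.subset_insert _ _).trans hE
    have hzO : g x ∈ O := hE (Finset.mem_insert_self _ _)
    have hcard : (g • D).card = 4 := by rw [Finset.card_smul_finset, hD]
    have hBO : g • D ⊆ O := by
      intro u hu
      by_contra huO
      have h1 : ((Oᶜ) \ (g • D)).Nonempty := by
        rw [← Finset.card_pos]
        have h2 := Finset.le_card_sdiff (g • D) Oᶜ
        rw [card_compl_octad hO, hcard] at h2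
        omega
      obtain ⟨u', hu'⟩ := h1
      obtain ⟨h3, h4⟩ := Finset.mem_sdiff.1 hu'
      have h3' : u' ∉ O := Finset.mem_compl.1 h3
      obtain ⟨k, hk, hkf, e⟩ := exists_fix_octad hO huO h3'
      have hkA : k ∈ A := hK k hk (fun d hd => hkf d (hDO hd))
      have h5 : g⁻¹ * k * g ∈ StS D := by
        apply hT _ (A.mul_mem (A.mul_mem (A.inv_mem hg) hkA) hg)
        show g⁻¹ (k (g x)) = x
        rw [hkf _ hzO]
        simp
      obtain ⟨d, hd, rfl⟩ := Finset.mem_smul_finset.1 hu
      have h6 : (g⁻¹ * k * g) d ∈ D := apply_mem_of_StS h5 hd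
      apply h4
      rw [Finset.mem_smul_finset]
      refine ⟨_, h6, ?_⟩
      show g (g⁻¹ (k (g d))) = u'
      simpa using e
    have hdisj : Disjoint D (g • D) := by
      rw [Finset.disjoint_left]
      intro a ha hb
      apply hne
      have h1 := hmeet g hg 1 A.one_mem a hb (by rw [one_smul]; exact ha)
      rwa [one_smul] at h1
    have h7 : D ∪ g • D = O := by
      apply Finset.eq_of_subset_of_card_le (Finset.union_subset hDO hBO)
      rw [octads_card hO, Finset.card_union_of_disjoint hdisj, hD, hcard]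
    rw [h7]
    exact hO
  have hcover : S.biUnion id = Finset.univ := by
    ext a
    simp only [Finset.mem_biUnion, id, Finset.mem_univ, iff_true]
    obtain ⟨g, hg, rfl⟩ := htr x a
    exact ⟨g • D, (mem_S _).2 ⟨g, hg, rfl⟩, Finset.smul_mem_smul_finset hxD⟩
  have hcardt : ∀ t ∈ S, t.card = 4 := by
    intro t ht
    obtain ⟨g, -, rfl⟩ := (mem_S t).1 ht
    rw [Finset.card_smul_finset, hD]
  have hS6 : S.card = 6 := by
    have h1 : (S.biUnion id).card = ∑ t ∈ S, (id t).card := by
      apply Finset.card_biUnion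
      intro t ht u hu hne
      rw [Function.onFun, id, id, Finset.disjoint_left]
      intro a ha hb
      obtain ⟨g, hg, rfl⟩ := (mem_S t).1 ht
      obtain ⟨h, hh, rfl⟩ := (mem_S u).1 hu
      exact hne (hmeet g hg h hh a ha hb)
    have h2' : ∑ t ∈ S, (id t).card = ∑ _t ∈ S, 4 := Finset.sum_congr rfl (fun t ht => hcardt t ht)
    rw [hcover, h2', Finset.sum_const] at h1
    have h2 : (Finset.univ : Finset GolayPt).card = 24 := by decide
    rw [h2] at h1
    simp only [smul_eq_mul] at h1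
    omega
  refine ⟨S, ⟨hS6, hcardt, ?_⟩, ?_⟩
  · intro t ht u hu hne
    obtain ⟨g, hg, rfl⟩ := (mem_S t).1 ht
    obtain ⟨h, hh, rfl⟩ := (mem_S u).1 hu
    have h1 : (g⁻¹ * h) • D ≠ D := by
      intro e
      apply hne
      rw [mul_smul] at e
      calc g • D = g • (g⁻¹ • (h • D)) := by rw [e]
        _ = h • D := smul_inv_smul g _
    have h2 := hpair _ (A.mul_mem (A.inv_mem hg) hh) h1
    have h3 := smul_mem_octads (hA hg) h2
    rw [Finset.smul_finset_union, mul_smul, smul_inv_smul] at h3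
    exact h3
  · intro g hgA
    apply Finset.eq_of_subset_of_card_le
    · intro t ht
      obtain ⟨t', ht', rfl⟩ := Finset.mem_smul_finset.1 ht
      obtain ⟨h, hh, rfl⟩ := (mem_S t').1 ht'
      refine (mem_S _).2 ⟨(g : PG) * h, A.mul_mem hgA hh, ?_⟩
      rw [mul_smul]
      rfl
    · rw [Finset.card_smul_finset]

/-- The subgroups of index 1771. -/
theorem eq_1771 {A : Subgroup PG} (hA : A ≤ M24) (hc : Nat.card A = 138240) :
    ∃ S ∈ sextets, ∀ g : ↥M24, (g : PG) ∈ A → g • S = S := by
  classical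
  obtain ⟨P, hPA, X, hX, hPX, hPc, h1, x, hxX, q, hq, htr', hcase⟩ :=
    trans_data hA (by rw [hc]; norm_num)
  rcases hcase with hle | htr
  · exfalso
    have h2 : A ≤ M24 ⊓ StS X := le_inf hA hle
    have h3 := Subgroup.card_dvd_of_le h2
    rw [hc, card_St X hX] at h3
    revert h3
    decide
  have hT := card_T_of_trans htr x
  rw [hc] at hT
  have hTc : Nat.card ↥(A ⊓ Stb x) = 5760 := by omega
  have hTM : A ⊓ Stb x ≤ M24 := inf_le_left.trans hA
  have hfx : ∀ t ∈ A ⊓ Stb x, t x = x := fun t ht => ht.2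
  rcases RestR_cases hTM hfx hX hxX hq htr' (by rw [hTc]; norm_num) (by rw [hTc]; norm_num)
    (by rw [hTc]; norm_num) (by rw [hTc]; norm_num) with h | h | h
  · exfalso
    have h2 := le_StS_of_seven hfx hX hxX hq htr' h
    exact block_false hA hPA hX hPX h1 htr hxX (fun t ht e => h2 ⟨ht, e⟩) (by rw [hTc]; norm_num)
  · have hinv : ∀ t ∈ A ⊓ Stb x, ∀ a ∈ RestR (A ⊓ Stb x) x q X, t a ∈ RestR (A ⊓ Stb x) x q X :=
      fun t ht a ha => RestR_inv hfx hX hq htr' ht ha
    have hxR : x ∉ RestR (A ⊓ Stb x) x q X := fun h => (mem_RestR.1 h).2.1 rfl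
    set R := RestR (A ⊓ Stb x) x q X with hRdef
    obtain ⟨h2, h3⟩ := card_dvd_of_inv hTM hfx hinv hxR (n := 960) (by rw [h]; norm_num)
      (by rw [h]; decide)
    rw [h, hTc] at h3
    have h4 := Nat.le_of_dvd (by norm_num) h2
    have h5 : 5760 ≤ Nat.card ↥((A ⊓ Stb x) ⊓ fixingSubgroup PG (R : Set GolayPt)) * 6 :=
      Nat.le_of_dvd (Nat.mul_pos Nat.card_pos (by norm_num)) h3
    have h6 : Nat.card ↥((A ⊓ Stb x) ⊓ fixingSubgroup PG (R : Set GolayPt)) = 960 := by omega
    let D : Finset GolayPt := insert x R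
    have hD : D.card = 4 := by
      show (insert x R).card = 4
      rw [Finset.card_insert_of_notMem hxR, h]
    have h7 : (A ⊓ Stb x) ⊓ fixingSubgroup PG (R : Set GolayPt) = Kfix D := by
      apply Subgroup.eq_of_le_of_card_ge (inf_fix_le_Kfix hTM hfx R)
      rw [h6, card_Kfix_E D 960 (by omega) (by rw [hD]; decide)]
    have hK : ∀ k ∈ M24, (∀ d ∈ D, k d = d) → k ∈ A := by
      intro k hk hf
      have h8 : k ∈ Kfix D := mem_Kfix.2 ⟨hk, hf⟩
      rw [← h7] at h8
      exact h8.1.1
    have hTD : ∀ t ∈ A, t x = x → t ∈ StS D := by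
      intro t ht e
      apply mem_StS_of_forall
      intro a ha
      rcases Finset.mem_insert.1 ha with rfl | ha
      · rw [e]
        exact Finset.mem_insert_self _ _
      · exact Finset.mem_insert_of_mem (hinv t ⟨ht, e⟩ a ha)
    exact sextet_block hA htr hD (Finset.mem_insert_self _ _) hTD hK
  · exfalso
    have h2 := card_Orb_add_RestR hfx hX hxX hq htr'
    have h3 := Orb_card_dvd (A ⊓ Stb x) q
    rw [h] at h2
    have h4 : (Orb (A ⊓ Stb x) q).card = 21 := by omega
    rw [h4, hTc] at h3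
    revert h3
    decide

/-! ### The subgroups of index 276 -/

theorem fx_eleven {g : PG} (hg : g ∈ M24) (ho : orderOf g = 11) : (Fx g).card = 2 := by
  haveI : Fact (Nat.Prime 11) := ⟨by norm_num⟩
  have h1 := Fx_le_four hg (r := 11) (by norm_num) (by norm_num) ho
  have h2 := Fx_modEq g (p := 11) (by rw [← ho]; exact pow_orderOf_eq_one g)
  have h3 : (Fx g).card % 11 = 24 % 11 := h2.symm
  omega

theorem fx_seven {g : PG} (hg : g ∈ M24) (ho : orderOf g = 7) : (Fx g).card = 3 := by
  haveI : Fact (Nat.Prime 7) := ⟨by norm_num⟩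
  have h1 := Fx_le_four hg (r := 7) (by norm_num) (by norm_num) ho
  have h2 := Fx_modEq g (p := 7) (by rw [← ho]; exact pow_orderOf_eq_one g)
  have h3 : (Fx g).card % 7 = 24 % 7 := h2.symm
  omega

/-- The size of an orbit through a fixed point of an element of order 11. -/
theorem size_cases {T : Subgroup PG} (hT : T ≤ M24) {g k : PG} (hg : g ∈ T) (og : orderOf g = 11)
    (hk : k ∈ T) (ok : orderOf k = 7) {w : GolayPt} (hw : g w = w) (h23 : ¬ 23 ∣ Nat.card T) :
    ((Orb T w).card = 1 ∨ (Orb T w).card = 2 ∨ (Orb T w).card = 24) ∧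
      ((∀ a ∈ Orb T w, g a = a → a = w) → (Orb T w).card = 1) := by
  classical
  haveI : Fact (Nat.Prime 11) := ⟨by norm_num⟩
  haveI : Fact (Nat.Prime 7) := ⟨by norm_num⟩
  have h1 := card_modEq_fix g (p := 11) (by rw [← og]; exact pow_orderOf_eq_one g) (Orb T w)
    (fun a ha => Orb_apply ha hg)
  have h2 := card_modEq_fix k (p := 7) (by rw [← ok]; exact pow_orderOf_eq_one k) (Orb T w)
    (fun a ha => Orb_apply ha hk)
  have h3 : ((Orb T w).filter fun a => g a = a).card ≤ 2 := by
    rw [← fx_eleven (hT hg) og]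
    apply Finset.card_le_card
    intro a ha
    exact mem_Fx.2 (Finset.mem_filter.1 ha).2
  have h4 : ((Orb T w).filter fun a => k a = a).card ≤ 3 := by
    rw [← fx_seven (hT hk) ok]
    apply Finset.card_le_card
    intro a ha
    exact mem_Fx.2 (Finset.mem_filter.1 ha).2
  have h5 : 1 ≤ ((Orb T w).filter fun a => g a = a).card := by
    apply Finset.card_pos.2
    exact ⟨w, Finset.mem_filter.2 ⟨self_mem_Orb T w, hw⟩⟩
  have h6 : (Orb T w).card ≤ 24 := Finset.card_le_univ _
  have h7 : 1 ≤ (Orb T w).card := Finset.card_pos.2 ⟨w, self_mem_Orb T w⟩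
  have h8 : (Orb T w).card ≠ 23 := by
    intro h
    apply h23
    have h9 := Orb_card_dvd T w
    rwa [h] at h9
  have h1' : (Orb T w).card % 11 = ((Orb T w).filter fun a => g a = a).card % 11 := h1
  have h2' : (Orb T w).card % 7 = ((Orb T w).filter fun a => k a = a).card % 7 := h2
  constructor
  · omega
  · intro hall
    have h9 : ((Orb T w).filter fun a => g a = a).card ≤ 1 := by
      rw [Finset.card_le_one]
      intro a ha b hb
      obtain ⟨h10, h11⟩ := Finset.mem_filter.1 ha
      obtain ⟨h12, h13⟩ := Finset.mem_filter.1 hb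
      rw [hall a h10 h11, hall b h12 h13]
    omega

/-- Elements exist. -/
theorem exists_order {T : Subgroup PG} (p : ℕ) [Fact p.Prime] (h : p ∣ Nat.card T) :
    ∃ g ∈ T, orderOf g = p := by
  obtain ⟨e, he⟩ := exists_prime_orderOf_dvd_card' p h
  refine ⟨e, e.2, ?_⟩
  rw [← Subgroup.orderOf_coe] at he
  exact he

/-- A singleton orbit gives a fixed point. -/
theorem fix_of_card_one {T : Subgroup PG} {w : GolayPt} (h : (Orb T w).card = 1) {t : PG} (ht : t ∈ T) :
    t w = w := by
  have h1 := Finset.card_le_one.1 (le_of_eq h)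
  exact h1 _ (mem_Orb.2 ⟨t, ht, rfl⟩) _ (self_mem_Orb T w)

/-- No subgroup of order 36960 in a two-point stabiliser. -/
theorem no_36960 {T : Subgroup PG} (hT : T ≤ M24) {p q : GolayPt} (hpq : p ≠ q)
    (h1 : ∀ t ∈ T, t p = p) (h2 : ∀ t ∈ T, t q = q) (hc : Nat.card T = 36960) : False := by
  classical
  haveI := M24_isMultiplyPretransitive 2 (by norm_num)
  let x : Fin 2 ↪ GolayPt := ⟨![p, q], by
    intro i j h
    fin_cases i <;> fin_cases j <;> simp_all⟩
  let y : Fin 2 ↪ GolayPt := ⟨![none, some 0], by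
    intro i j h
    fin_cases i <;> fin_cases j <;> simp_all⟩
  obtain ⟨g, hg⟩ := MulAction.exists_smul_eq (↥M24) x y
  have hg0 : (g : PG) p = none := congrArg (fun e : Fin 2 ↪ GolayPt => e 0) hg
  have hg1 : (g : PG) q = some 0 := congrArg (fun e : Fin 2 ↪ GolayPt => e 1) hg
  let φ : PG →* PG := (MulAut.conj (g : PG)).toMonoidHom
  have hφ : Function.Injective φ := (MulAut.conj (g : PG)).injective
  let T' : Subgroup PG := T.map φ
  have hcT : Nat.card T' = Nat.card T := Subgroup.card_map_of_injective hφ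
  have hT' : ∀ σ ∈ T', InM22 σ := by
    rintro σ ⟨a, ha, rfl⟩
    have hinv1 : (g : PG)⁻¹ none = p := by
      rw [← hg0]
      simp
    have hinv2 : (g : PG)⁻¹ (some 0) = q := by
      rw [← hg1]
      simp
    refine ⟨?_, ?_, ?_⟩
    · exact M24.mul_mem (M24.mul_mem g.2 (hT ha)) (M24.inv_mem g.2)
    · show (g : PG) (a ((g : PG)⁻¹ none)) = none
      rw [hinv1, h1 a ha, hg0]
    · show (g : PG) (a ((g : PG)⁻¹ (some 0))) = some 0
      rw [hinv2, h2 a ha, hg1]
  have h3 := core hT' (by rw [hcT, hc]; norm_num)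
  rw [hcT, hc] at h3
  revert h3
  decide

/-- The subgroups of index 276. -/
theorem eq_276 {A : Subgroup PG} (hA : A ≤ M24) (hc : Nat.card A = 887040) :
    ∃ s : Finset GolayPt, s.card = 2 ∧ A ≤ StS s := by
  classical
  haveI : Fact (Nat.Prime 11) := ⟨by norm_num⟩
  haveI : Fact (Nat.Prime 7) := ⟨by norm_num⟩
  obtain ⟨g, hg, og⟩ := exists_order (T := A) 11 (by rw [hc]; norm_num)
  obtain ⟨k, hk, ok⟩ := exists_order (T := A) 7 (by rw [hc]; norm_num)
  obtain ⟨u, v, huv, hF⟩ := Finset.card_eq_two.1 (fx_eleven (hA hg) og)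
  have hu : g u = u := mem_Fx.1 (by rw [hF]; simp)
  have hv : g v = v := mem_Fx.1 (by rw [hF]; simp)
  have h23 : ¬ 23 ∣ Nat.card A := by rw [hc]; norm_num
  rcases (size_cases hA hg og hk ok hu h23).1 with h | h | h
  · -- two fixed points
    exfalso
    have hfu : ∀ t ∈ A, t u = u := fun t ht => fix_of_card_one h ht
    have h1 : (Orb A v).card = 1 := by
      apply (size_cases hA hg og hk ok hv h23).2
      intro a ha hga
      have h2 : a ∈ Fx g := mem_Fx.2 hga
      rw [hF] at h2
      rcases Finset.mem_insert.1 h2 with e' | h2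
      · exfalso
        rw [e'] at ha
        obtain ⟨t, ht, e⟩ := mem_Orb.1 ha
        apply huv
        exact (t.injective (e.trans (hfu t ht).symm)).symm
      · simpa using h2
    have hfv : ∀ t ∈ A, t v = v := fun t ht => fix_of_card_one h1 ht
    have h2 : A ≤ Kfix {u, v} := by
      intro t ht
      refine mem_Kfix.2 ⟨hA ht, fun a ha => ?_⟩
      rcases Finset.mem_insert.1 ha with rfl | ha
      · exact hfu t ht
      · rw [Finset.mem_singleton.1 ha]
        exact hfv t ht
    have h3 := Subgroup.card_dvd_of_le h2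
    rw [hc, card_Kfix_E {u, v} 443520 (by rw [Finset.card_pair huv]; norm_num)
      (by rw [Finset.card_pair huv]; decide)] at h3
    revert h3
    decide
  · exact ⟨Orb A u, h, fun t ht => mem_StS_of_forall fun a ha => Orb_apply ha ht⟩
  · -- transitive
    exfalso
    have htr : ∀ a b, ∃ t ∈ A, t a = b := by
      have hall : ∀ c, c ∈ Orb A u := by
        have h1 : Orb A u = Finset.univ := by
          apply Finset.eq_univ_of_card
          rw [h]
          rfl
        intro c
        rw [h1]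
        exact Finset.mem_univ _
      intro a b
      have h3 : b ∈ Orb A a := by
        rw [Orb_eq_of_mem (hall a)]
        exact hall b
      exact mem_Orb.1 h3
    have hT := card_T_of_trans htr u
    rw [hc] at hT
    have hTc : Nat.card ↥(A ⊓ Stb u) = 36960 := by omega
    have hTM : A ⊓ Stb u ≤ M24 := inf_le_left.trans hA
    obtain ⟨g', hg', og'⟩ := exists_order (T := A ⊓ Stb u) 11 (by rw [hTc]; norm_num)
    obtain ⟨k', hk', ok'⟩ := exists_order (T := A ⊓ Stb u) 7 (by rw [hTc]; norm_num)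
    obtain ⟨a, b, hab, hF'⟩ := Finset.card_eq_two.1 (fx_eleven (hTM hg') og')
    have huF : u ∈ Fx g' := mem_Fx.2 hg'.2
    -- the other fixed point
    obtain ⟨y, hyu, hFy⟩ : ∃ y, y ≠ u ∧ Fx g' = {u, y} := by
      rw [hF'] at huF
      rcases Finset.mem_insert.1 huF with rfl | h1
      · exact ⟨b, hab.symm, hF'⟩
      · rw [Finset.mem_singleton.1 h1]
        refine ⟨a, hab, ?_⟩
        rw [hF', Finset.pair_comm]
    have hy : g' y = y := mem_Fx.1 (by rw [hFy]; simp)
    have h23' : ¬ 23 ∣ Nat.card ↥(A ⊓ Stb u) := by rw [hTc]; norm_num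
    have h1 : (Orb (A ⊓ Stb u) y).card = 1 := by
      apply (size_cases hTM hg' og' hk' ok' hy h23').2
      intro c hc' hgc
      have h2 : c ∈ Fx g' := mem_Fx.2 hgc
      rw [hFy] at h2
      rcases Finset.mem_insert.1 h2 with e' | h2
      · exfalso
        rw [e'] at hc'
        obtain ⟨t, ht, e⟩ := mem_Orb.1 hc'
        apply hyu
        have h3 : t u = u := ht.2
        exact t.injective (e.trans h3.symm)
      · simpa using h2
    exact no_36960 hTM hyu.symm (fun t ht => ht.2) (fun t ht => fix_of_card_one h1 ht) hTc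

/-- The setwise stabiliser of a pair has order dividing 887040. -/
theorem card_pair_dvd {s : Finset GolayPt} (hs : s.card = 2) : Nat.card ↥(M24 ⊓ StS s) ∣ 887040 := by
  classical
  have hinv : ∀ t ∈ M24 ⊓ StS s, ∀ a ∈ s, t a ∈ s := fun t ht a ha => apply_mem_of_StS ht.2 ha
  have h1 := card_dvd_fix_mul hinv
  rw [hs] at h1
  have h2 : (M24 ⊓ StS s) ⊓ fixingSubgroup PG (s : Set GolayPt) ≤ Kfix s := by
    intro g hg
    exact ⟨hg.1.1, hg.2⟩
  have h3 := Subgroup.card_dvd_of_le h2
  rw [card_Kfix_E s 443520 (by rw [hs]; norm_num) (by rw [hs]; decide)] at h3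
  exact h1.trans (Nat.mul_dvd_mul_right h3 _)

end Cfsg.Agent.Lib.GS1.M24I
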