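import Mathlib
import Cfsg.Agent.Lib.CompLen.Subdirect

/-!
The core of the O'Nan--Scott theorem: the intersection of a point stabiliser with a nonabelian
minimal normal subgroup.
-/

set_option autoImplicit false

namespace Cfsg.Agent.Lib.GS1.ONS

open Function

section coord

variable {T : Type*} [Group T] {m : ℕ}

theorem center_and_perfect [IsSimpleGroup T] (h : ¬ IsMulCommutative T) :
    (∀ x : T, (∀ y, x * y = y * x) → x = 1) ∧ commutator T = ⊤ := by
  constructor
  · intro x hx
    rcases (inferInstance : (Subgroup.center T).Normal).eq_bot_or_eq_top with h0 | h0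
    · have h1 : x ∈ Subgroup.center T := Subgroup.mem_center_iff.mpr fun y => (hx y).symm
      rw [h0] at h1
      exact h1
    · exfalso
      apply h
      refine ⟨⟨fun a b => ?_⟩⟩
      have h1 : a ∈ Subgroup.center T := by rw [h0]; trivial
      exact (Subgroup.mem_center_iff.mp h1 b).symm
  · rcases (inferInstance : (commutator T).Normal).eq_bot_or_eq_top with h0 | h0
    · exfalso
      apply h
      refine ⟨⟨fun a b => ?_⟩⟩
      have h1 := Subgroup.commutator_mem_commutator (Subgroup.mem_top a) (Subgroup.mem_top b)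
      have h2 : commutator T = ⁅(⊤ : Subgroup T), (⊤ : Subgroup T)⁆ := rfl
      rw [← h2, h0, Subgroup.mem_bot, commutatorElement_eq_one_iff_mul_comm] at h1
      exact h1
    · exact h0

theorem coord_of_surj [IsSimpleGroup T] (hZ : ∀ x : T, (∀ y, x * y = y * x) → x = 1)
    (φ : (Fin m → T) →* T) (hφ : Surjective φ) :
    ∃ (j : Fin m) (β : T ≃* T), ∀ a, φ a = β (a j) := by
  classical
  let ι : Fin m → T →* (Fin m → T) := fun j => MonoidHom.mulSingle (fun _ => T) j
  have hι : ∀ j t, ι j t = Pi.mulSingle j t := fun _ _ => rfl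
  have hcomm : ∀ (j : Fin m) (a : Fin m → T) (t : T),
      a * ι j t * a⁻¹ = ι j (a j * t * (a j)⁻¹) := by
    intro j a t
    ext i
    by_cases h : i = j
    · subst h; simp [hι]
    · simp [hι, Pi.mulSingle_eq_of_ne h]
  have hnorm : ∀ j, ((φ.comp (ι j)).range).Normal := by
    intro j
    constructor
    rintro _ ⟨t, rfl⟩ g
    obtain ⟨a, rfl⟩ := hφ g
    refine ⟨a j * t * (a j)⁻¹, ?_⟩
    simp only [MonoidHom.comp_apply]
    rw [← hcomm, map_mul, map_mul, map_inv]
  have hex : ∃ j, (φ.comp (ι j)).range = ⊤ := by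
    by_contra hcon
    push Not at hcon
    have hall : ∀ j t, φ (ι j t) = 1 := by
      intro j t
      have h0 := (hnorm j).eq_bot_or_eq_top.resolve_right (hcon j)
      have h1 : φ (ι j t) ∈ (φ.comp (ι j)).range := ⟨t, rfl⟩
      rw [h0] at h1
      exact h1
    have key : ∀ (S : Finset (Fin m)) (a : Fin m → T), (∀ i, i ∉ S → a i = 1) → φ a = 1 := by
      intro S
      induction S using Finset.induction_on with
      | empty =>
        intro a ha
        have h1 : a = 1 := by
          ext i
          simpa using ha i (by simp)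
        rw [h1, map_one]
      | insert j S hj ih =>
        intro a ha
        have h1 : a = Function.update a j 1 * ι j (a j) := by
          ext i
          by_cases h : i = j
          · subst h; simp [hι]
          · simp [hι, Pi.mulSingle_eq_of_ne h, Function.update_of_ne h]
        rw [h1, map_mul, hall, mul_one]
        apply ih
        intro i hi
        by_cases h : i = j
        · subst h; simp
        · rw [Function.update_of_ne h]
          exact ha i (by simp [h, hi])
    obtain ⟨t, ht⟩ := exists_ne (1 : T)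
    obtain ⟨a, rfl⟩ := hφ t
    exact ht (key Finset.univ a (by simp))
  obtain ⟨j, hj⟩ := hex
  have hsurj : Surjective (φ.comp (ι j)) := MonoidHom.range_eq_top.mp hj
  have hker : ∀ a : Fin m → T, a j = 1 → φ a = 1 := by
    intro a ha
    apply hZ
    intro y
    obtain ⟨t, rfl⟩ := hsurj y
    simp only [MonoidHom.comp_apply]
    rw [← map_mul, ← map_mul]
    congr 1
    ext i
    by_cases h : i = j
    · subst h; simp [hι, ha]
    · simp [hι, Pi.mulSingle_eq_of_ne h]
  have hinj : Injective (φ.comp (ι j)) := by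
    rw [← MonoidHom.ker_eq_bot_iff]
    rcases (inferInstance : ((φ.comp (ι j)).ker).Normal).eq_bot_or_eq_top with h0 | h0
    · exact h0
    · exfalso
      obtain ⟨t, ht⟩ := exists_ne (1 : T)
      obtain ⟨s, rfl⟩ := hsurj t
      have h1 : s ∈ (φ.comp (ι j)).ker := by rw [h0]; trivial
      exact ht h1
  refine ⟨j, MulEquiv.ofBijective (φ.comp (ι j)) ⟨hinj, hsurj⟩, fun a => ?_⟩
  have h1 : φ (a * (ι j (a j))⁻¹) = 1 := by
    apply hker
    simp [hι]
  have h2 : φ a = φ (ι j (a j)) := by
    rw [map_mul, map_inv, mul_inv_eq_one] at h1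
    exact h1
  rw [h2]
  rfl

theorem exists_equiv_of_ker_eq {V : Type*} [Group V] (f g : V →* T) (hf : Surjective f)
    (hg : Surjective g) (h : f.ker = g.ker) : ∃ θ : T ≃* T, ∀ v, g v = θ (f v) := by
  let e1 := QuotientGroup.quotientKerEquivOfSurjective f hf
  let e2 := QuotientGroup.quotientKerEquivOfSurjective g hg
  let e3 := QuotientGroup.quotientMulEquivOfEq h
  refine ⟨e1.symm.trans (e3.trans e2), fun v => ?_⟩
  have h1 : e1.symm (f v) = (v : V ⧸ f.ker) := (MulEquiv.symm_apply_eq e1).2 rfl
  simp only [MulEquiv.trans_apply]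
  rw [h1]
  rfl

end coord

section main

variable {G : Type*} [Group G] {T : Type*} [Group T] {m : ℕ} (N : Subgroup G) [hNn : N.Normal]
  (e : N ≃* (Fin m → T))

theorem perm_coord [IsSimpleGroup T] (hZ : ∀ x : T, (∀ y, x * y = y * x) → x = 1) (g : G)
    (i : Fin m) : ∃ (j : Fin m) (β : T ≃* T), ∀ n : N,
      e (MulAut.conjNormal g n) i = β (e n j) := by
  let φ : (Fin m → T) →* T := (Pi.evalMonoidHom (fun _ => T) i).comp
    (e.toMonoidHom.comp ((MulAut.conjNormal g : N ≃* N).toMonoidHom.comp e.symm.toMonoidHom))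
  have hφ : Surjective φ := by
    intro t
    refine ⟨e ((MulAut.conjNormal g : N ≃* N).symm (e.symm (fun _ => t))), ?_⟩
    simp [φ]
  obtain ⟨j, β, h⟩ := coord_of_surj hZ φ hφ
  refine ⟨j, β, fun n => ?_⟩
  have h1 := h (e n)
  simpa [φ] using h1

theorem conjNormal_coe_mem (n0 n : N) :
    MulAut.conjNormal (n0 : G) n = n0 * n * n0⁻¹ := by
  apply Subtype.ext
  simp [MulAut.conjNormal_apply]

theorem coord_trans [IsSimpleGroup T] (hZ : ∀ x : T, (∀ y, x * y = y * x) → x = 1)
    (hmin : ∀ M : Subgroup G, M.Normal → M ≤ N → M = ⊥ ∨ M = N) (i i' : Fin m) :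
    ∃ (g : G) (β : T ≃* T), ∀ n : N, e (MulAut.conjNormal g n) i = β (e n i') := by
  classical
  by_contra hcon
  let Orb : Fin m → Prop := fun j =>
    ∃ (g : G) (β : T ≃* T), ∀ n : N, e (MulAut.conjNormal g n) i = β (e n j)
  have hOrb_i : Orb i := ⟨1, MulEquiv.refl T, fun n => by simp⟩
  have hOrb' : ¬ Orb i' := hcon
  let K : Subgroup N := ⨅ (j : Fin m) (_ : Orb j),
    ((Pi.evalMonoidHom (fun _ => T) j).comp e.toMonoidHom).ker
  have hK : ∀ n : N, n ∈ K ↔ ∀ j, Orb j → e n j = 1 := by
    intro n
    simp only [K, Subgroup.mem_iInf, MonoidHom.mem_ker]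
    rfl
  let M : Subgroup G := K.map N.subtype
  have hMn : M.Normal := by
    constructor
    rintro _ ⟨n, hn, rfl⟩ g
    refine ⟨MulAut.conjNormal g n, ?_, ?_⟩
    · rw [SetLike.mem_coe, hK]
      intro j hj
      obtain ⟨j', β', h'⟩ := perm_coord N e hZ g j
      rw [h']
      have hj' : Orb j' := by
        obtain ⟨g0, β0, h0⟩ := hj
        refine ⟨g0 * g, β'.trans β0, fun x => ?_⟩
        rw [map_mul, MulAut.mul_apply, h0, h']
        rfl
      rw [(hK n).1 hn j' hj', map_one]
    · simp [MulAut.conjNormal_apply]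
  have hMle : M ≤ N := by
    rintro _ ⟨n, _, rfl⟩
    exact n.2
  obtain ⟨t, ht⟩ := exists_ne (1 : T)
  rcases hmin M hMn hMle with h | h
  · let n : N := e.symm (Pi.mulSingle i' t)
    have hn : n ∈ K := by
      rw [hK]
      intro j hj
      have hji : j ≠ i' := by
        rintro rfl
        exact hOrb' hj
      simp [n, Pi.mulSingle_eq_of_ne hji]
    have h0 : (n : G) ∈ M := ⟨n, hn, rfl⟩
    rw [h, Subgroup.mem_bot] at h0
    have h1 : n = 1 := Subtype.ext h0
    have h2 : e n i' = t := by simp [n]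
    rw [h1] at h2
    simp at h2
    exact ht h2.symm
  · let n : N := e.symm (fun _ => t)
    have h0 : (n : G) ∈ M := by
      rw [h]
      exact n.2
    obtain ⟨n', hn', hnn⟩ := h0
    have h1 : n' = n := Subtype.ext hnn
    have h2 := (hK n').1 hn' i hOrb_i
    rw [h1] at h2
    simp [n] at h2
    exact ht h2

include e in
/-- The abstract core. -/
theorem main_abstract [IsSimpleGroup T] (hT' : ¬ IsMulCommutative T) (hm : 0 < m)
    (hmin : ∀ M : Subgroup G, M.Normal → M ≤ N → M = ⊥ ∨ M = N)
    (S : Subgroup G) (hS : IsCoatom S) (hNS : ¬ N ≤ S) :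
    ∃ e' : N ≃* (Fin m → T),
      (∃ K : Fin m → Subgroup T, (∀ i, K i ≠ ⊤) ∧ ∀ n : N, (n : G) ∈ S ↔ ∀ i, e' n i ∈ K i) ∨
      (∃ (k : ℕ) (c : Fin m → Fin m), 2 ≤ k ∧
        (∀ j : Fin m, Nat.card {i : Fin m // c i = j} = k ∨ Nat.card {i : Fin m // c i = j} = 0) ∧
        ∀ n : N, (n : G) ∈ S ↔ ∀ i j : Fin m, c i = c j → e' n i = e' n j) := by
  classical
  obtain ⟨hZ, hT⟩ := center_and_perfect hT'
  have surj : ∀ g : G, ∃ n : N, g * (n : G) ∈ S := by
    intro g
    have hsup : S ⊔ N = ⊤ := hS.2 _ (lt_of_le_of_ne le_sup_left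
      (fun h => hNS (h ▸ le_sup_right)))
    have hg : g ∈ S ⊔ N := by rw [hsup]; trivial
    obtain ⟨y, hy, z, hz, rfl⟩ := Subgroup.mem_sup_of_normal_right.mp hg
    refine ⟨⟨z⁻¹, N.inv_mem hz⟩, ?_⟩
    simpa using hy
  have hconjS : ∀ s ∈ S, ∀ n : N, (n : G) ∈ S → ((MulAut.conjNormal s n : N) : G) ∈ S := by
    intro s hs n hn
    rw [MulAut.conjNormal_apply]
    exact S.mul_mem (S.mul_mem hs hn) (S.inv_mem hs)
  have hts : ∀ i i' : Fin m, ∃ s ∈ S, ∃ β : T ≃* T, ∀ n : N,
      e (MulAut.conjNormal s n) i = β (e n i') := by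
    intro i i'
    obtain ⟨g, β, h⟩ := coord_trans N e hZ hmin i i'
    obtain ⟨n0, hn0⟩ := surj g
    refine ⟨g * n0, hn0, (MulAut.conj (e n0 i')).trans β, fun n => ?_⟩
    rw [map_mul, MulAut.mul_apply, h, conjNormal_coe_mem]
    simp [Pi.mul_apply]
  let P : Fin m → N →* T := fun i => (Pi.evalMonoidHom (fun _ => T) i).comp e.toMonoidHom
  have hP : ∀ i n, P i n = e n i := fun _ _ => rfl
  let D : Subgroup N := S.subgroupOf N
  let U : Fin m → Subgroup T := fun i => D.map (P i)
  have hU : ∀ i u, u ∈ U i ↔ ∃ d : N, (d : G) ∈ S ∧ e d i = u := by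
    intro i u
    simp only [U, Subgroup.mem_map, D, Subgroup.mem_subgroupOf]
    rfl
  by_cases hall : ∀ i, U i ≠ ⊤
  · -- the product case
    refine ⟨e, Or.inl ⟨U, hall, fun n => ⟨fun h i => (hU i _).2 ⟨n, h, rfl⟩, fun h => ?_⟩⟩⟩
    let W : Subgroup N := ⨅ i, (U i).comap (P i)
    have hW : ∀ x : N, x ∈ W ↔ ∀ i, e x i ∈ U i := by
      intro x
      simp only [W, Subgroup.mem_iInf, Subgroup.mem_comap]
      rfl
    let WG : Subgroup G := W.map N.subtype
    have hstep : ∀ s ∈ S, ∀ x ∈ WG, s * x * s⁻¹ ∈ WG := by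
      rintro s hs _ ⟨x, hx, rfl⟩
      refine ⟨MulAut.conjNormal s x, ?_, by simp [MulAut.conjNormal_apply]⟩
      rw [SetLike.mem_coe, hW]
      intro i
      obtain ⟨j, β, hβ⟩ := perm_coord N e hZ s i
      rw [hβ]
      obtain ⟨d, hd, hdx⟩ := (hU j _).1 ((hW x).1 hx j)
      exact (hU i _).2 ⟨MulAut.conjNormal s d, hconjS s hs d hd, by rw [hβ, hdx]⟩
    have hnorm : S ≤ Subgroup.normalizer (WG : Set G) := by
      intro s hs
      rw [Subgroup.mem_normalizer_iff]
      intro x
      refine ⟨hstep s hs x, fun h1 => ?_⟩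
      have h2 := hstep s⁻¹ (S.inv_mem hs) _ h1
      have h3 : s⁻¹ * (s * x * s⁻¹) * s⁻¹⁻¹ = x := by group
      rwa [h3] at h2
    have hnW : n ∈ W := (hW n).2 h
    by_cases hWS : WG ≤ S
    · exact hWS ⟨n, hnW, rfl⟩
    exfalso
    have hle : WG ≤ Subgroup.normalizer (WG : Set G) := Subgroup.le_normalizer
    have hlt : S < Subgroup.normalizer (WG : Set G) :=
      lt_of_le_of_ne hnorm (fun h0 => hWS (h0 ▸ hle))
    have htop := hS.2 _ hlt
    have hWn : WG.Normal := Subgroup.normalizer_eq_top_iff.mp htop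
    have hWN : WG ≤ N := by
      rintro _ ⟨x, _, rfl⟩
      exact x.2
    rcases hmin WG hWn hWN with h0 | h0
    · exact hWS (h0 ▸ bot_le)
    · apply hall ⟨0, hm⟩
      rw [eq_top_iff]
      intro t _
      let x : N := e.symm (fun _ => t)
      have h1 : (x : G) ∈ WG := by
        rw [h0]
        exact x.2
      obtain ⟨x', hx', hxx⟩ := h1
      have h2 : x' = x := Subtype.ext hxx
      rw [h2] at hx'
      have h3 := (hW x).1 hx' ⟨0, hm⟩
      simpa [x] using h3
  · -- the diagonal case
    push Not at hall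
    obtain ⟨i0, hi0⟩ := hall
    have hUtop : ∀ i, U i = ⊤ := by
      intro i
      rw [eq_top_iff]
      intro t _
      obtain ⟨s, hs, β, hβ⟩ := hts i i0
      have h1 : β.symm t ∈ U i0 := by rw [hi0]; trivial
      obtain ⟨d, hd, hdt⟩ := (hU i0 _).1 h1
      refine (hU i _).2 ⟨MulAut.conjNormal s d, hconjS s hs d hd, ?_⟩
      rw [hβ, hdt]
      simp
    let p : Fin m → D →* T := fun i => (P i).comp D.subtype
    have hp : ∀ i (d : D), p i d = e (d : N) i := fun _ _ => rfl
    have hpsurj : ∀ i, Surjective (p i) := by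
      intro i t
      have h1 : t ∈ U i := by rw [hUtop]; trivial
      obtain ⟨d, hd, hdt⟩ := (hU i _).1 h1
      exact ⟨⟨d, hd⟩, hdt⟩
    let f : Fin m → Subgroup D := fun i => (p i).ker
    let rep : Subgroup D → Fin m := fun K => if h : ∃ i, f i = K then h.choose else ⟨0, hm⟩
    let c : Fin m → Fin m := fun i => rep (f i)
    have hfc : ∀ i, f (c i) = f i := by
      intro i
      have h1 : ∃ j, f j = f i := ⟨i, rfl⟩
      simp only [c, rep, dif_pos h1]
      exact h1.choose_spec
    have hcc : ∀ i j, c i = c j ↔ f i = f j := by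
      intro i j
      constructor
      · intro h
        rw [← hfc i, ← hfc j, h]
      · intro h
        simp only [c, h]
    have hcci : ∀ i, c (c i) = c i := fun i => (hcc _ _).2 (hfc i)
    have hθ : ∀ i, ∃ θ : T ≃* T, ∀ d : D, p (c i) d = θ (p i d) := fun i =>
      exists_equiv_of_ker_eq (p i) (p (c i)) (hpsurj i) (hpsurj _) (hfc i).symm
    choose θ hθ using hθ
    let e' : N ≃* (Fin m → T) := e.trans (MulEquiv.piCongrRight θ)
    have he' : ∀ (n : N) i, e' n i = θ i (e n i) := fun _ _ => rfl
    have he'D : ∀ (d : D) i, e' (d : N) i = p (c i) d := fun d i => (hθ i d).symm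
    -- independence of the representatives
    have hsurjR : ∀ g : Fin m → T, ∃ d : D, ∀ r, c r = r → p r d = g r := by
      intro g
      let ι := {r : Fin m // c r = r}
      let F : ι → D →* T := fun r => p r.1
      have hF : ∀ r, Surjective (F r) := fun r => hpsurj r.1
      have hi : ∀ r r' : ι, r' ≠ r → (F r').ker ≠ (F r).ker := by
        intro r r' hne h0
        apply hne
        apply Subtype.ext
        rw [← r.2, ← r'.2]
        exact (hcc _ _).2 h0
      have key : ∀ J : Finset ι, ∃ d : D, ∀ r ∈ J, F r d = g r.1 := by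
        intro J
        induction J using Finset.induction_on with
        | empty => exact ⟨1, by simp⟩
        | insert r J hr ih =>
          obtain ⟨d, hd⟩ := ih
          have h1 := (Cfsg.Agent.Lib.CompLen.isolated_surj hT F hF r (hi r) J hr).1
          have h2 : (F r d)⁻¹ * g r.1 ∈ (J.inf fun j => (F j).ker).map (F r) := by
            rw [h1]; trivial
          obtain ⟨x, hx, hxt⟩ := h2
          refine ⟨d * x, fun r' hr' => ?_⟩
          rw [map_mul]
          rcases Finset.mem_insert.mp hr' with rfl | hr''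
          · rw [hxt]
            group
          · have h4 : x ∈ J.inf (fun j => (F j).ker) := hx
            have h3 : x ∈ (F r').ker := (Finset.inf_le (f := fun j => (F j).ker) hr'') h4
            rw [MonoidHom.mem_ker] at h3
            rw [h3, mul_one, hd r' hr'']
      obtain ⟨d, hd⟩ := key Finset.univ
      exact ⟨d, fun r hr => hd ⟨r, hr⟩ (Finset.mem_univ _)⟩
    have hforward : ∀ n : N, (n : G) ∈ S → ∀ i j : Fin m, c i = c j → e' n i = e' n j := by
      intro n hn i j hij
      have h1 := he'D ⟨n, hn⟩ i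
      have h2 := he'D ⟨n, hn⟩ j
      simp only at h1 h2
      rw [h1, h2, hij]
    have hback : ∀ n : N, (∀ i j : Fin m, c i = c j → e' n i = e' n j) → (n : G) ∈ S := by
      intro n hn
      obtain ⟨d, hd⟩ := hsurjR (fun r => e' n r)
      have h1 : e' (d : N) = e' n := by
        funext i
        rw [he'D, hd (c i) (hcci i)]
        exact hn _ _ (hcci i)
      have h2 : (d : N) = n := e'.injective h1
      rw [← h2]
      exact d.2
    -- the classes have the same size
    have hle : ∀ i i' : Fin m, Nat.card {x : Fin m // c x = c i} ≤ Nat.card {x : Fin m // c x = c i'} := by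
      intro i i'
      obtain ⟨s, hs, β0, h0⟩ := hts i i'
      have hσ : ∀ x, ∃ (j : Fin m) (β : T ≃* T), ∀ n : N,
          e (MulAut.conjNormal s n) x = β (e n j) := perm_coord N e hZ s
      choose σ β hβ using hσ
      obtain ⟨t, ht⟩ := exists_ne (1 : T)
      have hσi : σ i = i' := by
        by_contra hne
        let n : N := e.symm (Pi.mulSingle i' t)
        have h1 := h0 n
        rw [hβ] at h1
        have h2 : e n (σ i) = 1 := by simp [n, Pi.mulSingle_eq_of_ne hne]
        have h3 : e n i' = t := by simp [n]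
        rw [h2, h3, map_one] at h1
        have h4 : β0 t = 1 := h1.symm
        rw [map_eq_one_iff _ β0.injective] at h4
        exact ht h4
      have hconjD : ∀ (d : D), ((MulAut.conjNormal s (d : N) : N) : G) ∈ S :=
        fun d => hconjS s hs d d.2
      have hfσ : ∀ x y, f x = f y → f (σ x) = f (σ y) := by
        intro x y hxy
        ext d
        simp only [f, MonoidHom.mem_ker, hp]
        have h1 : e (MulAut.conjNormal s (d : N)) x = 1 ↔ e (MulAut.conjNormal s (d : N)) y = 1 := by
          have h2 : (⟨MulAut.conjNormal s (d : N), hconjD d⟩ : D) ∈ f x ↔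
              (⟨MulAut.conjNormal s (d : N), hconjD d⟩ : D) ∈ f y := by rw [hxy]
          exact h2
        rw [hβ, hβ, map_eq_one_iff _ (β x).injective, map_eq_one_iff _ (β y).injective] at h1
        exact h1
      have hσinj : Injective σ := by
        intro x y hxy
        by_contra hne
        let n : N := (MulAut.conjNormal s : N ≃* N).symm (e.symm (Pi.mulSingle x t))
        have h1 : e (MulAut.conjNormal s n) x = t := by simp [n]
        have h2 : e (MulAut.conjNormal s n) y = 1 := by
          simp [n, Pi.mulSingle_eq_of_ne (Ne.symm hne)]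
        rw [hβ] at h1 h2
        rw [map_eq_one_iff _ (β y).injective, ← hxy] at h2
        rw [h2, map_one] at h1
        exact ht h1.symm
      refine Nat.card_le_card_of_injective
        (fun x => ⟨σ x.1, ?_⟩) (fun x y hxy => Subtype.ext (hσinj (congrArg Subtype.val hxy)))
      rw [hcc, ← hσi]
      exact hfσ _ _ ((hcc _ _).1 x.2)
    have heq : ∀ i i' : Fin m,
        Nat.card {x : Fin m // c x = c i} = Nat.card {x : Fin m // c x = c i'} :=
      fun i i' => le_antisymm (hle i i') (hle i' i)
    refine ⟨e', Or.inr ⟨Nat.card {x : Fin m // c x = c ⟨0, hm⟩}, c, ?_, ?_,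
      fun n => ⟨hforward n, hback n⟩⟩⟩
    · by_contra hlt
      have h1 : Nat.card {x : Fin m // c x = c ⟨0, hm⟩} ≠ 0 := by
        rw [Nat.card_ne_zero]
        exact ⟨⟨⟨⟨0, hm⟩, rfl⟩⟩, inferInstance⟩
      have h2 : Nat.card {x : Fin m // c x = c ⟨0, hm⟩} = 1 := by omega
      apply hNS
      intro y hy
      have h3 := hback ⟨y, hy⟩ (fun i j hij => by
        have h4 : Nat.card {x : Fin m // c x = c j} = 1 := by rw [heq j ⟨0, hm⟩, h2]
        rw [Nat.card_eq_one_iff_unique] at h4
        have h5 := h4.1.elim (⟨i, hij⟩ : {x : Fin m // c x = c j}) ⟨j, rfl⟩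
        have h6 : i = j := congrArg Subtype.val h5
        rw [h6])
      exact h3
    · intro j
      by_cases hj : ∃ i, c i = j
      · obtain ⟨i, rfl⟩ := hj
        exact Or.inl (heq _ _)
      · right
        have h1 : IsEmpty {i : Fin m // c i = j} := ⟨fun x => hj ⟨x.1, x.2⟩⟩
        exact Nat.card_of_isEmpty

end main

/-- A type synonym without algebraic structure. -/
def Car (k : ℕ) : Type := Fin k

end Cfsg.Agent.Lib.GS1.ONS
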